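import Cfsg.Agent.H58.ExtField.Sym
import Cfsg.Agent.H5.OmegaGL

/-!
# Overgroups of orthogonal groups over an extension field of prime degree: the form and the elements

`Q` is a quadratic form over `F` whose polar form is the trace of the `E`-bilinear form `fB`, and `M` is a
subgroup of the orthogonal group containing the `E`-linear elements of the commutator subgroup and an element that
is not semilinear.
-/

set_option autoImplicit false
set_option linter.unusedSectionVars false
set_option linter.unusedVariables false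

namespace Cfsg.Agent.H58.ExtField.Orth

open QuadraticMap hiding sq
open Cfsg.Agent.H5

variable {F : Type*} [Field F] [Fintype F] {E : Type*} [Field E] [Fintype E] [Algebra F E]
variable {V : Type*} [AddCommGroup V] [Module F V] [Finite V] [Module E V] [IsScalarTower F E V]

/-- The semilinear maps. -/
def SemiL (E : Type*) [Field E] [Module E V] (g : V ≃ₗ[F] V) : Prop :=
  ∀ c : E, ∃ d : E, ∀ x : V, g (c • x) = d • g x

theorem trace_ext {a b : E} (h : ∀ c, Algebra.trace F E (a * c) = Algebra.trace F E (b * c)) : a = b :=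
  sub_eq_zero.1 (eq_zero_of_trace (F := F) fun c => by rw [sub_mul, map_sub, h, sub_self])

/-- A self-adjoint extension gives a bilinear form over it. -/
theorem exists_form (Q : QuadraticForm F V)
    (hsa : ∀ (c : E) (x y : V), polar Q (c • x) y = polar Q x (c • y)) :
    ∃ fB : V →ₗ[E] V →ₗ[E] E, ∀ x y c, Algebra.trace F E (fB x y * c) = polar Q (c • x) y := by
  choose f hf using fun (x y : V) => exists_trace_rep (F := F) (E := E)
    ((polarBilin Q).flip y ∘ₗ (LinearMap.toSpanSingleton E V x).restrictScalars F)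
  have hf' : ∀ x y c, Algebra.trace F E (f x y * c) = polar Q (c • x) y := fun x y c => (hf x y c).symm
  refine ⟨LinearMap.mk₂ E f (fun x x' y => trace_ext (F := F) fun c => ?_) (fun d x y => trace_ext (F := F) fun c => ?_)
    (fun x y y' => trace_ext (F := F) fun c => ?_) (fun d x y => trace_ext (F := F) fun c => ?_), fun x y c => hf' x y c⟩
  · rw [add_mul, map_add, hf', hf', hf', smul_add, polar_add_left]
  · rw [hf', smul_eq_mul, mul_comm d, mul_assoc, hf', mul_comm d, smul_smul, mul_comm c]
  · rw [add_mul, map_add, hf', hf', hf', polar_add_right]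
  · rw [hf', smul_eq_mul, mul_comm d, mul_assoc, hf', ← hsa, smul_smul]

/-- The quadratic form over the extension. -/
def qf (fB : V →ₗ[E] V →ₗ[E] E) : QuadraticForm E V := LinearMap.BilinMap.toQuadraticMap ((2 : E)⁻¹ • fB)

theorem qf_apply (fB : V →ₗ[E] V →ₗ[E] E) (x : V) : qf fB x = (2 : E)⁻¹ * fB x x := rfl

/-- The hypotheses. -/
structure OCtx (Q : QuadraticForm F V) (fB : V →ₗ[E] V →ₗ[E] E) (M : Subgroup (orth Q)) : Prop where
  prime : (Module.finrank F E).Prime
  two : (2 : F) ≠ 0
  nd : (polarBilin Q).Nondegenerate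
  htr : ∀ x y c, Algebra.trace F E (fB x y * c) = polar Q (c • x) y
  dim : 3 ≤ Module.finrank E V
  lin : ∀ g ∈ commutator (orth Q), (∀ (c : E) (x : V), g.1 (c • x) = c • g.1 x) → g ∈ M
  notSemi : ∃ h ∈ M, ¬ SemiL E h.1

variable {Q : QuadraticForm F V} {fB : V →ₗ[E] V →ₗ[E] E} {M : Subgroup (orth Q)}

namespace OCtx

variable (H : OCtx Q fB M)
include H

theorem twoE : (2 : E) ≠ 0 := fun h => H.two ((algebraMap F E).injective (by rw [map_ofNat, h, map_zero]))

theorem polar_eq (x y : V) : polar Q x y = Algebra.trace F E (fB x y) := by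
  conv_lhs => rw [← one_smul E x, ← H.htr, mul_one]

theorem adj (c : E) (x y : V) : polar Q (c • x) y = polar Q x (c • y) := by
  rw [← H.htr, H.polar_eq x, map_smul, smul_eq_mul, mul_comm]

theorem fB_comm (x y : V) : fB x y = fB y x := trace_ext (F := F) fun c => by
  rw [H.htr, H.htr, H.adj, polar_comm]

theorem qf_polar (x y : V) : polar (qf fB) x y = fB x y := by
  rw [qf, LinearMap.BilinMap.polar_toQuadraticMap, LinearMap.smul_apply, LinearMap.smul_apply,
    LinearMap.smul_apply, LinearMap.smul_apply, H.fB_comm y x, smul_eq_mul]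
  have := H.twoE
  field_simp
  ring

theorem qf_zero {x : V} : qf fB x = 0 ↔ fB x x = 0 := by
  rw [qf_apply, mul_eq_zero, or_iff_right (inv_ne_zero H.twoE)]

theorem form_eq (x : V) : Q x = Algebra.trace F E (qf fB x) := by
  refine mul_left_cancel₀ H.two ?_
  have e : fB x x = (2 : F) • qf fB x := by
    rw [qf_apply, Algebra.smul_def, map_ofNat, ← mul_assoc, mul_inv_cancel₀ H.twoE, one_mul]
  rw [← polar_self', H.polar_eq, e, map_smul, smul_eq_mul]

theorem exists_ne {x : V} (hx : x ≠ 0) : ∃ y, fB x y ≠ 0 := by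
  by_contra h
  push Not at h
  exact hx (H.nd.1 x fun y => by rw [polarBilin_apply_apply, H.polar_eq, h, map_zero])

theorem nondeg : (polarBilin (qf fB)).Nondegenerate := by
  constructor <;> intro x hx <;> by_contra hne <;> obtain ⟨y, hy⟩ := H.exists_ne hne
  · exact hy (by rw [← H.qf_polar]; exact hx y)
  · exact hy (by rw [H.fB_comm, ← H.qf_polar]; exact hx y)

theorem exists_rep (φ : V →ₗ[E] E) : ∃ u, ∀ z, φ z = fB u z := by
  haveI : Module.Finite E V := Module.Finite.of_finite
  have hinj : Function.Injective fB := fun a b hab => by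
    by_contra hne
    obtain ⟨y, hy⟩ := H.exists_ne (sub_ne_zero.2 hne)
    exact hy (by rw [map_sub, LinearMap.sub_apply, hab, sub_self])
  obtain ⟨u, hu⟩ := (LinearMap.injective_iff_surjective_of_finrank_eq_finrank
    (f := fB) (Subspace.dual_finrank_eq).symm).1 hinj φ
  exact ⟨u, fun z => by rw [hu]⟩

theorem exists_dual {S : Submodule E V} {x : V} (hx : x ∉ S) :
    ∃ u, fB u x = 1 ∧ ∀ y ∈ S, fB u y = 0 := by
  obtain ⟨φ, h1, h2⟩ := Submodule.exists_dual_map_eq_bot_of_notMem hx inferInstance
  obtain ⟨u, hu⟩ := H.exists_rep ((φ x)⁻¹ • φ)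
  refine ⟨u, by rw [← hu]; simp [h1], fun y hy => ?_⟩
  have : φ y = 0 := by
    rw [← Submodule.mem_bot (R := E), ← h2]
    exact Submodule.mem_map_of_mem hy
  rw [← hu]; simp [this]

theorem cardE : Nat.card E ≠ 2 := by
  intro h
  refine H.twoE ?_
  have h1 : Fintype.card E = 2 := by rw [← Nat.card_eq_fintype_card, h]
  have := FiniteField.cast_card_eq_zero E
  rwa [h1] at this

theorem exists_iso : ∃ v : V, v ≠ 0 ∧ fB v v = 0 := by
  haveI : Module.Finite E V := Module.Finite.of_finite
  obtain ⟨e, he0, he⟩ := exists_singular (Q := qf fB) H.nondeg (by have := H.dim; omega)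
  exact ⟨e, he0, H.qf_zero.1 he⟩

theorem exists_partner {v : V} (hv0 : v ≠ 0) (hv : fB v v = 0) : ∃ f, fB f f = 0 ∧ fB v f = 1 := by
  haveI : Module.Finite E V := Module.Finite.of_finite
  obtain ⟨f, hf⟩ := exists_hypPair H.nondeg hv0 (H.qf_zero.2 hv)
  exact ⟨f, H.qf_zero.1 hf.right, by rw [← H.qf_polar]; exact hf.pair⟩

theorem hypPair {v f : V} (hv : fB v v = 0) (hf : fB f f = 0) (hvf : fB v f = 1) : HypPair (qf fB) v f :=
  ⟨H.qf_zero.2 hv, H.qf_zero.2 hf, by rw [H.qf_polar]; exact hvf⟩

end OCtx

/-- An isometry over the extension, over the base field. -/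
noncomputable def resHom (H : OCtx Q fB M) : orth (qf fB) →* orth Q where
  toFun g := ⟨g.1.restrictScalars F, fun x => by
    rw [H.form_eq, H.form_eq]; exact congrArg _ (g.2 x)⟩
  map_one' := orth_ext fun _ => rfl
  map_mul' _ _ := orth_ext fun _ => rfl

theorem resHom_apply (H : OCtx Q fB M) (g : orth (qf fB)) (x : V) : (resHom H g).1 x = g.1 x := rfl

/-- The Eichler transformations over the extension. -/
noncomputable def rho (H : OCtx Q fB M) (x u : V) : orth Q := resHom H (eich (qf fB) x u)

namespace OCtx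

variable (H : OCtx Q fB M)
include H

theorem rho_apply {x u : V} (hx : fB x x = 0) (hu : fB x u = 0) (z : V) :
    (rho H x u).1 z = z + fB x z • u - fB u z • x - (qf fB u * fB x z) • x := by
  rw [rho, resHom_apply, eich_apply (H.qf_zero.2 hx) (by rw [H.qf_polar, hu]), H.qf_polar, H.qf_polar]

theorem res_mem {g : orth (qf fB)} (hg : g ∈ commutator (orth (qf fB))) : resHom H g ∈ M := by
  refine H.lin _ ?_ fun c x => ?_
  · have h1 : (commutator (orth (qf fB))).map (resHom H) ≤ commutator (orth Q) := by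
      rw [_root_.commutator_def, Subgroup.map_commutator, _root_.commutator_def]
      exact Subgroup.commutator_mono le_top le_top
    exact h1 ⟨g, hg, rfl⟩
  · rw [resHom_apply, resHom_apply, map_smul]

theorem rho_mem (x u : V) : rho H x u ∈ M := by
  haveI : Module.Finite E V := Module.Finite.of_finite
  exact H.res_mem (eichGroup_le_commutator H.nondeg (Or.inl H.cardE) (eich_mem_eichGroup x u))

/-- `M` moves any singular vector to a multiple of any other. -/
theorem exists_trans {x y : V} (hx0 : x ≠ 0) (hx : fB x x = 0) (hy0 : y ≠ 0) (hy : fB y y = 0) :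
    ∃ g ∈ M, (∀ (c : E) (z : V), g.1 (c • z) = c • g.1 z) ∧ ∃ t : E, t ≠ 0 ∧ g.1 x = t • y := by
  haveI : Module.Finite E V := Module.Finite.of_finite
  obtain ⟨f, hf, hyf⟩ := H.exists_partner hy0 hy
  have hp := H.hypPair hy hf hyf
  have hd : 3 ≤ Module.finrank E V := by have := H.dim; omega
  obtain ⟨g, hg, t, ht, hgx⟩ := exists_pairGroup_map H.nondeg hd hp hx0 (H.qf_zero.2 hx)
  rw [pairGroup_eq_eichGroup H.nondeg hd hp] at hg
  exact ⟨resHom H g, H.res_mem (eichGroup_le_commutator H.nondeg (Or.inl H.cardE) hg),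
    fun c z => by rw [resHom_apply, resHom_apply, map_smul], t, ht, by rw [resHom_apply, hgx]⟩

/-- The squares of the scalings of a pair. -/
theorem exists_scale {v f : V} (hv : fB v v = 0) (hf : fB f f = 0) (hvf : fB v f = 1) {τ : E} (hτ : τ ≠ 0) :
    ∃ g ∈ M, (∀ (c : E) (z : V), g.1 (c • z) = c • g.1 z) ∧
      ∀ z, fB v z = 0 → g.1 z = z + ((τ * τ - 1) * fB f z) • v := by
  haveI : Module.Finite E V := Module.Finite.of_finite
  have hfv : fB f v = 1 := by rw [H.fB_comm, hvf]
  have hq : ∀ s : E, qf fB (v - s • f) = -s := fun s => by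
    rw [map_sub_smul, H.qf_zero.2 hv, H.qf_zero.2 hf, H.qf_polar, hvf]; ring
  set s := refl (qf fB) (v - τ⁻¹ • f) * refl (qf fB) (v - (1 : E) • f)
  have hs : ∀ z, fB v z = 0 → s.1 z = z + ((τ - 1) * fB f z) • v := by
    intro z hz
    simp only [s, orth_mul_apply, refl_apply, hq, H.qf_polar, map_sub, map_smul, map_add, LinearMap.sub_apply,
      LinearMap.smul_apply, smul_eq_mul, hv, hf, hvf, hfv, hz]
    match_scalars <;> field_simp <;> ring
  refine ⟨resHom H (s * s), H.res_mem ?_, fun c z => by rw [resHom_apply, resHom_apply, map_smul], fun z hz => ?_⟩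
  · rw [commutator_eq_ker H.nondeg (Or.inl H.cardE), MonoidHom.mem_ker, map_mul]
    exact Prod.ext (Int.units_mul_self _) (Int.units_mul_self _)
  · rw [resHom_apply, orth_mul_apply, hs z hz,
      hs _ (by rw [map_add, map_smul, hz, hv, smul_zero, add_zero]), map_add, map_smul, hfv, smul_eq_mul,
      add_assoc, ← add_smul]
    congr 2
    ring

end OCtx

end Cfsg.Agent.H58.ExtField.Orth
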