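import Cfsg.Agent.H58.ExtField.OrthLine

/-!
# Conjugate scalars of a singular line are Galois conjugates
-/

set_option autoImplicit false
set_option linter.unusedSectionVars false
set_option linter.unusedVariables false
set_option linter.style.haveILetI false

namespace Cfsg.Agent.H58.ExtField.Orth

open QuadraticMap hiding sq
open Cfsg.Agent.H5

variable {F : Type*} [Field F] [Fintype F] {E : Type*} [Field E] [Fintype E] [Algebra F E]
variable {V : Type*} [AddCommGroup V] [Module F V] [Finite V] [Module E V] [IsScalarTower F E V]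
variable {Q : QuadraticForm F V} {fB : V →ₗ[E] V →ₗ[E] E} {M : Subgroup (orth Q)}

/-- The elements fixing some vectors. -/
def fixSet (Q : QuadraticForm F V) (S : Set V) : Subgroup (orth Q) where
  carrier := {g | ∀ x ∈ S, g.1 x = x}
  mul_mem' := fun {a b} ha hb x hx => by rw [orth_mul_apply, hb x hx, ha x hx]
  one_mem' := fun x _ => rfl
  inv_mem' := fun {a} ha x hx => by
    conv_lhs => rw [← ha x hx, orth_inv_apply_apply]

/-- A `p`-group fixing the line of `v` pointwise, with the line as its fixed points. -/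
def qGroup (H : OCtx Q fB M) (v : V) : Subgroup (orth Q) where
  carrier := {g | g ∈ M ∧ (∀ a : E, g.1 (a • v) = a • v) ∧
    (∀ z, fB v z = 0 → g.1 z - z ∈ Submodule.span E {v}) ∧ ∀ z, fB v (g.1 z - z) = 0}
  mul_mem' := by
    rintro g h ⟨g0, g1, g2, g3⟩ ⟨h0, h1, h2, h3⟩
    have e : ∀ z, (g * h).1 z - z = (g.1 (h.1 z) - h.1 z) + (h.1 z - z) := fun z => by
      rw [orth_mul_apply]; abel
    refine ⟨mul_mem g0 h0, fun a => by rw [orth_mul_apply, h1, g1], fun z hz => ?_, fun z => ?_⟩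
    · rw [e]
      refine add_mem (g2 _ ?_) (h2 z hz)
      have := h3 z
      rwa [map_sub, hz, sub_zero] at this
    · rw [e, map_add, g3, h3, add_zero]
  one_mem' := ⟨one_mem _, fun a => rfl, fun z _ => by simp, fun z => by simp⟩
  inv_mem' := by
    rintro g ⟨g0, g1, g2, g3⟩
    have e : ∀ z, (g⁻¹).1 z - z = -(g.1 ((g⁻¹).1 z) - (g⁻¹).1 z) := fun z => by
      rw [orth_apply_inv_apply]; abel
    refine ⟨inv_mem g0, fun a => by conv_lhs => rw [← g1 a, orth_inv_apply_apply], fun z hz => ?_, fun z => ?_⟩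
    · rw [e]
      refine neg_mem (g2 _ ?_)
      have := g3 ((g⁻¹).1 z)
      rwa [orth_apply_inv_apply, map_sub, hz, zero_sub, neg_eq_zero] at this
    · rw [e, map_neg, g3, neg_zero]

theorem isPGroup_qGroup {p : ℕ} [CharP F p] (H : OCtx Q fB M) (v : V) : IsPGroup p (qGroup H v) := by
  rintro ⟨g, hg⟩
  refine ⟨2, Subtype.ext ?_⟩
  rw [SubgroupClass.coe_pow, OneMemClass.coe_one]
  show g ^ p ^ 2 = 1
  have iter : ∀ (k : orth Q) (z : V) (n : ℕ), k.1 (k.1 z - z) = k.1 z - z →
      (k ^ n).1 z = z + n • (k.1 z - z) := by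
    intro k z n hfix
    induction n with
    | zero => simp
    | succ n ih =>
      rw [pow_succ', orth_mul_apply, ih, map_add, map_nsmul, hfix, succ_nsmul']
      abel
  have hp : ∀ d : V, p • d = 0 := fun d => by
    rw [← Nat.cast_smul_eq_nsmul F, CharP.cast_eq_zero, zero_smul]
  have h1 : ∀ z, fB v z = 0 → (g ^ p).1 z = z := fun z hz => by
    obtain ⟨a, ha⟩ := Submodule.mem_span_singleton.1 (hg.2.2.1 z hz)
    rw [iter g z p (by rw [← ha, hg.2.1]), hp, add_zero]
  refine orth_ext fun z => ?_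
  rw [pow_two, pow_mul, iter (g ^ p) z p (h1 _ ((pow_mem hg p : g ^ p ∈ qGroup H v).2.2.2 z)), hp, add_zero]
  rfl

namespace OCtx

variable (H : OCtx Q fB M)
include H

theorem rho_mem_q {v u : V} (hv : fB v v = 0) (hu : fB v u = 0) : rho H v u ∈ qGroup H v := by
  have hu' : fB u v = 0 := by rw [H.fB_comm, hu]
  refine ⟨H.rho_mem v u, fun a => ?_, fun z hz => ?_, fun z => ?_⟩
  · simp [H.rho_apply hv hu, map_smul, hv, hu']
  · rw [H.rho_apply hv hu, hz, mul_zero, zero_smul, zero_smul, sub_zero, add_zero, sub_sub_cancel_left]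
    exact neg_mem (Submodule.smul_mem _ _ (Submodule.mem_span_singleton_self v))
  · simp [H.rho_apply hv hu, map_sub, map_add, map_smul, hv, hu]

/-- Conjugate scalars of the line are Galois conjugate. -/
theorem conj_aut (hno : ¬ commutator (orth Q) ≤ M) {v : V} (hv0 : v ≠ 0) (hv : fB v v = 0) {c c' : E}
    (hc : c ∉ Set.range (algebraMap F E)) (hc' : c' ∉ Set.range (algebraMap F E))
    {h : orth Q} (hh : h ∈ M) (h1 : h.1 v = v) (h2 : h.1 (c • v) = c' • v) : ∃ A : E →ₐ[F] E, A c = c' := by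
  classical
  obtain ⟨p, hp⟩ := CharP.exists F
  have : Fact p.Prime := ⟨CharP.char_is_prime F p⟩
  haveI : Finite (orth Q) := Finite.of_injective (fun g : orth Q => (g.1 : V → V))
    fun a b hab => orth_ext fun x => congrFun hab x
  set G0 : Subgroup (orth Q) := M ⊓ fixSet Q (Set.range fun a : E => a • v) with hG0
  set Mvl : E → Subgroup (orth Q) := fun a => M ⊓ fixSet Q {v, a • v} with hMvl
  have hG0le : ∀ a, G0 ≤ Mvl a := fun a g hg => ⟨hg.1, by
    rintro x (rfl | rfl)
    · exact hg.2 x ⟨1, one_smul E x⟩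
    · exact hg.2 _ ⟨a, rfl⟩⟩
  have hT0 : qGroup H v ≤ G0 := by
    intro g hg
    refine ⟨hg.1, ?_⟩
    rintro _ ⟨a, rfl⟩
    exact hg.2.1 a
  obtain ⟨P, hP⟩ := ((isPGroup_qGroup H (p := p) v).of_equiv
    (Subgroup.subgroupOfEquivOfLe hT0).symm).exists_le_sylow
  set U : Subgroup (orth Q) := (P : Subgroup G0).map G0.subtype with hU
  have hUG : U ≤ G0 := Subgroup.map_subtype_le _
  have hUp : IsPGroup p U := P.2.map _
  have hTU : qGroup H v ≤ U := fun g hg => ⟨⟨g, hT0 hg⟩, hP hg, rfl⟩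
  have hUmax : ∀ T : Subgroup (orth Q), IsPGroup p T → T ≤ G0 → U ≤ T → T = U := by
    intro T hTp hTG hUT
    have := P.3 (Q := T.subgroupOf G0) (hTp.of_equiv (Subgroup.subgroupOfEquivOfLe hTG).symm)
      (fun x hx => hUT ⟨x, hx, rfl⟩)
    rw [hU, ← this, Subgroup.map_subgroupOf_eq_of_le hTG]
  -- the fixed points of `U` form the line of `v`
  have hfix : ∀ x, (∀ u ∈ U, u.1 x = x) → x ∈ Submodule.span E {v} := by
    intro x hx
    have e : ∀ u, fB v u = 0 → fB v x • u = (fB u x + qf fB u * fB v x) • v := fun u hu => by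
      have h3 := hx _ (hTU (H.rho_mem_q hv hu))
      rw [H.rho_apply hv hu] at h3
      rw [add_smul]
      linear_combination (norm := module) h3
    obtain ⟨f, hf, hvf⟩ := H.exists_partner hv0 hv
    obtain ⟨u, u2, ⟨hvu, -⟩, ⟨hvu2, -⟩, hval⟩ := H.exists_pair_val hv hf hvf
    have hu : u ∉ Submodule.span E {v} := fun hmem => by
      obtain ⟨t, rfl⟩ := Submodule.mem_span_singleton.1 hmem
      rw [H.polar_line hvu2, eq_comm, neg_eq_zero] at hval
      exact one_ne_zero hval
    have hvx : fB v x = 0 := by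
      by_contra hne
      refine hu ?_
      rw [← inv_smul_smul₀ hne u, e u hvu]
      exact Submodule.smul_mem _ _ (Submodule.smul_mem _ _ (Submodule.mem_span_singleton_self v))
    refine H.mem_line fun p hp => ?_
    have h4 := e p hp
    rw [hvx, zero_smul, mul_zero, add_zero, eq_comm, smul_eq_zero, or_iff_left hv0] at h4
    rw [H.fB_comm, h4]
  have hstab : ∀ t : orth Q, (∀ u ∈ U, t⁻¹ * u * t ∈ U) →
      ∀ a : E, t.1 (a • v) ∈ Submodule.span E {v} := by
    intro t ht a
    refine hfix _ fun u hu => ?_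
    have := (hUG (ht u hu)).2 (a • v) ⟨a, rfl⟩
    rw [orth_mul_apply, orth_mul_apply] at this
    conv_rhs => rw [← this, orth_apply_inv_apply]
  -- `U` is a maximal `p`-subgroup of each two point stabiliser
  have hmax : ∀ a : E, a ∉ Set.range (algebraMap F E) →
      ∀ T : Subgroup (orth Q), IsPGroup p T → T ≤ Mvl a → U ≤ T → T = U := by
    intro a ha T hTp hTM hUT
    by_contra hne
    haveI := hTp.isNilpotent
    have hlt : U.subgroupOf T < ⊤ := lt_top_iff_ne_top.2 fun htop =>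
      hne (le_antisymm (fun x hx => Subgroup.mem_subgroupOf.1 (htop ▸ Subgroup.mem_top (⟨x, hx⟩ : T))) hUT)
    obtain ⟨t, ht, htU⟩ := SetLike.exists_of_lt (Group.normalizerCondition_of_isNilpotent _ hlt)
    have htn : ∀ u ∈ U, (t : orth Q)⁻¹ * u * t ∈ U := fun u hu =>
      (Subgroup.mem_normalizer_iff''.1 ht ⟨u, hUT hu⟩).1 hu
    obtain ⟨A, hA⟩ := H.line_aut hno hv0 hv (hTM t.2).1 ((hTM t.2).2 v (Or.inl rfl)) (hstab _ htn)
    have hAa : A a = a := smul_left_injective E hv0 (by
      show A a • v = a • v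
      rw [← hA]; exact (hTM t.2).2 _ (Or.inr rfl))
    have hA1 : ∀ x : E, A x = x := by
      rcases (Subalgebra.isSimpleOrder_of_finrank_prime F E H.prime).eq_bot_or_eq_top
        (AlgHom.equalizer A (AlgHom.id F E)) with h0 | h0
      · exact absurd (Algebra.mem_bot.1 (h0 ▸ (hAa : a ∈ AlgHom.equalizer A (AlgHom.id F E)) :
          a ∈ (⊥ : Subalgebra F E))) ha
      · exact fun x => (h0 ▸ Algebra.mem_top : x ∈ AlgHom.equalizer A (AlgHom.id F E))
    have htG : (t : orth Q) ∈ G0 := ⟨(hTM t.2).1, by rintro _ ⟨x, rfl⟩; rw [hA, hA1]⟩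
    have := hUmax (U ⊔ Subgroup.zpowers (t : orth Q))
      (hTp.to_le (sup_le hUT ((Subgroup.zpowers_le).2 t.2)))
      (sup_le hUG ((Subgroup.zpowers_le).2 htG)) le_sup_left
    exact htU (Subgroup.mem_subgroupOf.2 (this ▸ Subgroup.mem_sup_right (Subgroup.mem_zpowers _)))
  set N := Mvl c'
  have hUN : U ≤ N := hUG.trans (hG0le c')
  let P1 : Sylow p N :=
    { toSubgroup := U.subgroupOf N
      isPGroup' := hUp.of_equiv (Subgroup.subgroupOfEquivOfLe hUN).symm
      is_maximal' := fun {T} hT hle => by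
        have := hmax c' hc' (T.map N.subtype) (hT.map _) (Subgroup.map_subtype_le _)
          (fun x hx => ⟨⟨x, hUN hx⟩, hle hx, rfl⟩)
        rw [← this]
        exact (Subgroup.comap_map_eq_self_of_injective N.subtype_injective T).symm }
  set U' := U.map (MulAut.conj h).toMonoidHom with hU'
  have hU'N : U' ≤ N := by
    rintro _ ⟨u, hu, rfl⟩
    refine ⟨M.mul_mem (M.mul_mem hh (hUG hu).1) (M.inv_mem hh), ?_⟩
    have hconj : ∀ x : V, u.1 x = x → (h * u * h⁻¹).1 (h.1 x) = h.1 x := fun x hx => by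
      rw [orth_mul_apply, orth_mul_apply, orth_inv_apply_apply, hx]
    intro x hx
    rw [MulEquiv.coe_toMonoidHom, MulAut.conj_apply]
    rcases hx with rfl | rfl
    · conv_lhs => rw [← h1]
      rw [hconj x ((hUG hu).2 x ⟨1, one_smul E x⟩), h1]
    · rw [← h2]
      exact hconj _ ((hUG hu).2 _ ⟨c, rfl⟩)
  obtain ⟨P2, hP2⟩ := ((hUp.map (MulAut.conj h).toMonoidHom).of_equiv
    (Subgroup.subgroupOfEquivOfLe hU'N).symm).exists_le_sylow
  have hP2eq : U'.subgroupOf N = (P2 : Subgroup N) := by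
    refine Subgroup.eq_of_le_of_card_ge hP2 (le_of_eq ?_)
    rw [P2.card_eq_multiplicity, ← P1.card_eq_multiplicity]
    show Nat.card (U.subgroupOf N) = _
    rw [Nat.card_congr (Subgroup.subgroupOfEquivOfLe hUN).toEquiv,
      Nat.card_congr (Subgroup.subgroupOfEquivOfLe hU'N).toEquiv, hU',
      ← Nat.card_congr (U.equivMapOfInjective (MulAut.conj h).toMonoidHom (MulAut.conj h).injective).toEquiv]
  obtain ⟨g, hg⟩ := MulAction.exists_smul_eq N P2 P1
  set t : orth Q := (g : orth Q) * h with ht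
  have htn : ∀ u ∈ U, t⁻¹ * u * t ∈ U := by
    intro u hu
    have hmem : (⟨u, hUN hu⟩ : N) ∈ ((g • P2 : Sylow p N) : Subgroup N) := by rw [hg]; exact hu
    rw [Sylow.coe_subgroup_smul] at hmem
    have hmem2 : MulAut.conj g⁻¹ • (⟨u, hUN hu⟩ : N) ∈ (P2 : Subgroup N) := by
      have := Subgroup.mem_pointwise_smul_iff_inv_smul_mem.1 hmem
      rwa [← map_inv] at this
    rw [← hP2eq, Subgroup.mem_subgroupOf] at hmem2
    obtain ⟨w, hw, hwe⟩ := hmem2
    have hwe' : h * w * h⁻¹ = (g : orth Q)⁻¹ * u * (g : orth Q) := by simpa using hwe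
    have : t⁻¹ * u * t = w := by
      rw [ht, mul_inv_rev]
      calc h⁻¹ * (g : orth Q)⁻¹ * u * ((g : orth Q) * h)
          = h⁻¹ * ((g : orth Q)⁻¹ * u * (g : orth Q)) * h := by group
        _ = w := by rw [← hwe']; group
    rwa [this]
  have htv : t.1 v = v := by
    rw [ht, orth_mul_apply, h1]; exact g.2.2 v (Or.inl rfl)
  obtain ⟨A, hA⟩ := H.line_aut hno hv0 hv (mul_mem g.2.1 hh) htv (hstab t htn)
  refine ⟨A, smul_left_injective E hv0 ?_⟩
  show A c • v = c' • v
  rw [← hA, orth_mul_apply, h2]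
  exact g.2.2 _ (Or.inr rfl)

end OCtx

end Cfsg.Agent.H58.ExtField.Orth
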