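import Cfsg.Agent.H58.ExtField.Orth
import Cfsg.Agent.H58.ExtField.Main

/-!
# The displacements of the perp of a singular vector along its line

The functions `b` such that some element of `M` fixes the line of `v` and is `z ↦ z + b z • v` on the perp of `v`
form a space over the extension.  Either only scalars preserve it, and then the stabiliser of `v` and of its line
acts by field automorphisms, or all maps do, and then `M` has the root groups.
-/

set_option autoImplicit false
set_option linter.unusedSectionVars false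
set_option linter.unusedVariables false

namespace Cfsg.Agent.H58.ExtField.Orth

open QuadraticMap hiding sq
open Cfsg.Agent.H5

variable {F : Type*} [Field F] [Fintype F] {E : Type*} [Field E] [Fintype E] [Algebra F E]
variable {V : Type*} [AddCommGroup V] [Module F V] [Finite V] [Module E V] [IsScalarTower F E V]
variable {Q : QuadraticForm F V} {fB : V →ₗ[E] V →ₗ[E] E} {M : Subgroup (orth Q)}

/-- An algebra of maps containing the multiplications and one other map is everything. -/
theorem end_top (hr : (Module.finrank F E).Prime) (A : Subalgebra F (Module.End F E))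
    (hmul : ∀ a : E, LinearMap.mulLeft F a ∈ A) (hne : ∃ a ∈ A, ∃ x : E, a x ≠ a 1 * x)
    (φ : Module.End F E) : φ ∈ A := by
  classical
  obtain ⟨a, ha, x0, hx0⟩ := hne
  have : IsSimpleModule A E := by
    have : Nontrivial (Submodule A E) := (Submodule.nontrivial_iff A).2 inferInstance
    refine { eq_bot_or_eq_top := fun W => ?_ }
    by_cases hW : ∀ w ∈ W, w = 0
    · exact Or.inl ((Submodule.eq_bot_iff _).2 hW)
    · push Not at hW
      obtain ⟨w, hw, hw0⟩ := hW
      refine Or.inr ((Submodule.eq_top_iff').2 fun y => ?_)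
      have := W.smul_mem (⟨LinearMap.mulLeft F (y / w), hmul _⟩ : A) hw
      simpa [Subalgebra.smul_def, hw0] using this
  have hD : ∀ d : Module.End A E, ∃ c : F, ∀ u, d u = c • u := by
    intro d
    have hlin : ∀ y, d y = d 1 * y := fun y => by
      have := d.map_smul (⟨LinearMap.mulLeft F y, hmul _⟩ : A) 1
      simpa [Subalgebra.smul_def, mul_comm] using this
    have hcomm : ∀ y, a (d 1 * y) = d 1 * a y := fun y => by
      have := d.map_smul (⟨a, ha⟩ : A) y
      rw [Subalgebra.smul_def, Subalgebra.smul_def, hlin (a • y), hlin y] at this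
      simpa using this.symm
    let S : Subalgebra F E :=
      { carrier := {c | ∀ y, a (c * y) = c * a y}
        mul_mem' := fun {b c} hb hc y => by rw [mul_assoc, hb, hc, mul_assoc]
        one_mem' := fun y => by rw [one_mul, one_mul]
        add_mem' := fun {b c} hb hc y => by rw [add_mul, map_add, hb, hc, add_mul]
        zero_mem' := fun y => by rw [zero_mul, zero_mul, map_zero]
        algebraMap_mem' := fun t y => by rw [← Algebra.smul_def, ← Algebra.smul_def, map_smul] }
    rcases (Subalgebra.isSimpleOrder_of_finrank_prime F E hr).eq_bot_or_eq_top S with h0 | h0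
    · obtain ⟨c, hc⟩ := Algebra.mem_bot.1 (h0 ▸ (hcomm : d 1 ∈ S) : d 1 ∈ (⊥ : Subalgebra F E))
      exact ⟨c, fun u => by rw [hlin, ← hc, Algebra.smul_def]⟩
    · have := (h0 ▸ Algebra.mem_top : x0 ∈ S) 1
      rw [mul_one] at this
      exact absurd (this.trans (mul_comm _ _)) hx0
  obtain ⟨b, hb⟩ := H99.Asch.density (F := F) (A := A) (U := E) hD φ
  have : (b : Module.End F E) = φ := LinearMap.ext fun u => hb u
  exact this ▸ b.2

/-- Sums of two squares. -/
theorem exists_sum_squares (h2 : (2 : E) ≠ 0) (f : E) : ∃ a b : E, a * a + b * b = f := by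
  have h : ringChar E ≠ 2 := fun h => h2 (by
    have := ringChar.Nat.cast_ringChar (R := E)
    rw [h] at this
    exact_mod_cast this)
  obtain ⟨a, b, hab⟩ := FiniteField.exists_root_sum_quadratic (R := E) (f := Polynomial.X ^ 2)
    (g := Polynomial.X ^ 2 - Polynomial.C f) (Polynomial.degree_X_pow 2)
    (Polynomial.degree_X_pow_sub_C (by decide) _) (FiniteField.odd_card_of_char_ne_two h)
  simp only [Polynomial.eval_pow, Polynomial.eval_X, Polynomial.eval_sub, Polynomial.eval_C] at hab
  exact ⟨a, b, by linear_combination hab⟩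

/-- `b` is the displacement of an element of `M` on the perp of `v`. -/
def InH (M : Subgroup (orth Q)) (fB : V →ₗ[E] V →ₗ[E] E) (v : V) (b : V →ₗ[F] E) : Prop :=
  (∀ c : E, b (c • v) = 0) ∧
    ∃ g ∈ M, (∀ c : E, g.1 (c • v) = c • v) ∧ ∀ z, fB v z = 0 → g.1 z = z + b z • v

namespace OCtx

variable (H : OCtx Q fB M)
include H

theorem inH_zero (v : V) : InH M fB v (0 : V →ₗ[F] E) :=
  ⟨fun _ => rfl, 1, one_mem _, fun _ => rfl, fun z _ => by simp⟩

theorem inH_add {v : V} {a b : V →ₗ[F] E} (ha : InH M fB v a) (hb : InH M fB v b) :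
    InH M fB v (a + b) := by
  obtain ⟨a0, g, hg, g1, g2⟩ := ha
  obtain ⟨b0, k, hk, k1, k2⟩ := hb
  refine ⟨fun c => by rw [LinearMap.add_apply, a0, b0, add_zero], g * k, mul_mem hg hk, fun c => by
    rw [orth_mul_apply, k1, g1], fun z hz => ?_⟩
  rw [orth_mul_apply, k2 z hz, map_add, g1, g2 z hz, LinearMap.add_apply, add_smul, add_assoc]

theorem inH_smul {v f : V} (hv : fB v v = 0) (hf : fB f f = 0) (hvf : fB v f = 1) (e : E) {b : V →ₗ[F] E}
    (hb : InH M fB v b) : InH M fB v (e • b) := by
  have hfv : fB f v = 1 := by rw [H.fB_comm, hvf]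
  have sq : ∀ τ : E, InH M fB v ((τ * τ) • b) := by
    intro τ
    rcases eq_or_ne τ 0 with rfl | hτ
    · rw [mul_zero, zero_smul]; exact H.inH_zero v
    obtain ⟨b0, g, hg, g1, g2⟩ := hb
    obtain ⟨s, hs, sl, sP⟩ := H.exists_scale hv hf hvf hτ
    have hsv : ∀ c : E, s.1 (c • v) = (τ * τ * c) • v := fun c => by
      rw [sP _ (by rw [map_smul, hv, smul_zero]), map_smul, hfv, smul_eq_mul, mul_one, ← add_smul]
      congr 1
      ring
    refine ⟨fun c => by rw [LinearMap.smul_apply, b0, smul_zero], s * g * s⁻¹,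
      mul_mem (mul_mem hs hg) (inv_mem hs), fun c => ?_, fun z hz => ?_⟩
    · have h1 : (s⁻¹).1 (c • v) = ((τ * τ)⁻¹ * c) • v := by
        conv_lhs => rw [show c • v = s.1 (((τ * τ)⁻¹ * c) • v) by
          rw [hsv, mul_inv_cancel_left₀ (mul_ne_zero hτ hτ)]]
        rw [orth_inv_apply_apply]
      rw [orth_mul_apply, orth_mul_apply, h1, g1, hsv, mul_inv_cancel_left₀ (mul_ne_zero hτ hτ)]
    · set d := ((τ * τ)⁻¹ - 1) * fB f z
      have h1 : (s⁻¹).1 z = z + d • v := by
        conv_lhs => rw [show z = s.1 (z + d • v) by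
          rw [map_add, hsv, sP z hz, add_assoc, ← add_smul, eq_comm, add_eq_left]
          refine (smul_eq_zero.2 (Or.inl ?_))
          simp only [d]
          field_simp
          ring]
        rw [orth_inv_apply_apply]
      have h2 : fB v (z + d • v) = 0 := by rw [map_add, map_smul, hz, hv, smul_zero, add_zero]
      have h3 : s.1 (z + d • v) = z := by rw [← h1, orth_apply_inv_apply]
      rw [orth_mul_apply, orth_mul_apply, h1, g2 _ h2, map_add s.1, h3, hsv, map_add b, b0, add_zero,
        LinearMap.smul_apply, smul_eq_mul]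
  obtain ⟨x, y, rfl⟩ := exists_sum_squares H.twoE e
  rw [add_smul]
  exact H.inH_add (sq x) (sq y)

theorem inH_lin {v : V} (hv : fB v v = 0) {u : V} (hu : fB v u = 0) :
    InH M fB v ((fB u).restrictScalars F) := by
  have hu' : fB u v = 0 := by rw [H.fB_comm, hu]
  refine ⟨fun c => by rw [LinearMap.restrictScalars_apply, map_smul, hu', smul_zero],
    rho H v (-u), H.rho_mem _ _, fun c => ?_, fun z hz => ?_⟩
  · rw [H.rho_apply hv (by rw [map_neg, hu, neg_zero]), map_neg, LinearMap.neg_apply, map_smul, map_smul,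
      hv, hu', smul_zero, neg_zero]
    simp
  · rw [H.rho_apply hv (by rw [map_neg, hu, neg_zero]), hz, map_neg, LinearMap.neg_apply,
      LinearMap.restrictScalars_apply]
    simp [neg_smul, sub_neg_eq_add]

end OCtx

/-- The maps of the extension preserving the displacements. -/
noncomputable def lpres (H : OCtx Q fB M) {v f : V} (hv : fB v v = 0) (hf : fB f f = 0)
    (hvf : fB v f = 1) : Subalgebra F (Module.End F E) where
  carrier := {a | ∀ b, InH M fB v b → InH M fB v (a ∘ₗ b)}
  mul_mem' {a b} ha hb c hc := ha _ (hb c hc)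
  one_mem' c hc := hc
  add_mem' {a b} ha hb c hc := by rw [LinearMap.add_comp]; exact H.inH_add (ha c hc) (hb c hc)
  zero_mem' c hc := by rw [LinearMap.zero_comp]; exact H.inH_zero v
  algebraMap_mem' t c hc := by
    have := H.inH_smul hv hf hvf (algebraMap F E t) hc
    convert this using 1
    exact LinearMap.ext fun x => by simp [Algebra.smul_def]

/-- The root groups at the line of `v`, on its perp. -/
def Roots (M : Subgroup (orth Q)) (fB : V →ₗ[E] V →ₗ[E] E) (v : V) : Prop :=
  ∀ (s : E) (u : V), fB v u = 0 → eich Q (s • v) u ∈ M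

namespace OCtx

variable (H : OCtx Q fB M)
include H

theorem Q_line {v : V} (hv : fB v v = 0) (s : E) : Q (s • v) = 0 := by
  rw [H.form_eq, QuadraticMap.map_smul, H.qf_zero.2 hv, smul_zero, map_zero]

theorem polar_line {v u : V} (hu : fB v u = 0) (s : E) : polar Q (s • v) u = 0 := by
  rw [H.polar_eq, map_smul, LinearMap.smul_apply, hu, smul_zero, map_zero]

theorem fB_map {g : orth Q} (hg : ∀ (c : E) (z : V), g.1 (c • z) = c • g.1 z) (x y : V) :
    fB (g.1 x) (g.1 y) = fB x y := trace_ext (F := F) fun c => by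
  rw [H.htr, H.htr, ← hg, orth_polar]

/-- The perp of the perp of `v` is its line. -/
theorem mem_line {v x : V} (h : ∀ p, fB v p = 0 → fB x p = 0) : x ∈ Submodule.span E {v} := by
  by_contra hx
  obtain ⟨u, hux, huv⟩ := H.exists_dual hx
  have := h u (by rw [H.fB_comm]; exact huv v (Submodule.mem_span_singleton_self v))
  rw [H.fB_comm, hux] at this
  exact one_ne_zero this

/-- Vectors of the complement of a pair with given product. -/
theorem exists_pair_val {v f : V} (hv : fB v v = 0) (hf : fB f f = 0) (hvf : fB v f = 1) :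
    ∃ u1 u2 : V, (fB v u1 = 0 ∧ fB f u1 = 0) ∧ (fB v u2 = 0 ∧ fB f u2 = 0) ∧ polar Q u1 u2 = -1 := by
  haveI : Module.Finite E V := Module.Finite.of_finite
  have hp := H.hypPair hv hf hvf
  obtain ⟨u1, hu1, hq⟩ := exists_anisotropic (hp.inf_perp H.nondeg)
    (by have := hp.finrank_pperp H.nondeg; have := H.dim; omega)
  rw [mem_pperp, H.qf_polar, H.qf_polar] at hu1
  obtain ⟨t, ht⟩ := Algebra.trace_surjective F E (-1 : F)
  have hne : fB u1 u1 ≠ 0 := fun h => hq (H.qf_zero.2 h)
  refine ⟨u1, (t / fB u1 u1) • u1, hu1, ⟨by rw [map_smul, hu1.1, smul_zero],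
    by rw [map_smul, hu1.2, smul_zero]⟩, ?_⟩
  rw [H.polar_eq, map_smul, smul_eq_mul, div_mul_cancel₀ _ hne, ht]

/-- All maps preserving the displacements give the root groups. -/
theorem roots_of_top {v f : V} (hv : fB v v = 0) (hf : fB f f = 0) (hvf : fB v f = 1)
    (hall : ∀ φ : Module.End F E, φ ∈ lpres H hv hf hvf) : Roots M fB v := by
  classical
  have hfv : fB f v = 1 := by rw [H.fB_comm, hvf]
  -- Eichler elements with centre on the line fix it
  have eline : ∀ (s : E) (u : V), fB v u = 0 → ∀ c : E, (eich Q (s • v) u).1 (c • v) = c • v := by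
    intro s u hu c
    refine eich_apply_of_ortho (H.Q_line hv s) (H.polar_line hu s) ?_ ?_
    · exact H.polar_line (by rw [map_smul, hv, smul_zero]) s
    · rw [polar_comm]; exact H.polar_line hu c
  have eperp : ∀ (s : E) (u : V), fB v u = 0 → ∀ z, fB v z = 0 →
      (eich Q (s • v) u).1 z = z - polar Q u z • (s • v) := by
    intro s u hu z hz
    rw [eich_apply (H.Q_line hv s) (H.polar_line hu s), H.polar_line hz]
    simp
  -- displacements of Eichler elements lie in the perp
  have edisp : ∀ (s : E) (u : V), fB v u = 0 → ∀ z,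
      fB v ((eich Q (s • v) u).1 z - z) = 0 := by
    intro s u hu z
    rw [eich_apply (H.Q_line hv s) (H.polar_line hu s)]
    simp [map_sub, map_add, hu, hv, LinearMap.map_smul_of_tower]
  -- splitting
  have split : ∀ (s : E) (u : V), fB v u = 0 → ∃ k : orth Q, eich Q (s • v) u * k ∈ M ∧
      ∀ z, fB v z = 0 → k.1 z = z := by
    intro s u hu
    obtain ⟨b0, g, hg, g1, g2⟩ := hall ((Algebra.trace F E).smulRight (-s)) _ (H.inH_lin hv hu)
    refine ⟨(eich Q (s • v) u)⁻¹ * g, by rwa [mul_inv_cancel_left], fun z hz => ?_⟩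
    have h1 : g.1 z = (eich Q (s • v) u).1 z := by
      rw [g2 z hz, eperp s u hu z hz]
      simp [LinearMap.smulRight_apply, ← H.polar_eq, sub_eq_add_neg]
    rw [orth_mul_apply, h1, orth_inv_apply_apply]
  -- the elements fixing the perp
  have kdisp : ∀ k : orth Q, (∀ z, fB v z = 0 → k.1 z = z) → ∀ z, k.1 z - z ∈ Submodule.span E {v} := by
    intro k hk z
    refine H.mem_line fun p hp => eq_zero_of_trace (F := F) fun c => ?_
    have hcp : fB v (c • p) = 0 := by rw [map_smul, hp, smul_zero]
    rw [H.htr, H.adj, polar_sub_left, ← orth_polar k z (c • p), hk _ hcp, sub_self]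
  have kcommE : ∀ k : orth Q, (∀ z, fB v z = 0 → k.1 z = z) → ∀ (s : E) (u : V), fB v u = 0 →
      Commute k (eich Q (s • v) u) := by
    intro k hk s u hu
    refine orth_ext fun z => ?_
    rw [orth_mul_apply, orth_mul_apply]
    obtain ⟨x, hx⟩ := Submodule.mem_span_singleton.1 (kdisp k hk z)
    have h1 := hk _ (edisp s u hu z)
    rw [map_sub, sub_eq_iff_eq_add] at h1
    have h2 : k.1 z = z + x • v := by rw [hx]; abel
    rw [h1, h2, map_add, eline s u hu]
    abel
  have kcomm : ∀ k k' : orth Q, (∀ z, fB v z = 0 → k.1 z = z) → (∀ z, fB v z = 0 → k'.1 z = z) →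
      Commute k k' := by
    intro k k' hk hk'
    refine orth_ext fun z => ?_
    rw [orth_mul_apply, orth_mul_apply]
    obtain ⟨x, hx⟩ := Submodule.mem_span_singleton.1 (kdisp k hk z)
    obtain ⟨y, hy⟩ := Submodule.mem_span_singleton.1 (kdisp k' hk' z)
    have hline : ∀ c : E, fB v (c • v) = 0 := fun c => by rw [map_smul, hv, smul_zero]
    have h1 : k.1 z = z + x • v := by rw [hx]; abel
    have h2 : k'.1 z = z + y • v := by rw [hy]; abel
    rw [h2, map_add, hk _ (hline y), h1, map_add k'.1, hk' _ (hline x), h2]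
    abel
  -- Eichler elements inside the line
  obtain ⟨u1, u2, hu1, hu2, hu12⟩ := H.exists_pair_val hv hf hvf
  have inline : ∀ s s' : E, eich Q (s' • v) (s • v) ∈ M := by
    intro s s'
    obtain ⟨k1, hg1, hk1⟩ := split s u1 hu1.1
    obtain ⟨k2, hg2, hk2⟩ := split s' u2 hu2.1
    set e1 := eich Q (s • v) u1 with he1
    set e2 := eich Q (s' • v) u2 with he2
    have hmem := mul_mem (mul_mem (mul_mem hg1 hg2) (inv_mem hg1)) (inv_mem hg2)
    have c1 : Commute k1 e1 := kcommE k1 hk1 s u1 hu1.1
    have c2 : Commute k1 e2 := kcommE k1 hk1 s' u2 hu2.1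
    have c3 : Commute k2 e1 := kcommE k2 hk2 s u1 hu1.1
    have c5 : Commute k1 k2 := kcomm k1 k2 hk1 hk2
    have h1 : e1 * k1 * (e2 * k2) * (e1 * k1)⁻¹ * (e2 * k2)⁻¹ = e1 * e2 * e1⁻¹ * e2⁻¹ := by
      calc e1 * k1 * (e2 * k2) * (e1 * k1)⁻¹ * (e2 * k2)⁻¹
          = e1 * (k1 * (e2 * k2) * k1⁻¹) * e1⁻¹ * k2⁻¹ * e2⁻¹ := by group
        _ = e1 * (e2 * k2) * e1⁻¹ * k2⁻¹ * e2⁻¹ := by
          rw [(c2.mul_right c5).eq, mul_inv_cancel_right]
        _ = e1 * e2 * (k2 * e1⁻¹ * k2⁻¹) * e2⁻¹ := by group
        _ = e1 * e2 * e1⁻¹ * e2⁻¹ := by rw [c3.inv_right.eq, mul_inv_cancel_right]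
    rw [h1] at hmem
    have h2 : e1 * e2 * e1⁻¹ = eich Q (s' • v) (u2 + s • v) := by
      rw [he1, he2, eich_conj, eline s u1 hu1.1, eperp s u1 hu1.1 u2 hu2.1, hu12, neg_smul, one_smul,
        sub_neg_eq_add]
    have h3 : fB v (s • v) = 0 := by rw [map_smul, hv, smul_zero]
    rw [h2, he2, eich_inv (H.Q_line hv s') (H.polar_line hu2.1 s'),
      eich_mul (H.Q_line hv s') (H.polar_line (by rw [map_add, hu2.1, h3, add_zero]) s')
        (H.polar_line (by rw [map_neg, hu2.1, neg_zero]) s')] at hmem
    simpa using hmem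
  -- elements fixing the perp
  let P : (E →ₗ[F] E) → Prop := fun χ => ∃ m ∈ M, ∀ z, m.1 z = z + χ (fB v z) • v
  have P0 : P 0 := ⟨1, one_mem _, fun z => by simp⟩
  have Padd : ∀ a b, P a → P b → P (a + b) := by
    rintro a b ⟨m, hm, h1⟩ ⟨m', hm', h2⟩
    refine ⟨m * m', mul_mem hm hm', fun z => ?_⟩
    rw [orth_mul_apply, h2, map_add, h1, h1 (_ • v), map_smul (fB v), hv, smul_zero, map_zero, zero_smul,
      add_zero, LinearMap.add_apply, add_smul, add_assoc]
  have Ptwo : ∀ s s' : E, P (((Algebra.trace F E) ∘ₗ LinearMap.mulLeft F s').smulRight s -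
      ((Algebra.trace F E) ∘ₗ LinearMap.mulLeft F s).smulRight s') := by
    intro s s'
    refine ⟨_, inline s s', fun z => ?_⟩
    rw [eich_apply (H.Q_line hv s') (H.polar_line (by rw [map_smul, hv, smul_zero]) s'), H.Q_line hv s,
      H.polar_eq, H.polar_eq, map_smul fB, map_smul fB]
    simp [LinearMap.smul_apply, smul_eq_mul, sub_smul, smul_assoc, add_sub_assoc]
  have fixer : ∀ k : orth Q, (∀ z, fB v z = 0 → k.1 z = z) → k ∈ M := by
    intro k hk
    let ψ : E →ₗ[F] E := (fB f).restrictScalars F ∘ₗ ((k.1 : V →ₗ[F] V) - LinearMap.id) ∘ₗ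
      (LinearMap.toSpanSingleton E V f).restrictScalars F
    have hψt : ∀ t : E, k.1 (t • f) = t • f + ψ t • v := by
      intro t
      obtain ⟨x, hx⟩ := Submodule.mem_span_singleton.1 (kdisp k hk (t • f))
      have : ψ t = x := by
        show fB f (k.1 (t • f) - t • f) = x
        rw [← hx, map_smul, hfv, smul_eq_mul, mul_one]
      rw [this, hx]; abel
    have hψ : ∀ z, k.1 z = z + ψ (fB v z) • v := by
      intro z
      have h1 : k.1 (z - fB v z • f) = z - fB v z • f := hk _ (by
        rw [map_sub, map_smul, hvf, smul_eq_mul, mul_one, sub_self])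
      rw [map_sub, hψt, sub_eq_iff_eq_add] at h1
      rw [h1]; abel
    have skew0 : ∀ t, Algebra.trace F E (t * ψ t) = 0 := by
      intro t
      have h1 := orth_map k (t • f)
      rw [hψt, QuadraticMap.map_add (⇑Q), H.Q_line hf, H.Q_line hv, zero_add, zero_add, H.polar_eq] at h1
      simpa [map_smul, LinearMap.smul_apply, hfv, mul_comm] using h1
    have skew : ∀ t y, Algebra.trace F E (ψ t * y) = -Algebra.trace F E (ψ y * t) := by
      intro t y
      have := skew0 (t + y)
      rw [map_add, mul_add, add_mul, add_mul, map_add, map_add, map_add, skew0, skew0, zero_add, add_zero] at this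
      rw [mul_comm (ψ t), mul_comm (ψ y)]
      linear_combination this
    let bs := Module.finBasis F E
    let ds := (Algebra.traceForm F E).dualBasis (traceForm_nondegenerate F E) bs
    have hexp : ∀ t : E, ∑ i, Algebra.trace F E (ds i * t) • bs i = t := by
      intro t
      conv_rhs => rw [← bs.sum_repr t]
      refine Finset.sum_congr rfl fun i _ => ?_
      congr 1
      conv_lhs => rw [← bs.sum_repr t, ← Algebra.traceForm_apply, map_sum]
      rw [Finset.sum_eq_single i (fun j _ hj => ?_) (by simp)]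
      · rw [map_smul, LinearMap.BilinForm.apply_dualBasis_left, if_pos rfl, smul_eq_mul, mul_one]
      · rw [map_smul, LinearMap.BilinForm.apply_dualBasis_left, if_neg hj, smul_zero]
    have hP : P ψ := by
      have e : ψ = ∑ i, (((Algebra.trace F E) ∘ₗ LinearMap.mulLeft F (ds i)).smulRight (((2 : F)⁻¹) • ψ (bs i)) -
          ((Algebra.trace F E) ∘ₗ LinearMap.mulLeft F (((2 : F)⁻¹) • ψ (bs i))).smulRight (ds i)) := by
        refine LinearMap.ext fun t => ?_
        have h1 : ∑ i, Algebra.trace F E (ds i * t) • ψ (bs i) = ψ t := by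
          conv_rhs => rw [← hexp t, map_sum]
          simp only [map_smul]
        have h2 : ∑ i, Algebra.trace F E (ψ (bs i) * t) • ds i = -ψ t := by
          refine trace_ext (F := F) fun y => ?_
          rw [Finset.sum_mul, map_sum, neg_mul, map_neg, skew t y, neg_neg]
          conv_rhs => rw [← hexp y, map_sum, Finset.sum_mul, map_sum]
          refine Finset.sum_congr rfl fun i _ => ?_
          rw [map_smul, smul_mul_assoc, smul_mul_assoc, map_smul, map_smul, smul_eq_mul, smul_eq_mul, mul_comm]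
        simp only [LinearMap.sum_apply, LinearMap.sub_apply, LinearMap.smulRight_apply, LinearMap.comp_apply,
          LinearMap.mulLeft_apply, smul_mul_assoc, map_smul, smul_eq_mul, mul_smul, Finset.sum_sub_distrib]
        rw [Finset.sum_congr rfl (fun d _ => smul_comm (Algebra.trace F E (ds d * t)) ((2 : F)⁻¹) (ψ (bs d))),
          ← Finset.smul_sum, h1, ← Finset.smul_sum, h2, smul_neg, sub_neg_eq_add, ← smul_add, ← two_smul F (ψ t),
          smul_smul, inv_mul_cancel₀ H.two, one_smul]
      rw [e]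
      exact Finset.sum_induction _ P Padd P0 fun i _ => Ptwo _ _
    obtain ⟨m, hm, hmz⟩ := hP
    exact (orth_ext fun z => by rw [hψ, hmz] : k = m) ▸ hm
  intro s u hu
  obtain ⟨k, hg, hk⟩ := split s u hu
  have := mul_mem hg (inv_mem (fixer k hk))
  rwa [mul_inv_cancel_right] at this

/-- The root groups at one singular line give them at all. -/
theorem roots_all {v : V} (hv0 : v ≠ 0) (hv : fB v v = 0) (hS : Roots M fB v) {x : V} (hx0 : x ≠ 0)
    (hx : fB x x = 0) : Roots M fB x := by
  intro s u hu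
  obtain ⟨g, hg, gl, t, ht, hgx⟩ := H.exists_trans hx0 hx hv0 hv
  have h1 : g * eich Q (s • x) u * g⁻¹ ∈ M := by
    rw [eich_conj, gl, hgx, smul_smul]
    refine hS _ _ ?_
    have := H.fB_map gl x u
    rw [hgx, map_smul, LinearMap.smul_apply, hu, smul_eq_mul, mul_eq_zero] at this
    exact this.resolve_left ht
  have := mul_mem (mul_mem (inv_mem hg) h1) hg
  rwa [show g⁻¹ * (g * eich Q (s • x) u * g⁻¹) * g = eich Q (s • x) u by group] at this

/-- The root groups give the whole root group at a singular vector. -/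
theorem root_full (hS : ∀ x : V, x ≠ 0 → fB x x = 0 → Roots M fB x) {x : V} (hx0 : x ≠ 0) (hx : fB x x = 0)
    {a : V} (ha : polar Q x a = 0) : eich Q x a ∈ M := by
  obtain ⟨f, hf, hxf⟩ := H.exists_partner hx0 hx
  have hfx : fB f x = 1 := by rw [H.fB_comm, hxf]
  have hQx : Q x = 0 := by have := H.Q_line hx 1; rwa [one_smul] at this
  have hP : ∀ p, fB x p = 0 → eich Q x p ∈ M ∧ polar Q x p = 0 := fun p hp => by
    refine ⟨?_, by rw [H.polar_eq, hp, map_zero]⟩
    have := hS x hx0 hx 1 p hp
    rwa [one_smul] at this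
  obtain ⟨w, u, hw, hu, hwu⟩ := H.exists_pair_val hx hf hxf
  have key : ∀ s : E, Algebra.trace F E s = 0 → eich Q x (s • f) ∈ M ∧ polar Q x (s • f) = 0 := by
    intro s hs
    have hxs : polar Q x (s • f) = 0 := by rw [H.polar_eq, map_smul, hxf, smul_eq_mul, mul_one, hs]
    refine ⟨?_, hxs⟩
    have hf0 : f ≠ 0 := fun e => by rw [e, map_zero] at hxf; exact zero_ne_one hxf
    have hh := hS f hf0 hf s w hw.2
    set h := eich Q (s • f) w
    have hQs := H.Q_line hf s
    have hsw : polar Q (s • f) w = 0 := H.polar_line hw.2 s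
    have hhx : h.1 x = x := eich_apply_of_ortho hQs hsw (by rw [polar_comm]; exact hxs)
      (by rw [H.polar_eq, H.fB_comm, hw.1, map_zero])
    have hhu : h.1 u = u + s • f := by
      rw [eich_apply hQs hsw, H.polar_line hu.2, hwu]
      simp
    obtain ⟨hu1, hu2⟩ := hP u hu.1
    have h1 := mul_mem (mul_mem hh hu1) (inv_mem hh)
    rw [eich_conj, hhx, hhu] at h1
    have h2 := mul_mem h1 (inv_mem hu1)
    rw [eich_inv hQx hu2, eich_mul hQx (by rw [polar_add_right, hu2, hxs, add_zero])
      (by rw [polar_neg_right, hu2, neg_zero])] at h2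
    simpa using h2
  have ht : Algebra.trace F E (fB x a) = 0 := by rw [← H.polar_eq, ha]
  obtain ⟨h1, h2⟩ := hP (a - fB x a • f) (by rw [map_sub, map_smul, hxf, smul_eq_mul, mul_one, sub_self])
  obtain ⟨h3, h4⟩ := key _ ht
  have := mul_mem h1 h3
  rwa [eich_mul hQx h2 h4, sub_add_cancel] at this

/-- More maps preserving the displacements give the commutator subgroup. -/
theorem omega_le_of_extra {v f : V} (hv : fB v v = 0) (hf : fB f f = 0) (hvf : fB v f = 1)
    (hne : ∃ a ∈ lpres H hv hf hvf, ∃ y : E, a y ≠ a 1 * y) : commutator (orth Q) ≤ M := by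
  haveI : Module.Finite F V := Module.Finite.of_finite
  have hv0 : v ≠ 0 := fun e => by
    rw [e, map_zero, LinearMap.zero_apply] at hvf; exact zero_ne_one hvf
  have hS := H.roots_of_top hv hf hvf (end_top H.prime _ (fun a b hb => by
    convert H.inH_smul hv hf hvf a hb using 1
    exact LinearMap.ext fun x => rfl) hne)
  have hfull : ∀ x : V, x ≠ 0 → fB x x = 0 → ∀ a, polar Q x a = 0 → eich Q x a ∈ M := fun x hx0 hx a ha =>
    H.root_full (fun y hy0 hy => H.roots_all hv0 hv hS hy0 hy) hx0 hx ha
  obtain ⟨d, hd⟩ := Algebra.trace_surjective F E (1 : F)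
  have hd0 : d ≠ 0 := fun e => by rw [e, map_zero] at hd; exact zero_ne_one hd
  have hf0 : f ≠ 0 := fun e => by rw [e, map_zero] at hvf; exact zero_ne_one hvf
  have hp : HypPair Q v (d • f) := ⟨by have := H.Q_line hv 1; rwa [one_smul] at this, H.Q_line hf d,
    by rw [H.polar_eq, map_smul, hvf, smul_eq_mul, mul_one, hd]⟩
  have hn : 4 ≤ Module.finrank F V := by
    haveI : Module.Finite E V := Module.Finite.of_finite
    rw [← Module.finrank_mul_finrank F E V]
    exact le_trans (by norm_num) (Nat.mul_le_mul H.prime.two_le H.dim)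
  have h2 : Nat.card F ≠ 2 := by
    intro h
    refine H.two ?_
    have h1 : Fintype.card F = 2 := by rw [← Nat.card_eq_fintype_card, h]
    have := FiniteField.cast_card_eq_zero F
    rwa [h1] at this
  rw [commutator_eq_eichGroup H.nd hn (Or.inl h2)]
  exact eichGroup_le_of_root_groups H.nd (by omega) hp
    (fun a ha => hfull v hv0 hv a (mem_pperp.1 ha).1)
    (fun a ha => hfull _ (smul_ne_zero hd0 hf0) (by simp [hf]) a (mem_pperp.1 ha).2)

/-- The stabiliser of `v` and of its line acts by field automorphisms. -/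
theorem line_aut (hno : ¬ commutator (orth Q) ≤ M) {v : V} (hv0 : v ≠ 0) (hv : fB v v = 0) {g : orth Q}
    (hg : g ∈ M) (h1 : g.1 v = v) (h2 : ∀ c : E, g.1 (c • v) ∈ Submodule.span E {v}) :
    ∃ A : E →ₐ[F] E, ∀ c : E, g.1 (c • v) = A c • v := by
  obtain ⟨f, hf, hvf⟩ := H.exists_partner hv0 hv
  choose A hA using fun c => Submodule.mem_span_singleton.1 (h2 c)
  have hinj : Function.Injective fun c : E => c • v := smul_left_injective E hv0
  let AL : E →ₗ[F] E :=
    { toFun := A
      map_add' := fun a b => hinj (by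
        show A (a + b) • v = (A a + A b) • v
        rw [add_smul, hA, hA, hA, add_smul, map_add])
      map_smul' := fun t a => hinj (by
        show A (t • a) • v = (t • A a) • v
        rw [hA, smul_assoc, smul_assoc, hA, LinearEquiv.map_smul]) }
  have hALinj : Function.Injective AL := fun a b hab => hinj (g.1.injective (by
    show g.1 (a • v) = g.1 (b • v)
    rw [← hA, ← hA]; exact congrArg (fun z : E => z • v) hab))
  let Ae : E ≃ₗ[F] E := LinearEquiv.ofBijective AL ⟨hALinj, Finite.injective_iff_surjective.1 hALinj⟩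
  have hAe : ∀ c, g.1 (c • v) = Ae c • v := fun c => (hA c).symm
  have hAs : ∀ c, (g⁻¹).1 (c • v) = Ae.symm c • v := fun c => by
    conv_lhs => rw [← Ae.apply_symm_apply c, ← hAe, orth_inv_apply_apply]
  have hA1 : Ae 1 = 1 := hinj (by show Ae 1 • v = (1 : E) • v; rw [← hAe, one_smul, h1])
  have hconj : ∀ (k : orth Q) (B : E ≃ₗ[F] E), k ∈ M → (∀ c, k.1 (c • v) = B c • v) → ∀ b, InH M fB v b →
      InH M fB v ((B : E →ₗ[F] E) ∘ₗ b ∘ₗ ((k⁻¹).1 : V →ₗ[F] V)) := by
    rintro k B hk hkB b ⟨b0, m, hm, m1, m2⟩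
    have hkinv : ∀ c : E, (k⁻¹).1 (c • v) = B.symm c • v := fun c => by
      conv_lhs => rw [← B.apply_symm_apply c, ← hkB, orth_inv_apply_apply]
    refine ⟨fun c => ?_, k * m * k⁻¹, mul_mem (mul_mem hk hm) (inv_mem hk), fun c => ?_, fun z hz => ?_⟩
    · show B (b ((k⁻¹).1 (c • v))) = 0
      rw [hkinv, b0, map_zero]
    · rw [orth_mul_apply, orth_mul_apply, hkinv, m1, hkB, LinearEquiv.apply_symm_apply]
    · have hz' : fB v ((k⁻¹).1 z) = 0 := eq_zero_of_trace (F := F) fun c => by
        rw [H.htr, ← orth_polar k (c • v), orth_apply_inv_apply, hkB, H.polar_line hz]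
      rw [orth_mul_apply, orth_mul_apply, m2 _ hz', map_add, orth_apply_inv_apply, hkB]
      rfl
  have hL : ∀ a ∈ lpres H hv hf hvf, ∀ x : E, a x = a 1 * x := by
    by_contra h
    push Not at h
    exact hno (H.omega_le_of_extra hv hf hvf h)
  have hmul : ∀ c y, Ae (c * y) = Ae c * Ae y := by
    intro c y
    have hpres : (Ae : E →ₗ[F] E) ∘ₗ LinearMap.mulLeft F c ∘ₗ (Ae.symm : E →ₗ[F] E) ∈ lpres H hv hf hvf := by
      intro b hb
      have hb1 := hconj g⁻¹ Ae.symm (inv_mem hg) hAs b hb
      have hb2 := hconj g Ae hg hAe _ (H.inH_smul hv hf hvf c hb1)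
      convert hb2 using 1
      refine LinearMap.ext fun x => ?_
      simp [LinearMap.comp_apply, inv_inv, orth_apply_inv_apply]
    have hS1 : Ae.symm 1 = 1 := by rw [Ae.symm_apply_eq, hA1]
    have := hL _ hpres (Ae y)
    simpa [hS1] using this
  exact ⟨AlgHom.ofLinearMap (Ae : E →ₗ[F] E) hA1 hmul, fun c => hAe c⟩

end OCtx

end Cfsg.Agent.H58.ExtField.Orth
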