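import Cfsg.Agent.H58.ExtField.OrthOut
import Cfsg.Agent.H58.ExtField.OrthConj
import Mathlib.FieldTheory.ChevalleyWarning

/-!
# Overgroups of orthogonal groups over an extension field of prime degree contain `Ω`

A stabiliser of a singular vector moves some multiple of it off its line.  A zero of a system of quadrics in a
large space gives one landing in the perp, and translations there make a scalar conjugate to its translate.
-/

set_option autoImplicit false
set_option linter.unusedSectionVars false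
set_option linter.unusedVariables false

namespace Cfsg.Agent.H58.ExtField.Orth

open QuadraticMap hiding sq
open Cfsg.Agent.H5

variable {F : Type*} [Field F] [Fintype F] {E : Type*} [Field E] [Fintype E] [Algebra F E]
variable {V : Type*} [AddCommGroup V] [Module F V] [Finite V] [Module E V] [IsScalarTower F E V]
variable {Q : QuadraticForm F V} {fB : V →ₗ[E] V →ₗ[E] E} {M : Subgroup (orth Q)}

/-- A system of `k` quadrics without constant terms in more than `2 k` unknowns has a nonzero solution. -/
theorem exists_ne_zero_of_quadratic {D W : Type*} [AddCommGroup D] [Module F D] [Finite D] [AddCommGroup W]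
    [Module F W] [Finite W] (B : D →ₗ[F] D →ₗ[F] W) (L : D →ₗ[F] W)
    (h : 2 * Module.finrank F W < Module.finrank F D) : ∃ d, d ≠ 0 ∧ B d d + L d = 0 := by
  classical
  haveI : Module.Finite F D := Module.Finite.of_finite
  haveI : Module.Finite F W := Module.Finite.of_finite
  obtain ⟨p, hp⟩ := CharP.exists F
  haveI hpp : Fact p.Prime := ⟨CharP.char_is_prime F p⟩
  let bD := Module.finBasis F D
  let bW := Module.finBasis F W
  let f : Fin (Module.finrank F W) → MvPolynomial (Fin (Module.finrank F D)) F := fun i =>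
    (∑ j, ∑ k, MvPolynomial.C (bW.repr (B (bD j) (bD k)) i) * MvPolynomial.X j * MvPolynomial.X k) +
      ∑ j, MvPolynomial.C (bW.repr (L (bD j)) i) * MvPolynomial.X j
  have hdeg : ∀ i, (f i).totalDegree ≤ 2 := fun i => by
    refine (MvPolynomial.totalDegree_add _ _).trans (max_le ?_ ?_)
    · refine MvPolynomial.totalDegree_finsetSum_le fun j _ => ?_
      refine MvPolynomial.totalDegree_finsetSum_le fun k _ => ?_
      refine (MvPolynomial.totalDegree_mul _ _).trans ?_
      refine Nat.le_trans (Nat.add_le_add (MvPolynomial.totalDegree_mul _ _) le_rfl) ?_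
      simp [MvPolynomial.totalDegree_C, MvPolynomial.totalDegree_X]
    · refine MvPolynomial.totalDegree_finsetSum_le fun j _ => ?_
      refine (MvPolynomial.totalDegree_mul _ _).trans ?_
      simp [MvPolynomial.totalDegree_C, MvPolynomial.totalDegree_X]
  have hsum : ∑ i, (f i).totalDegree < Fintype.card (Fin (Module.finrank F D)) := by
    rw [Fintype.card_fin]
    refine lt_of_le_of_lt (Finset.sum_le_card_nsmul _ _ _ fun i _ => hdeg i) ?_
    rw [Finset.card_univ, Fintype.card_fin, smul_eq_mul, mul_comm]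
    exact h
  have heval : ∀ (i) (x : Fin (Module.finrank F D) → F), MvPolynomial.eval x (f i) =
      bW.repr (B (∑ j, x j • bD j) (∑ j, x j • bD j) + L (∑ j, x j • bD j)) i := fun i x => by
    simp only [f, map_add, map_sum, map_smul, LinearMap.sum_apply, LinearMap.smul_apply, map_mul,
      MvPolynomial.eval_C, MvPolynomial.eval_X, Finsupp.coe_add, Pi.add_apply, Finsupp.coe_finsetSum,
      Finset.sum_apply, Finsupp.coe_smul, Pi.smul_apply, smul_eq_mul, Finset.smul_sum, Finset.mul_sum]
    congr 1
    · conv_rhs => rw [Finset.sum_comm]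
      exact Finset.sum_congr rfl fun j _ => Finset.sum_congr rfl fun k _ => by ring
    · exact Finset.sum_congr rfl fun j _ => by ring
  have hdvd := char_dvd_card_solutions_of_sum_lt p (s := Finset.univ) (f := f) hsum
  have hne : 1 < Fintype.card {x : Fin (Module.finrank F D) → F // ∀ i ∈ Finset.univ, MvPolynomial.eval x (f i) = 0} := by
    have hpos : 0 < Fintype.card {x : Fin (Module.finrank F D) → F // ∀ i ∈ Finset.univ, MvPolynomial.eval x (f i) = 0} :=
      Fintype.card_pos_iff.2 ⟨⟨0, fun i _ => by rw [heval]; simp⟩⟩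
    exact lt_of_lt_of_le hpp.1.one_lt (Nat.le_of_dvd hpos (by convert hdvd))
  obtain ⟨⟨x, hx⟩, hx0⟩ := Fintype.exists_ne_of_one_lt_card hne ⟨0, fun i _ => by rw [heval]; simp⟩
  refine ⟨∑ j, x j • bD j, fun e => hx0 (Subtype.ext ?_), bW.repr.injective (Finsupp.ext fun i => ?_)⟩
  · funext j
    exact Fintype.linearIndependent_iff.1 bD.linearIndependent x e j
  · rw [← heval, hx i (Finset.mem_univ i)]
    simp

/-- Two proper subspaces do not cover the space. -/
theorem exists_not_mem_two {S T : Submodule F E} (hS : S ≠ ⊤) (hT : T ≠ ⊤) : ∃ c, c ∉ S ∧ c ∉ T := by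
  by_contra h
  push Not at h
  obtain ⟨a, ha⟩ : ∃ a, a ∉ S := by by_contra h'; push Not at h'; exact hS (eq_top_iff.2 fun x _ => h' x)
  obtain ⟨b, hb⟩ : ∃ b, b ∉ T := by by_contra h'; push Not at h'; exact hT (eq_top_iff.2 fun x _ => h' x)
  have haT := h a ha
  have hbS : b ∈ S := by by_contra hb'; exact hb (h b hb')
  by_cases hab : a + b ∈ S
  · exact ha (by have := S.sub_mem hab hbS; rwa [add_sub_cancel_right] at this)
  · exact hb (by have := T.sub_mem (h _ hab) haT; rwa [add_sub_cancel_left] at this)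

section Shift

variable (F E)

/-- The base field. -/
noncomputable def base : Submodule F E := LinearMap.range (Algebra.linearMap F E)

/-- The elements differing from all their conjugates by elements of the base field. -/
noncomputable def shift : Submodule F E :=
  ⨅ σ : E ≃ₐ[F] E, (base F E).comap (σ.toLinearMap - LinearMap.id)

variable {F E}

theorem mem_base {c : E} : c ∈ base F E ↔ c ∈ Set.range (algebraMap F E) := Iff.rfl

theorem mem_shift {c : E} : c ∈ shift F E ↔ ∀ σ : E ≃ₐ[F] E, σ c - c ∈ base F E := by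
  simp [shift, Submodule.mem_iInf, Submodule.mem_comap]

theorem base_le_shift : base F E ≤ shift F E := fun c hc => mem_shift.2 fun σ => by
  obtain ⟨t, rfl⟩ := hc
  rw [Algebra.linearMap_apply, AlgEquiv.commutes, sub_self]
  exact zero_mem _

theorem finrank_base_le : Module.finrank F (base F E) ≤ 1 :=
  (LinearMap.finrank_range_le _).trans (Module.finrank_self F).le

theorem exists_aut_ne_one (hr : (Module.finrank F E).Prime) : ∃ σ : E ≃ₐ[F] E, σ ≠ 1 := by
  have h : 1 < Nat.card (E ≃ₐ[F] E) := by rw [IsGalois.card_aut_eq_finrank]; exact hr.one_lt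
  haveI : Nontrivial (E ≃ₐ[F] E) := Finite.one_lt_card_iff_nontrivial.1 h
  exact exists_ne 1

theorem ker_le_base (hr : (Module.finrank F E).Prime) {σ : E ≃ₐ[F] E} (hσ : σ ≠ 1) {c : E} (hc : σ c = c) :
    c ∈ base F E := by
  rcases (Subalgebra.isSimpleOrder_of_finrank_prime F E hr).eq_bot_or_eq_top
      (AlgHom.equalizer (σ : E →ₐ[F] E) (AlgHom.id F E)) with h0 | h0
  · exact Algebra.mem_bot.1 (h0 ▸ (hc : c ∈ AlgHom.equalizer (σ : E →ₐ[F] E) (AlgHom.id F E)) :
      c ∈ (⊥ : Subalgebra F E))
  · refine absurd (AlgEquiv.ext fun x => ?_) hσ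
    have hx : x ∈ AlgHom.equalizer (σ : E →ₐ[F] E) (AlgHom.id F E) := h0 ▸ Algebra.mem_top
    exact hx

theorem finrank_comap_le (hr : (Module.finrank F E).Prime) {σ : E ≃ₐ[F] E} (hσ : σ ≠ 1) (S : Submodule F E) :
    Module.finrank F (S.comap (σ.toLinearMap - LinearMap.id)) ≤ Module.finrank F S + 1 := by
  set φ := σ.toLinearMap - LinearMap.id
  have h := (φ.domRestrict (S.comap φ)).finrank_range_add_finrank_ker
  have h1 : Module.finrank F (LinearMap.range (φ.domRestrict (S.comap φ))) ≤ Module.finrank F S :=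
    Submodule.finrank_mono (by rintro _ ⟨⟨x, hx⟩, rfl⟩; exact hx)
  have h2 : Module.finrank F (LinearMap.ker (φ.domRestrict (S.comap φ))) ≤ 1 := by
    rw [← Submodule.finrank_map_subtype_eq]
    refine (Submodule.finrank_mono ?_).trans (finrank_base_le (F := F) (E := E))
    rintro _ ⟨⟨x, hx⟩, hk, rfl⟩
    exact ker_le_base hr hσ (sub_eq_zero.1 (LinearMap.mem_ker.1 hk))
  omega

theorem finrank_shift_le (hr : (Module.finrank F E).Prime) : Module.finrank F (shift F E) ≤ 2 := by
  obtain ⟨σ, hσ⟩ := exists_aut_ne_one hr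
  have h1 := Submodule.finrank_mono (show shift F E ≤ (base F E).comap (σ.toLinearMap - LinearMap.id) from
    iInf_le _ σ)
  have h2 := finrank_comap_le hr hσ (base F E)
  have h3 := finrank_base_le (F := F) (E := E)
  omega

theorem shift_ne_top (hr : (Module.finrank F E).Prime) (h2 : (2 : F) ≠ 0) : shift F E ≠ ⊤ := by
  intro htop
  have h := finrank_shift_le hr
  rw [htop, finrank_top] at h
  have hr2 : Module.finrank F E = 2 := le_antisymm h hr.two_le
  obtain ⟨σ, hσ⟩ := exists_aut_ne_one hr
  refine hσ (AlgEquiv.ext fun c => ?_)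
  obtain ⟨x, hx⟩ : σ c - c ∈ base F E := mem_shift.1 (htop ▸ Submodule.mem_top) σ
  have hpow : σ * σ = 1 := by
    rw [← pow_two, ← hr2, ← IsGalois.card_aut_eq_finrank F E, pow_card_eq_one']
  have h1 : σ c = c + algebraMap F E x := by rw [← Algebra.linearMap_apply, hx]; ring
  have h3 : σ (σ c) = c := by rw [← AlgEquiv.mul_apply, hpow]; rfl
  rw [h1, map_add, AlgEquiv.commutes, h1, add_assoc, add_eq_left, ← map_add, ← two_mul, map_eq_zero,
    mul_eq_zero, or_iff_right h2] at h3
  rw [h1, h3, map_zero, add_zero]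
  rfl

theorem shift_good (hr : (Module.finrank F E).Prime) {c : E} (hc : c ∉ shift F E) (A : E →ₐ[F] E) :
    A c ≠ c + 1 := by
  intro hA
  let A' : E ≃ₐ[F] E := AlgEquiv.ofBijective A ⟨A.injective, Finite.injective_iff_surjective.1 A.injective⟩
  let S : Subgroup (E ≃ₐ[F] E) :=
    { carrier := {σ | σ c - c ∈ base F E}
      mul_mem' := fun {σ τ} hσ hτ => by
        obtain ⟨x, hx⟩ := hτ
        show (σ * τ) c - c ∈ base F E
        have e : (σ * τ) c - c = σ c - c + algebraMap F E x := by
          rw [AlgEquiv.mul_apply, show τ c = c + algebraMap F E x by rw [← Algebra.linearMap_apply, hx]; ring,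
            map_add, AlgEquiv.commutes]
          ring
        rw [e]
        exact add_mem hσ ⟨x, rfl⟩
      one_mem' := by simp
      inv_mem' := fun {σ} hσ => by
        obtain ⟨x, hx⟩ := hσ
        refine ⟨-x, ?_⟩
        have e : σ c = c + algebraMap F E x := by rw [← Algebra.linearMap_apply, hx]; ring
        have e2 : (σ⁻¹ : E ≃ₐ[F] E) (σ c) = c := σ.symm_apply_apply c
        rw [e, map_add, AlgEquiv.commutes] at e2
        rw [Algebra.linearMap_apply, map_neg]
        linear_combination -e2 }
  have hA' : A' ∈ S := by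
    show A c - c ∈ base F E
    rw [hA, add_sub_cancel_left]
    exact ⟨1, by simp⟩
  haveI : Fact (Nat.card (E ≃ₐ[F] E)).Prime := ⟨by rw [IsGalois.card_aut_eq_finrank]; exact hr⟩
  rcases S.eq_bot_or_eq_top_of_prime_card with h0 | h0
  · rw [h0, Subgroup.mem_bot] at hA'
    have : A c = c := DFunLike.congr_fun hA' c
    rw [hA, add_eq_left] at this
    exact one_ne_zero this
  · exact hc (mem_shift.2 fun σ => (h0 ▸ Subgroup.mem_top σ : σ ∈ S))

end Shift

namespace OCtx

variable (H : OCtx Q fB M)
include H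

/-- The overgroup contains `Ω`. -/
theorem omega_le (h4 : 4 ≤ Module.finrank E V) :
    commutator (orth Q) ≤ M := by
  classical
  haveI : Module.Finite E V := Module.Finite.of_finite
  haveI : Module.Finite F V := Module.Finite.of_finite
  by_contra hno
  obtain ⟨v, hv0, hv, g, hg, hgv, c1, hc1⟩ := H.exists_out h4
  have hvE : ∀ c : E, fB v (c • v) = 0 := fun c => by rw [map_smul, hv, smul_zero]
  set X : Submodule F V := (Submodule.span E {v}).restrictScalars F with hX
  set gl : E →ₗ[F] V := (g.1 : V →ₗ[F] V) ∘ₗ (LinearMap.toSpanSingleton E V v).restrictScalars F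
  set β : E →ₗ[F] E := (fB v).restrictScalars F ∘ₗ gl
  set K : Submodule F E := X.comap gl
  have hgl : ∀ c, gl c = g.1 (c • v) := fun c => rfl
  have hβdef : ∀ c, β c = fB v (g.1 (c • v)) := fun c => rfl
  have hK : ∀ c, c ∈ K ↔ g.1 (c • v) ∈ Submodule.span E {v} := fun c => Iff.rfl
  -- translations
  have key : ∀ c : E, c ∉ shift F E → ∀ k ∈ M, k.1 v = v → k.1 (c • v) ∉ Submodule.span E {v} →
      fB v (k.1 (c • v)) ≠ 0 := by
    intro c hc k hk hkv hout hperp
    obtain ⟨u, huw, huv⟩ := H.exists_dual hout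
    have hvu : fB v (-u) = 0 := by
      rw [map_neg, H.fB_comm, huv v (Submodule.mem_span_singleton_self v), neg_zero]
    have hpv : (rho H v (-u)).1 v = v := by
      rw [H.rho_apply hv hvu, hv, H.fB_comm (-u) v, hvu, mul_zero, zero_smul, zero_smul, sub_zero, sub_zero,
        add_zero]
    have hpw : (rho H v (-u)).1 (k.1 (c • v)) = k.1 (c • v) + v := by
      rw [H.rho_apply hv hvu, hperp, mul_zero, zero_smul, zero_smul, sub_zero, add_zero, map_neg,
        LinearMap.neg_apply, huw, neg_smul, one_smul, sub_neg_eq_add]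
    have hc' : c ∉ Set.range (algebraMap F E) := fun h => hc (base_le_shift h)
    have hc1' : c + 1 ∉ Set.range (algebraMap F E) := fun ⟨t, ht⟩ =>
      hc' ⟨t - 1, by rw [map_sub, map_one, ht, add_sub_cancel_right]⟩
    obtain ⟨A, hA⟩ := H.conj_aut hno hv0 hv hc' hc1'
      (h := k⁻¹ * (rho H v (-u) * k)) (mul_mem (inv_mem hk) (mul_mem (H.rho_mem _ _) hk))
      (by
        rw [orth_mul_apply, orth_mul_apply, hkv, hpv]
        conv_lhs => rw [← hkv, orth_inv_apply_apply])
      (by
        rw [orth_mul_apply, orth_mul_apply, hpw]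
        conv_lhs => arg 2; arg 2; rw [← hkv]
        rw [← map_add k.1, orth_inv_apply_apply, add_smul, one_smul])
    exact shift_good H.prime hc A hA
  have hshift := shift_ne_top (F := F) (E := E) H.prime H.two
  by_cases hker : LinearMap.ker β = ⊤
  · have hKtop : K ≠ ⊤ := fun h => hc1 ((hK c1).1 (h ▸ Submodule.mem_top))
    obtain ⟨c, hcK, hcS⟩ := exists_not_mem_two hKtop hshift
    exact key c hcS g hg hgv (fun h => hcK ((hK c).2 h))
      ((hβdef c).symm.trans (LinearMap.mem_ker.1 (hker ▸ Submodule.mem_top)))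
  -- the space of displacements
  let φ1 : V →ₗ[F] E := (fB v).restrictScalars F
  let φ2 : V →ₗ[F] E := (fB v).restrictScalars F ∘ₗ ((g⁻¹).1 : V →ₗ[F] V)
  set D0 : Submodule F V := LinearMap.ker (φ1.prod φ2)
  have hD0 : ∀ {d}, d ∈ D0 → fB v d = 0 ∧ fB v ((g⁻¹).1 d) = 0 := fun {d} hd => by
    simpa [D0, φ1, φ2] using hd
  have hn : Module.finrank F V = Module.finrank F E * Module.finrank E V :=
    (Module.finrank_mul_finrank F E V).symm
  have hdim0 : Module.finrank F V + 1 ≤ Module.finrank F D0 + 2 * Module.finrank F E := by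
    have hrk := (φ1.prod φ2).finrank_range_add_finrank_ker
    have hne : LinearMap.range (φ1.prod φ2) ≠ ⊤ := by
      intro htop
      obtain ⟨t, ht⟩ := Algebra.trace_surjective F E (1 : F)
      obtain ⟨z, hz⟩ : ((t, 0) : E × E) ∈ LinearMap.range (φ1.prod φ2) := htop ▸ Submodule.mem_top
      rw [LinearMap.prod_apply, Function.prod_apply, Prod.mk.injEq] at hz
      have e1 : polar Q v z = 1 := by rw [H.polar_eq, show fB v z = t from hz.1, ht]
      have e2 : polar Q v ((g⁻¹).1 z) = 0 := by
        rw [H.polar_eq, show fB v ((g⁻¹).1 z) = 0 from hz.2, map_zero]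
      rw [← orth_polar g, hgv, orth_apply_inv_apply, e1] at e2
      exact one_ne_zero e2
    have := Submodule.finrank_lt hne
    rw [Module.finrank_prod] at this
    show _ ≤ Module.finrank F (LinearMap.ker (φ1.prod φ2)) + _
    omega
  -- a solution in a large subspace
  have solve : ∀ (c : E) (D : Submodule F V), D ≤ D0 → 2 * Module.finrank F E < Module.finrank F D →
      ∃ d ∈ D, d ≠ 0 ∧ fB d d + 2 * fB (g.1 (c • v)) d = 0 := by
    intro c D _ hD
    let B : D →ₗ[F] D →ₗ[F] E := LinearMap.mk₂ F (fun x y => fB (x : V) (y : V))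
      (fun x x' y => by simp) (fun t x y => by simp [LinearMap.map_smul_of_tower])
      (fun x y y' => by simp) (fun t x y => by simp [LinearMap.map_smul_of_tower])
    let L : D →ₗ[F] E := ((2 : E) • fB (g.1 (c • v))).restrictScalars F ∘ₗ D.subtype
    obtain ⟨d, hd, he⟩ := exists_ne_zero_of_quadratic B L hD
    exact ⟨d, d.2, fun h => hd (Subtype.ext h), he⟩
  -- moving by a solution
  have move : ∀ c : E, β c ≠ 0 → ∀ d ∈ D0, fB d d + 2 * fB (g.1 (c • v)) d = 0 →
      ∃ k ∈ M, k.1 v = v ∧ k.1 (c • v) = c • v + (g⁻¹).1 d ∧ fB v (k.1 (c • v)) = 0 := by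
    intro c hb d hd heq
    obtain ⟨hd1, hd2⟩ := hD0 hd
    set u := (β c)⁻¹ • d
    have hvu : fB v u = 0 := by rw [map_smul, hd1, smul_zero]
    have hw : (rho H v u).1 (g.1 (c • v)) = g.1 (c • v) + d := by
      rw [H.rho_apply hv hvu, ← hβdef, smul_inv_smul₀ hb, sub_sub, ← add_smul, sub_eq_self]
      refine (smul_eq_zero.2 (Or.inl ?_))
      rw [H.fB_comm (g.1 (c • v)) d] at heq
      simp only [u, QuadraticMap.map_smul, map_smul, LinearMap.smul_apply, smul_eq_mul, qf_apply]
      have := H.twoE
      field_simp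
      linear_combination heq
    have hpv : (rho H v u).1 v = v := by
      rw [H.rho_apply hv hvu, hv, H.fB_comm u v, hvu, mul_zero, zero_smul, zero_smul, sub_zero, sub_zero, add_zero]
    refine ⟨g⁻¹ * (rho H v u * g), mul_mem (inv_mem hg) (mul_mem (H.rho_mem _ _) hg), ?_, ?_, ?_⟩
    · rw [orth_mul_apply, orth_mul_apply, hgv, hpv]
      conv_lhs => rw [← hgv, orth_inv_apply_apply]
    · rw [orth_mul_apply, orth_mul_apply, hw, map_add, orth_inv_apply_apply]
    · rw [orth_mul_apply, orth_mul_apply, hw, map_add, orth_inv_apply_apply, map_add, hvE, hd2, add_zero]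
  have addline : ∀ (c : E) (x : V), c • v + x ∈ Submodule.span E {v} → x ∈ Submodule.span E {v} :=
    fun c x h => by
      have := Submodule.sub_mem _ h (Submodule.smul_mem _ c (Submodule.mem_span_singleton_self v))
      rwa [add_sub_cancel_left] at this
  by_cases ha5 : 5 ≤ Module.finrank E V
  · obtain ⟨c, hcb, hcS⟩ := exists_not_mem_two hker hshift
    obtain ⟨C, hC⟩ := (X.map (g.1 : V →ₗ[F] V)).exists_isCompl
    have hdimX : Module.finrank F (X.map (g.1 : V →ₗ[F] V)) ≤ Module.finrank F E := by
      refine (Submodule.finrank_map_le _ _).trans ?_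
      have hle : X ≤ LinearMap.range ((LinearMap.toSpanSingleton E V v).restrictScalars F) := by
        intro x hx
        obtain ⟨e, rfl⟩ := Submodule.mem_span_singleton.1 (show x ∈ Submodule.span E {v} from hx)
        exact ⟨e, rfl⟩
      exact (Submodule.finrank_mono hle).trans (LinearMap.finrank_range_le _)
    have hdim : 2 * Module.finrank F E < Module.finrank F ↥(D0 ⊓ C) := by
      have h1 := Submodule.finrank_sup_add_finrank_inf_eq D0 C
      have h2 := Submodule.finrank_add_eq_of_isCompl hC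
      have h3 := Submodule.finrank_le (D0 ⊔ C)
      have := Nat.mul_le_mul_left (Module.finrank F E) ha5
      omega
    obtain ⟨d, hd, hd0, heq⟩ := solve c _ inf_le_left hdim
    obtain ⟨k, hk, hkv, hkc, hkp⟩ := move c (fun h => hcb (LinearMap.mem_ker.2 h)) d hd.1 heq
    refine key c hcS k hk hkv ?_ hkp
    rw [hkc]
    intro hmem
    have hdX : d ∈ X.map (g.1 : V →ₗ[F] V) :=
      ⟨(g⁻¹).1 d, addline c _ hmem, orth_apply_inv_apply g d⟩
    exact hd0 ((Submodule.disjoint_def.1 hC.disjoint) d hdX hd.2)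
  have ha4 := h4
  have hdim : 2 * Module.finrank F E < Module.finrank F D0 := by
    have := Nat.mul_le_mul_left (Module.finrank F E) ha4
    omega
  by_cases hkK : LinearMap.ker β ≤ K
  · obtain ⟨c, hcb, hcS⟩ := exists_not_mem_two hker hshift
    have hb : β c ≠ 0 := fun h => hcb (LinearMap.mem_ker.2 h)
    obtain ⟨d, hd, hd0, heq⟩ := solve c D0 le_rfl hdim
    obtain ⟨k, hk, hkv, hkc, hkp⟩ := move c hb d hd heq
    refine key c hcS k hk hkv ?_ hkp
    rw [hkc]
    intro hmem
    obtain ⟨e, he⟩ := Submodule.mem_span_singleton.1 (addline c _ hmem)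
    have hde : g.1 (e • v) = d := by rw [he, orth_apply_inv_apply]
    have heK := hkK (show e ∈ LinearMap.ker β by rw [LinearMap.mem_ker, hβdef, hde, (hD0 hd).1])
    obtain ⟨δ, hδ⟩ := Submodule.mem_span_singleton.1 ((hK e).1 heK)
    rw [hde] at hδ
    refine hd0 ?_
    rw [← hδ] at heq ⊢
    simp only [map_smul, LinearMap.smul_apply, smul_eq_mul, hv, mul_zero, zero_add, H.fB_comm (g.1 (c • v)) v,
      ← hβdef, mul_eq_zero, H.twoE, hb, false_or, or_false] at heq
    rw [heq, zero_smul]
  obtain ⟨c2, hc2b, hc2K⟩ := SetLike.not_le_iff_exists.1 hkK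
  by_cases hgood : ∃ c ∈ LinearMap.ker β, c ∉ K ∧ c ∉ shift F E
  · obtain ⟨c, hcb, hcK, hcS⟩ := hgood
    exact key c hcS g hg hgv (fun h => hcK ((hK c).2 h)) ((hβdef c).symm.trans (LinearMap.mem_ker.1 hcb))
  push Not at hgood
  have hkS : LinearMap.ker β ≤ shift F E := fun x hx => by
    by_cases hxK : x ∈ K
    · have h1 : x + c2 ∉ K := fun h => hc2K (by have := K.sub_mem h hxK; rwa [add_sub_cancel_left] at this)
      have := Submodule.sub_mem _ (hgood _ (add_mem hx hc2b) h1) (hgood _ hc2b hc2K)
      rwa [add_sub_cancel_right] at this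
    · exact hgood x hx hxK
  -- few scalars are carried into the perp: parametrise the zeros by a space of codimension about `2 r`
  obtain ⟨c, hcb, hcS⟩ := exists_not_mem_two hker hshift
  have hb : fB v (g.1 (c • v)) ≠ 0 := fun h => hcb (LinearMap.mem_ker.2 ((hβdef c).trans h))
  obtain ⟨f, hf, hvf⟩ := H.exists_partner hv0 hv
  have hfv : fB f v = 1 := by rw [H.fB_comm, hvf]
  set φ3 : V →ₗ[F] E := (fB f).restrictScalars F
  set U : Submodule F V := LinearMap.ker (φ1.prod φ3)
  have hU : ∀ {y}, y ∈ U → fB v y = 0 ∧ fB f y = 0 := fun {y} hy => by simpa [U, φ1, φ3] using hy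
  have hdimU : Module.finrank F V ≤ Module.finrank F U + 2 * Module.finrank F E := by
    have h1 := (φ1.prod φ3).finrank_range_add_finrank_ker
    have h3 := Submodule.finrank_le (LinearMap.range (φ1.prod φ3))
    rw [Module.finrank_prod] at h3
    show _ ≤ Module.finrank F (LinearMap.ker (φ1.prod φ3)) + _
    omega
  set ln : E →ₗ[F] V := (LinearMap.toSpanSingleton E V v).restrictScalars F
  have hln : ∀ e, ln e = e • v := fun e => rfl
  set π : V →ₗ[F] V := LinearMap.id - ln ∘ₗ φ3
  have hπ : ∀ x, π x = x - fB f x • v := fun x => rfl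
  set P : Submodule F V := (LinearMap.ker β).map (π ∘ₗ gl)
  have hP : Module.finrank F P ≤ 1 := by
    have h1 := (Submodule.finrank_mono hkS).trans (finrank_shift_le H.prime)
    have hone : (1 : E) ∈ LinearMap.ker β := by rw [LinearMap.mem_ker, hβdef, one_smul, hgv, hv]
    have hk0 : 1 ≤ Module.finrank F (LinearMap.ker ((π ∘ₗ gl).domRestrict (LinearMap.ker β))) :=
      Submodule.one_le_finrank_iff.2 ((Submodule.ne_bot_iff _).2 ⟨⟨1, hone⟩, by
        rw [LinearMap.mem_ker, LinearMap.domRestrict_apply, LinearMap.comp_apply, hgl, one_smul, hgv, hπ, hfv,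
          one_smul, sub_self], fun e => one_ne_zero (α := E) (congrArg Subtype.val e)⟩)
    have h2 := ((π ∘ₗ gl).domRestrict (LinearMap.ker β)).finrank_range_add_finrank_ker
    rw [LinearMap.range_domRestrict] at h2
    show Module.finrank F ((LinearMap.ker β).map (π ∘ₗ gl)) ≤ 1
    omega
  obtain ⟨C, hC⟩ := P.exists_isCompl
  set W : Submodule F V := LinearMap.ker φ1
  set φR : W →ₗ[F] LinearMap.range (φ2.domRestrict W) := (φ2.domRestrict W).rangeRestrict
  have hR : Module.finrank F (LinearMap.range (φ2.domRestrict W)) < Module.finrank F E := by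
    refine Submodule.finrank_lt fun htop => ?_
    obtain ⟨t, ht⟩ := Algebra.trace_surjective F E (1 : F)
    obtain ⟨⟨x, hxW⟩, hx⟩ : φ2 (t • f) ∈ LinearMap.range (φ2.domRestrict W) := htop ▸ Submodule.mem_top
    have hx' : φ2 x = φ2 (t • f) := hx
    have e1 : polar Q v (t • f - x) = 1 := by
      rw [H.polar_eq, map_sub, map_smul, hvf, show fB v x = 0 from LinearMap.mem_ker.1 hxW, smul_eq_mul, mul_one,
        sub_zero, ht]
    have e3 : φ2 (t • f - x) = 0 := by rw [map_sub, hx', sub_self]
    have e2 : polar Q v ((g⁻¹).1 (t • f - x)) = 0 := by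
      rw [H.polar_eq, show fB v ((g⁻¹).1 (t • f - x)) = 0 from e3, map_zero]
    rw [← orth_polar g, hgv, orth_apply_inv_apply, e1] at e2
    exact one_ne_zero e2
  set D : Submodule F V := U ⊓ C
  have hdimD : 2 * Module.finrank F (LinearMap.range (φ2.domRestrict W)) < Module.finrank F D := by
    have h1 := Submodule.finrank_sup_add_finrank_inf_eq U C
    have h2 := Submodule.finrank_add_eq_of_isCompl hC
    have h3 := Submodule.finrank_le (U ⊔ C)
    have h5 := Nat.mul_le_mul_left (Module.finrank F E) h4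
    show _ < Module.finrank F ↥(U ⊓ C)
    omega
  let lnR : E →ₗ[F] LinearMap.range (φ2.domRestrict W) := φR ∘ₗ ln.codRestrict W (fun e =>
    LinearMap.mem_ker.2 (show fB v (e • v) = 0 from hvE e))
  let inR : D →ₗ[F] LinearMap.range (φ2.domRestrict W) := φR ∘ₗ D.subtype.codRestrict W (fun y =>
    LinearMap.mem_ker.2 (show fB v (y : V) = 0 from (hU y.2.1).1))
  set w := g.1 (c • v)
  let B0 : D →ₗ[F] D →ₗ[F] E := LinearMap.mk₂ F (fun x y => fB (x : V) (y : V))
    (fun x x' y => by simp) (fun t x y => by simp [LinearMap.map_smul_of_tower])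
    (fun x y y' => by simp) (fun t x y => by simp [LinearMap.map_smul_of_tower])
  obtain ⟨y, hy0, hy⟩ := exists_ne_zero_of_quadratic (B0.compr₂ (lnR ∘ₗ LinearMap.mulLeft F (-(2 * fB v w)⁻¹)))
    (inR + lnR ∘ₗ LinearMap.mulLeft F (-(fB v w)⁻¹) ∘ₗ (fB w).restrictScalars F ∘ₗ D.subtype) hdimD
  set α : E := -(2 * fB v w)⁻¹ * fB (y : V) y + -(fB v w)⁻¹ * fB w y
  have hy' : lnR α + inR y = 0 := by
    have e : lnR α = lnR (-(2 * fB v w)⁻¹ * fB (y : V) y) + lnR (-(fB v w)⁻¹ * fB w y) := map_add lnR _ _
    rw [e]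
    refine Eq.trans ?_ hy
    simp only [LinearMap.compr₂_apply, LinearMap.comp_apply, LinearMap.add_apply, LinearMap.mulLeft_apply,
      LinearMap.restrictScalars_apply, Submodule.subtype_apply, B0, LinearMap.mk₂_apply]
    abel
  obtain ⟨hyv, hyf⟩ := hU y.2.1
  set d := α • v + (y : V)
  have hd : d ∈ D0 := by
    have e1 : fB v d = 0 := by rw [map_add, hvE, hyv, add_zero]
    have e2 : φ2 d = 0 := by
      have := congrArg Subtype.val hy'
      rw [map_add]
      exact this
    show d ∈ LinearMap.ker (φ1.prod φ2)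
    rw [LinearMap.mem_ker, LinearMap.prod_apply, Function.prod_apply, show φ1 d = 0 from e1, e2]
    rfl
  have heq : fB d d + 2 * fB w d = 0 := by
    simp only [d, map_add, LinearMap.add_apply, map_smul, LinearMap.smul_apply, smul_eq_mul, hv, hyv,
      H.fB_comm (y : V) v, H.fB_comm w v, mul_zero, zero_add, add_zero]
    simp only [α]
    have := H.twoE
    field_simp
    ring1
  obtain ⟨k, hk, hkv, hkc, hkp⟩ := move c hb d hd heq
  refine key c hcS k hk hkv ?_ hkp
  rw [hkc]
  intro hmem
  obtain ⟨e, he⟩ := Submodule.mem_span_singleton.1 (addline c _ hmem)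
  have hde : g.1 (e • v) = d := by rw [he, orth_apply_inv_apply]
  have heK : e ∈ LinearMap.ker β := by rw [LinearMap.mem_ker, hβdef, hde, (hD0 hd).1]
  have hyP : (y : V) ∈ P := ⟨e, heK, by
    rw [LinearMap.comp_apply, hgl, hde, hπ, map_add, map_smul, hfv, smul_eq_mul, mul_one, hyf, add_zero,
      add_sub_cancel_left]⟩
  exact hy0 (Subtype.ext ((Submodule.disjoint_def.1 hC.disjoint) _ hyP y.2.2))

end OCtx

end Cfsg.Agent.H58.ExtField.Orth
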