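import Cfsg.Agent.H58.ExtField.Orth

/-!
# Some stabiliser of a singular vector does not preserve its line

Otherwise every element of `M` carries singular lines to singular lines, and is then semilinear.
-/

set_option autoImplicit false
set_option linter.unusedSectionVars false
set_option linter.unusedVariables false

namespace Cfsg.Agent.H58.ExtField.Orth

open QuadraticMap hiding sq
open Cfsg.Agent.H5

variable {F : Type*} [Field F] [Fintype F] {E : Type*} [Field E] [Fintype E] [Algebra F E]
variable {V : Type*} [AddCommGroup V] [Module F V] [Finite V] [Module E V] [IsScalarTower F E V]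
variable {Q : QuadraticForm F V} {fB : V →ₗ[E] V →ₗ[E] E} {M : Subgroup (orth Q)}

namespace OCtx

variable (H : OCtx Q fB M)
include H

/-- The common perp of two vectors is not a line. -/
theorem exists_perp_two (h4 : 4 ≤ Module.finrank E V) (x y e : V) :
    ∃ u, fB x u = 0 ∧ fB y u = 0 ∧ u ∉ Submodule.span E {e} := by
  haveI : Module.Finite E V := Module.Finite.of_finite
  by_contra h
  push Not at h
  let L : V →ₗ[E] E × E := (fB x).prod (fB y)
  have h1 : LinearMap.ker L ≤ Submodule.span E {e} := fun u hu => by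
    rw [LinearMap.mem_ker, LinearMap.prod_apply, Function.prod_apply, Prod.mk_eq_zero] at hu
    exact h u hu.1 hu.2
  have h2 := Submodule.finrank_mono h1
  have h3 := L.finrank_range_add_finrank_ker
  have h4 := Submodule.finrank_le (LinearMap.range L)
  have h5 : Module.finrank E (Submodule.span E ({e} : Set V)) ≤ 1 :=
    (finrank_span_le_card _).trans (by simp)
  rw [Module.finrank_prod, Module.finrank_self] at h4
  omega

/-- The perp of a vector is not a line. -/
theorem exists_perp_one (x e : V) : ∃ u, fB x u = 0 ∧ u ∉ Submodule.span E {e} := by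
  haveI : Module.Finite E V := Module.Finite.of_finite
  by_contra h
  push Not at h
  have h1 : LinearMap.ker (fB x) ≤ Submodule.span E {e} := fun u hu => h u hu
  have h2 := Submodule.finrank_mono h1
  have h3 := (fB x).finrank_range_add_finrank_ker
  have h4 := Submodule.finrank_le (LinearMap.range (fB x))
  have h5 : Module.finrank E (Submodule.span E ({e} : Set V)) ≤ 1 :=
    (finrank_span_le_card _).trans (by simp)
  rw [Module.finrank_self] at h4
  have := H.dim
  omega

/-- A root group moving `z`. -/
theorem orbit_family_of_root {y z e u : V} (he : fB e e = 0) (hey : fB e y = 0) (hez : fB e z ≠ 0)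
    (hyu : fB y u = 0) (heu : fB e u = 0) (hu : u ∉ Submodule.span E {e}) :
    ∃ g : E → orth Q, (∀ a, g a ∈ M ∧ (g a).1 y = y) ∧ Function.Injective fun a => (g a).1 z := by
  have hau : ∀ a : E, fB e (a • u) = 0 := fun a => by rw [map_smul, heu, smul_zero]
  have huy : ∀ a : E, fB (a • u) y = 0 := fun a => by
    rw [H.fB_comm, map_smul, hyu, smul_zero]
  refine ⟨fun a => rho H e (a • u), fun a => ⟨H.rho_mem _ _, ?_⟩, fun a b hab => ?_⟩
  · rw [H.rho_apply he (hau a), hey, huy, mul_zero, zero_smul, zero_smul, sub_zero, sub_zero,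
      add_zero]
  · simp only [H.rho_apply he (hau _)] at hab
    by_contra hne
    have h1 : ((fB e z) * (a - b)) • u ∈ Submodule.span E {e} := by
      refine Submodule.mem_span_singleton.2
        ⟨fB (a • u) z + qf fB (a • u) * fB e z - (fB (b • u) z + qf fB (b • u) * fB e z), ?_⟩
      linear_combination (norm := module) -hab
    refine hu ?_
    rw [← inv_smul_smul₀ (mul_ne_zero hez (sub_ne_zero.2 hne)) u]
    exact Submodule.smul_mem _ _ h1

/-- An orbit of the stabiliser of a singular `y` off its line is as large as the extension. -/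
theorem orbit_family_of_iso {y z : V} (hy0 : y ≠ 0) (hyy : fB y y = 0) (hz : z ∉ Submodule.span E {y}) :
    ∃ g : E → orth Q, (∀ a, g a ∈ M ∧ (g a).1 y = y) ∧ Function.Injective fun a => (g a).1 z := by
  by_cases hyz : fB y z = 0
  swap
  · obtain ⟨u, hyu, hu⟩ := H.exists_perp_one y y
    exact H.orbit_family_of_root hyy hyy hyz hyu hyu hu
  obtain ⟨u, huz, huy⟩ := H.exists_dual hz
  have hau : ∀ a : E, fB y (a • u) = 0 := fun a => by
    rw [map_smul, H.fB_comm, huy y (Submodule.mem_span_singleton_self y), smul_zero]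
  refine ⟨fun a => rho H y (a • u), fun a => ⟨H.rho_mem _ _, ?_⟩, fun a b hab => ?_⟩
  · rw [H.rho_apply hyy (hau a), hyy, H.fB_comm (a • u) y, hau, mul_zero, zero_smul, zero_smul, sub_zero,
      sub_zero, add_zero]
  · simp only [H.rho_apply hyy (hau _), hyz, mul_zero, zero_smul, sub_zero, add_zero, map_smul,
      LinearMap.smul_apply, huz, smul_eq_mul, mul_one, sub_right_inj] at hab
    exact smul_left_injective E hy0 hab

/-- An orbit of the stabiliser of `y` off its line is as large as the extension. -/
theorem exists_orbit_family (h4 : 4 ≤ Module.finrank E V) {y z : V} (hy0 : y ≠ 0)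
    (hz : z ∉ Submodule.span E {y}) :
    ∃ g : E → orth Q, (∀ a, g a ∈ M ∧ (g a).1 y = y) ∧ Function.Injective fun a => (g a).1 z := by
  haveI : Module.Finite E V := Module.Finite.of_finite
  by_cases hcase : ∃ e, fB e e = 0 ∧ fB e y = 0 ∧ fB e z ≠ 0
  · obtain ⟨e, he, hey, hez⟩ := hcase
    obtain ⟨u, hyu, heu, hu⟩ := H.exists_perp_two h4 y e e
    exact H.orbit_family_of_root he hey hez hyu heu hu
  · have hyy : fB y y = 0 := by
      by_contra hyy
      refine hcase ?_
      set W : Submodule E V := perp (qf fB) (Submodule.span E {y})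
      have hW : ∀ {u : V}, u ∈ W ↔ fB y u = 0 := fun {u} => by rw [mem_perp_span, H.qf_polar]
      have hWd : W ⊓ perp (qf fB) W = ⊥ := by
        rw [perp_perp H.nondeg, eq_bot_iff]
        rintro u ⟨hu, hu'⟩
        obtain ⟨t, rfl⟩ := Submodule.mem_span_singleton.1 hu'
        rw [SetLike.mem_coe, hW, map_smul, smul_eq_mul, mul_eq_zero, or_iff_left hyy] at hu
        rw [hu, zero_smul]
        exact zero_mem _
      have hd := finrank_perp_add H.nondeg (Submodule.span E {y})
      rw [finrank_span_singleton hy0] at hd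
      change Module.finrank E W + 1 = _ at hd
      obtain ⟨⟨e, heW⟩, he0, he⟩ := exists_singular (restrict_nondegenerate hWd) (by
        show 3 ≤ Module.finrank E W
        omega)
      have he' : fB e e = 0 := H.qf_zero.1 he
      have hey : fB e y = 0 := by rw [H.fB_comm]; exact hW.1 heW
      have hne : e ≠ 0 := fun h => he0 (Subtype.ext h)
      by_cases hez : fB e z ≠ 0
      · exact ⟨e, he', hey, hez⟩
      rw [not_not] at hez
      have hnot : e ∉ Submodule.span E {y} := fun h => by
        obtain ⟨t, rfl⟩ := Submodule.mem_span_singleton.1 h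
        simp only [map_smul, LinearMap.smul_apply, smul_eq_mul, mul_eq_zero, hyy, or_false] at hey
        exact hne (by rw [hey, zero_smul])
      obtain ⟨u, hue, huy⟩ := H.exists_dual hnot
      have huy' := huy y (Submodule.mem_span_singleton_self y)
      have hp := hypPair_of_polar (Q := qf fB) (H.qf_zero.2 he') (z := u)
        (by rw [H.qf_polar, H.fB_comm, hue])
      set f := u + (-qf fB u) • e
      have hf : fB f f = 0 := H.qf_zero.1 hp.right
      have hef : fB e f = 1 := by rw [← H.qf_polar]; exact hp.pair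
      have hfy : fB f y = 0 := by
        simp only [f, map_add, map_smul, LinearMap.add_apply, LinearMap.smul_apply, huy', hey, smul_zero, add_zero]
      by_cases hfz : fB f z ≠ 0
      · exact ⟨f, hf, hfy, hfz⟩
      rw [not_not] at hfz
      obtain ⟨t, htz, hty⟩ := H.exists_dual hz
      have hty' := hty y (Submodule.mem_span_singleton_self y)
      set w := t - fB f t • e - fB e t • f
      have hfe : fB f e = 1 := by rw [H.fB_comm, hef]
      have hwe : fB w e = 0 := by
        rw [H.fB_comm]; simp [w, map_sub, map_smul, he', hef]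
      have hwf : fB w f = 0 := by
        rw [H.fB_comm]; simp [w, map_sub, map_smul, hf, hfe]
      refine ⟨f + w + (-qf fB w) • e, ?_, ?_, ?_⟩
      · have hew : fB e w = 0 := by rw [H.fB_comm, hwe]
        have hfw : fB f w = 0 := by rw [H.fB_comm, hwf]
        have hq : fB w w = 2 * qf fB w := by rw [qf_apply, mul_inv_cancel_left₀ H.twoE]
        simp only [map_add, map_smul, LinearMap.add_apply, LinearMap.smul_apply, smul_eq_mul, hf, hfw, hfe, hwf,
          hwe, hew, hef, he', hq]
        ring
      · simp [w, map_add, map_sub, map_smul, hfy, hey, hty']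
      · simp [w, map_add, map_sub, map_smul, hfz, hez, htz]
    exact H.orbit_family_of_iso hy0 hyy hz

/-- If some stabiliser moves no singular line to another, `M` consists of semilinear maps. -/
theorem false_of_line (line : ∀ h ∈ M, ∀ x : V, x ≠ 0 → fB x x = 0 → ∀ c : E,
    h.1 (c • x) ∈ Submodule.span E {h.1 x}) : False := by
  haveI : Module.Finite E V := Module.Finite.of_finite
  -- and singular vectors to singular vectors
  have iso : ∀ h ∈ M, ∀ x : V, fB x x = 0 → fB (h.1 x) (h.1 x) = 0 := by
    intro h hh x hx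
    rcases eq_or_ne x 0 with rfl | hx0
    · simp
    choose σ hσ using fun c => Submodule.mem_span_singleton.1 (line h hh x hx0 hx c)
    have hσinj : Function.Injective σ := fun a b hab => smul_left_injective E hx0 (h.1.injective (by
      show h.1 (a • x) = h.1 (b • x)
      rw [← hσ, ← hσ, hab]))
    have hQ : ∀ d : E, Q (d • h.1 x) = 0 := fun d => by
      obtain ⟨c, rfl⟩ := Finite.injective_iff_surjective.1 hσinj d
      rw [hσ, orth_map, H.form_eq, QuadraticMap.map_smul, qf_apply, hx, mul_zero, smul_zero, map_zero]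
    refine eq_zero_of_trace (F := F) fun d => ?_
    have h1 : d • h.1 x + h.1 x = (d + 1) • h.1 x := by rw [add_smul, one_smul]
    have h0 := hQ 1
    rw [one_smul] at h0
    rw [H.htr, QuadraticMap.polar, h1, hQ, hQ, h0, sub_zero, sub_zero]
  obtain ⟨h, hh, hns⟩ := H.notSemi
  refine hns fun c => ?_
  let T : V →ₗ[F] V := (h.1 : V →ₗ[F] V) ∘ₗ DistribSMul.toLinearMap F V c ∘ₗ ((h⁻¹).1 : V →ₗ[F] V)
  have hT : ∀ y, fB y y = 0 → ∃ t : E, t • y = T y := by
    intro y hy
    rcases eq_or_ne y 0 with rfl | hy0
    · exact ⟨0, by simp⟩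
    have hx := iso _ (inv_mem hh) y hy
    have hx0 : (h⁻¹).1 y ≠ 0 := fun e => hy0 (LinearEquiv.map_eq_zero_iff _ |>.1 e)
    obtain ⟨t, ht⟩ := Submodule.mem_span_singleton.1 (line h hh _ hx0 hx c)
    rw [orth_apply_inv_apply] at ht
    exact ⟨t, ht⟩
  obtain ⟨v, hv0, hv⟩ := H.exists_iso
  obtain ⟨f, hf, hvf⟩ := H.exists_partner hv0 hv
  have hfv : fB f v = 1 := by rw [H.fB_comm, hvf]
  have hp := H.hypPair hv hf hvf
  choose α hα using fun s : E => hT (s • v) (by simp [hv])
  choose β hβ using fun s : E => hT (s • f) (by simp [hf])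
  have key : ∀ (w : V) (τ : E), fB v w = 0 → fB f w = 0 → w ≠ 0 → τ ≠ 0 →
      T w = β τ • w ∧ T ((qf fB w / τ) • v) = (β τ * (qf fB w / τ)) • v := by
    intro w τ hvw hfw hw0 hτ
    set γ := qf fB w / τ
    have hwv : fB w v = 0 := by rw [H.fB_comm, hvw]
    have hwf : fB w f = 0 := by rw [H.fB_comm, hfw]
    have hww : fB w w = 2 * (γ * τ) := by
      rw [div_mul_cancel₀ _ hτ, qf_apply, mul_inv_cancel_left₀ H.twoE]
    obtain ⟨ν, hν⟩ := hT (τ • f + w - γ • v) (by
      simp only [map_add, map_sub, map_smul, LinearMap.add_apply, LinearMap.sub_apply, LinearMap.smul_apply,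
        smul_eq_mul, hv, hf, hvf, hfv, hvw, hfw, hwv, hwf, hww]
      ring)
    obtain ⟨μ, hμ⟩ := hT (τ • f - w - γ • v) (by
      simp only [map_add, map_sub, map_smul, LinearMap.add_apply, LinearMap.sub_apply, LinearMap.smul_apply,
        smul_eq_mul, hv, hf, hvf, hfv, hvw, hfw, hwv, hwf, hww]
      ring)
    rw [map_sub, map_add, ← hβ, ← hα] at hν
    rw [map_sub, map_sub, ← hβ, ← hα] at hμ
    have hsum : ν • (τ • f + w - γ • v) + μ • (τ • f - w - γ • v) =
        (2 * β τ * τ) • f - (2 * α γ * γ) • v := by
      linear_combination (norm := module) hν + hμ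
    have h1 := congrArg (fB v) hsum
    have h2 := congrArg (fB f) hsum
    simp only [map_add, map_sub, map_smul, smul_eq_mul, hv, hf, hvf, hfv, hvw, hfw] at h1 h2
    have hνμ : ν + μ = 2 * β τ := mul_right_cancel₀ hτ (by linear_combination h1)
    have h3 : (ν - μ) • w = 0 := by
      have e1 : (ν + μ) * τ = 2 * β τ * τ := by rw [hνμ]
      have e2 : (ν + μ) * γ = 2 * α γ * γ := by linear_combination -h2
      have := congrArg₂ (fun a b : E => a • f - b • v) e1 e2
      linear_combination (norm := module) hsum - this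
    have hνe : ν = μ := sub_eq_zero.1 ((smul_eq_zero.1 h3).resolve_right hw0)
    have hνβ : ν = β τ := mul_left_cancel₀ H.twoE (by linear_combination hνμ + hνe)
    have hαγ : α γ * γ = β τ * γ := mul_left_cancel₀ H.twoE (by
      linear_combination h2 + γ * hνμ)
    have e3 : T (γ • v) = (β τ * γ) • v := by rw [← hα, smul_smul, hαγ]
    refine ⟨?_, e3⟩
    rw [← hα] at e3
    rw [hνβ] at hν
    linear_combination (norm := module) -hν + e3
  obtain ⟨w0, hw0, hqw⟩ := exists_anisotropic (hp.inf_perp H.nondeg)
    (by have := hp.finrank_pperp H.nondeg; have := H.dim; omega)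
  rw [mem_pperp, H.qf_polar, H.qf_polar] at hw0
  have hw00 : w0 ≠ 0 := fun e => hqw (by rw [e, QuadraticMap.map_zero])
  have hβ1 : ∀ τ, τ ≠ 0 → β τ = β 1 := fun τ hτ => smul_left_injective E hw00
    ((key w0 τ hw0.1 hw0.2 hw00 hτ).1.symm.trans (key w0 1 hw0.1 hw0.2 hw00 one_ne_zero).1)
  have hTy : ∀ y, T y = β 1 • y := by
    intro y
    set w := y - fB f y • v - fB v y • f
    have hvw : fB v w = 0 := by simp [w, map_sub, map_smul, hv, hvf]
    have hfw : fB f w = 0 := by simp [w, map_sub, map_smul, hf, hfv]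
    have e1 : T w = β 1 • w := by
      rcases eq_or_ne w 0 with h | h
      · rw [h, map_zero, smul_zero]
      · exact (key w 1 hvw hfw h one_ne_zero).1
    have e2 : T (fB f y • v) = β 1 • (fB f y • v) := by
      rcases eq_or_ne (fB f y) 0 with h | h
      · rw [h, zero_smul, map_zero, smul_zero]
      have hτ : qf fB w0 / fB f y ≠ 0 := div_ne_zero hqw h
      have := (key w0 _ hw0.1 hw0.2 hw00 hτ).2
      rwa [div_div_cancel₀ hqw, hβ1 _ hτ, mul_smul] at this
    have e3 : T (fB v y • f) = β 1 • (fB v y • f) := by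
      rcases eq_or_ne (fB v y) 0 with h | h
      · rw [h, zero_smul, map_zero, smul_zero]
      rw [← hβ, hβ1 _ h]
    have hy : y = w + fB f y • v + fB v y • f := by simp only [w]; abel
    conv_lhs => rw [hy]
    rw [map_add, map_add, e1, e2, e3, ← smul_add, ← smul_add, ← hy]
  refine ⟨β 1, fun x => ?_⟩
  rw [← hTy (h.1 x)]
  show _ = h.1 (c • (h⁻¹).1 (h.1 x))
  rw [orth_inv_apply_apply]

/-- Some stabiliser of a singular vector moves its line. -/
theorem exists_out (h4 : 4 ≤ Module.finrank E V) : ∃ v : V, v ≠ 0 ∧ fB v v = 0 ∧ ∃ g ∈ M, g.1 v = v ∧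
    ∃ c : E, g.1 (c • v) ∉ Submodule.span E {v} := by
  haveI : Module.Finite E V := Module.Finite.of_finite
  by_contra hcon
  push Not at hcon
  -- singular lines go to lines
  have line : ∀ h ∈ M, ∀ x : V, x ≠ 0 → fB x x = 0 → ∀ c : E, h.1 (c • x) ∈ Submodule.span E {h.1 x} := by
    intro h hh x hx0 hx c
    by_contra hz
    have hc0 : c ≠ 0 := fun e => hz (by rw [e, zero_smul, map_zero]; exact zero_mem _)
    have hy0 : h.1 x ≠ 0 := fun e => hx0 (h.1.map_eq_zero_iff.1 e)
    obtain ⟨g, hg, hinj⟩ := H.exists_orbit_family h4 hy0 hz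
    have hmem : ∀ a, ∃ d : {d : E // d ≠ 0}, (g a).1 (h.1 (c • x)) = h.1 (d.1 • x) := by
      intro a
      have h1 : (h⁻¹ * g a * h).1 x = x := by
        rw [orth_mul_apply, orth_mul_apply, (hg a).2, orth_inv_apply_apply]
      obtain ⟨d, hd⟩ := Submodule.mem_span_singleton.1
        (hcon x hx0 hx _ (mul_mem (mul_mem (inv_mem hh) (hg a).1) hh) h1 c)
      refine ⟨⟨d, fun e => ?_⟩, ?_⟩
      · rw [e, zero_smul, eq_comm, LinearEquiv.map_eq_zero_iff] at hd
        exact smul_ne_zero hc0 hx0 hd
      · show _ = h.1 (d • x)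
        rw [hd, orth_mul_apply, orth_mul_apply, orth_apply_inv_apply]
    choose d hd using hmem
    have hdinj : Function.Injective d := fun a b hab => hinj (by
      show (g a).1 _ = (g b).1 _
      rw [hd, hd, hab])
    exact absurd (Nat.card_le_card_of_injective d hdinj)
      (not_le.2 (Finite.card_subtype_lt (x := (0 : E)) fun h => h rfl))
  exact H.false_of_line line

end OCtx

end Cfsg.Agent.H58.ExtField.Orth
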