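import Cfsg.Agent.H58.ExtField.OrthThreeOut
import Cfsg.Agent.H58.ExtField.OrthMain

/-!
# Dimension three over the extension: overgroups contain `Ω`

An element fixing a singular vector `v` and moving its line carries no other point of the line into the perp of `v`
outside the line.  Choose one keeping as little of the line as possible.  Keeping more than half of it is
impossible by Chevalley-Warning, keeping more than the base field by conjugating with scalings and counting, and
keeping only the base field by counting zeros of the form.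
-/

set_option autoImplicit false
set_option linter.unusedSectionVars false
set_option linter.unusedVariables false

namespace Cfsg.Agent.H58.ExtField.Orth

open QuadraticMap hiding sq
open Cfsg.Agent.H5

variable {F : Type*} [Field F] [Fintype F] {E : Type*} [Field E] [Fintype E] [Algebra F E]
variable {V : Type*} [AddCommGroup V] [Module F V] [Finite V] [Module E V] [IsScalarTower F E V]
variable {Q : QuadraticForm F V} {fB : V →ₗ[E] V →ₗ[E] E} {M : Subgroup (orth Q)}

/-- The scalars of the line of `v`, as vectors. -/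
noncomputable def lineVec (F E : Type*) {V : Type*} [Field F] [Field E] [Algebra F E] [AddCommGroup V] [Module F V]
    [Module E V] [IsScalarTower F E V] (v : V) : E →ₗ[F] V :=
  (LinearMap.toSpanSingleton E V v).restrictScalars F

/-- The image of the line of `v`. -/
noncomputable def lineMap (E : Type*) [Field E] [Algebra F E] [Module E V] [IsScalarTower F E V] (v : V)
    (g : orth Q) : E →ₗ[F] V :=
  (g.1 : V →ₗ[F] V) ∘ₗ lineVec F E v

/-- The scalars whose multiples of `v` stay on the line. -/
noncomputable def lineK (E : Type*) [Field E] [Algebra F E] [Module E V] [IsScalarTower F E V] (v : V)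
    (g : orth Q) : Submodule F E :=
  ((Submodule.span E {v}).restrictScalars F).comap (lineMap E v g)

theorem mem_lineK {v : V} {g : orth Q} {c : E} :
    c ∈ lineK E v g ↔ g.1 (c • v) ∈ Submodule.span E {v} := Iff.rfl

/-- The common perp of the line and its image. -/
noncomputable def commonPerp (E : Type*) [Field E] [Algebra F E] [Module E V] [IsScalarTower F E V] (v : V)
    (g : orth Q) : Submodule F V :=
  perp Q (LinearMap.range (lineVec F E v) ⊔ LinearMap.range (lineMap E v g))

/-- The kernels of two maps differing by a nontrivial automorphism. -/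
theorem finrank_comap_sub_le (hr : (Module.finrank F E).Prime) {A A' : E ≃ₐ[F] E} (hA : A ≠ A') {t : E} (ht : t ≠ 0)
    (S : Submodule F E) :
    Module.finrank F (S.comap (LinearMap.mulLeft F t ∘ₗ (A.toLinearMap - A'.toLinearMap))) ≤
      Module.finrank F S + 1 := by
  set φ := LinearMap.mulLeft F t ∘ₗ (A.toLinearMap - A'.toLinearMap)
  have h := (φ.domRestrict (S.comap φ)).finrank_range_add_finrank_ker
  have h1 : Module.finrank F (LinearMap.range (φ.domRestrict (S.comap φ))) ≤ Module.finrank F S :=
    Submodule.finrank_mono (by rintro _ ⟨⟨x, hx⟩, rfl⟩; exact hx)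
  have h2 : Module.finrank F (LinearMap.ker (φ.domRestrict (S.comap φ))) ≤ 1 := by
    rw [← Submodule.finrank_map_subtype_eq]
    refine (Submodule.finrank_mono ?_).trans (finrank_base_le (F := F) (E := E))
    rintro _ ⟨⟨x, hx⟩, hk, rfl⟩
    have hk' : t * (A x - A' x) = 0 := LinearMap.mem_ker.1 hk
    have he : A x = A' x := sub_eq_zero.1 ((mul_eq_zero.1 hk').resolve_left ht)
    refine ker_le_base hr (σ := A'⁻¹ * A) (fun e => hA (inv_mul_eq_one.1 e).symm) ?_
    show (A'⁻¹ : E ≃ₐ[F] E) (A x) = x
    rw [he]
    exact A'.symm_apply_apply x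
  omega

namespace OCtx

variable (H : OCtx Q fB M)
include H

theorem cardF : 3 ≤ Fintype.card F := by
  have h1 : 1 < Fintype.card F := Fintype.one_lt_card
  by_contra h
  refine H.two ?_
  have h2 : Fintype.card F = 2 := by omega
  have := FiniteField.cast_card_eq_zero F
  rwa [h2] at this

theorem finrank_base : Module.finrank F (base F E) = 1 := by
  rw [base, LinearMap.finrank_range_of_inj (f := Algebra.linearMap F E) (algebraMap F E).injective,
    Module.finrank_self]

theorem base_le_lineK {v : V} {g : orth Q} (hgv : g.1 v = v) : base F E ≤ lineK E v g := by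
  rintro _ ⟨s, rfl⟩
  rw [mem_lineK, Algebra.linearMap_apply, algebraMap_smul, LinearEquiv.map_smul, hgv, ← algebraMap_smul E s v]
  exact Submodule.smul_mem _ _ (Submodule.mem_span_singleton_self v)

/-- An element fixing `v` carries only scalars differing from their conjugates by base elements into the perp. -/
theorem perp_mem_line (hno : ¬ commutator (orth Q) ≤ M) {v : V} (hv0 : v ≠ 0)
    (hv : fB v v = 0) {g : orth Q} (hg : g ∈ M) (hgv : g.1 v = v) {c : E} (hc : c ∉ shift F E)
    (hperp : fB v (g.1 (c • v)) = 0) : c ∈ lineK E v g := by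
  rw [mem_lineK]
  by_contra hout
  obtain ⟨u, huw, huv⟩ := H.exists_dual hout
  have hvu : fB v (-u) = 0 := by
    rw [map_neg, H.fB_comm, huv v (Submodule.mem_span_singleton_self v), neg_zero]
  have hpv : (rho H v (-u)).1 v = v := by
    rw [H.rho_apply hv hvu, hv, H.fB_comm (-u) v, hvu, mul_zero, zero_smul, zero_smul, sub_zero, sub_zero,
      add_zero]
  have hpw : (rho H v (-u)).1 (g.1 (c • v)) = g.1 (c • v) + v := by
    rw [H.rho_apply hv hvu, hperp, mul_zero, zero_smul, zero_smul, sub_zero, add_zero, map_neg,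
      LinearMap.neg_apply, huw, neg_smul, one_smul, sub_neg_eq_add]
  have hc' : c ∉ Set.range (algebraMap F E) := fun h => hc (base_le_shift h)
  have hc1' : c + 1 ∉ Set.range (algebraMap F E) := fun ⟨t, ht⟩ =>
    hc' ⟨t - 1, by rw [map_sub, map_one, ht, add_sub_cancel_right]⟩
  obtain ⟨A, hA⟩ := H.conj_aut hno hv0 hv hc' hc1'
    (h := g⁻¹ * (rho H v (-u) * g)) (mul_mem (inv_mem hg) (mul_mem (H.rho_mem _ _) hg))
    (by
      rw [orth_mul_apply, orth_mul_apply, hgv, hpv]
      conv_lhs => rw [← hgv, orth_inv_apply_apply])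
    (by
      rw [orth_mul_apply, orth_mul_apply, hpw]
      conv_lhs => arg 2; arg 2; rw [← hgv]
      rw [← map_add g.1, orth_inv_apply_apply, add_smul, one_smul])
  exact shift_good H.prime hc A hA

/-- A scalar carried into the perp off the line leaves only the base field on the line. -/
theorem lineK_eq_base (hno : ¬ commutator (orth Q) ≤ M) {v : V} (hv0 : v ≠ 0) (hv : fB v v = 0) {g : orth Q}
    (hg : g ∈ M) (hgv : g.1 v = v) {c : E} (hperp : fB v (g.1 (c • v)) = 0) (hout : c ∉ lineK E v g) :
    lineK E v g = base F E ∧ c ∈ shift F E ∧ c ∉ base F E := by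
  have hmem : ∀ x, fB v (g.1 (x • v)) = 0 → x ∉ lineK E v g → x ∈ shift F E := fun x hx hxo => by
    by_contra h
    exact hxo (H.perp_mem_line hno hv0 hv hg hgv h hx)
  have hcS := hmem c hperp hout
  have hle : lineK E v g ≤ shift F E := fun x hx => by
    have hx' : fB v (g.1 (x • v)) = 0 := by
      obtain ⟨δ, hδ⟩ := Submodule.mem_span_singleton.1 (mem_lineK.1 hx)
      rw [← hδ, map_smul, hv, smul_zero]
    have h1 : x + c ∉ lineK E v g := fun h => hout (by
      have := Submodule.sub_mem _ h hx
      rwa [add_sub_cancel_left] at this)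
    have h2 := hmem (x + c) (by rw [add_smul, map_add, map_add, hx', hperp, add_zero]) h1
    have := Submodule.sub_mem _ h2 hcS
    rwa [add_sub_cancel_right] at this
  have hbase := H.base_le_lineK (v := v) hgv
  refine ⟨(Submodule.eq_of_le_of_finrank_le hbase ?_).symm, hcS, fun h => hout (hbase h)⟩
  have h1 := Submodule.finrank_lt_finrank_of_lt (SetLike.lt_iff_le_and_exists.2 ⟨hle, c, hcS, hout⟩)
  have h2 := finrank_shift_le (F := F) (E := E) H.prime
  rw [H.finrank_base]
  omega

/-- A scalar of `shift` outside the base field forces characteristic the degree. -/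
theorem five_le_card (hr5 : 5 ≤ Module.finrank F E) {c : E} (hc : c ∈ shift F E) (hc' : c ∉ base F E) :
    5 ≤ Fintype.card F := by
  obtain ⟨σ, hσ⟩ := exists_aut_ne_one (F := F) (E := E) H.prime
  obtain ⟨a, ha⟩ := mem_shift.1 hc σ
  have ha' : σ c = c + algebraMap F E a := by rw [← Algebra.linearMap_apply, ha]; ring
  have hpow : ∀ i : ℕ, (σ ^ i) c = c + (i : E) * algebraMap F E a := by
    intro i
    induction i with
    | zero => simp
    | succ i ih =>
      rw [pow_succ', AlgEquiv.mul_apply, ih, map_add, map_mul, map_natCast, AlgEquiv.commutes, ha']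
      push_cast
      ring
  have h1 := hpow (Module.finrank F E)
  rw [← IsGalois.card_aut_eq_finrank F E, pow_card_eq_one', IsGalois.card_aut_eq_finrank F E, AlgEquiv.one_apply,
    left_eq_add, mul_eq_zero] at h1
  rcases h1 with h1 | h1
  · obtain ⟨p, hp⟩ := CharP.exists F
    haveI : CharP E p := charP_of_injective_algebraMap (algebraMap F E).injective p
    have hpp : p.Prime := CharP.char_is_prime F p
    have hdvd := (CharP.cast_eq_zero_iff E p _).1 h1
    obtain rfl := (Nat.prime_dvd_prime_iff_eq hpp H.prime).1 hdvd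
    obtain ⟨k, -, hk⟩ := FiniteField.card F (Module.finrank F E)
    rw [hk]
    exact hr5.trans (Nat.le_self_pow k.pos.ne' _)
  · rw [h1, add_zero] at ha'
    exact absurd (ker_le_base H.prime hσ ha') hc'

/-- The perp of `v` is spanned by its line and one non-singular vector. -/
theorem exists_perp_gen (h3 : Module.finrank E V = 3) {v : V} (hv0 : v ≠ 0) (hv : fB v v = 0) :
    ∃ u0 : V, fB v u0 = 0 ∧ fB u0 u0 ≠ 0 ∧ ∀ p, fB v p = 0 → ∃ e l : E, p = e • u0 + l • v := by
  haveI : Module.Finite E V := Module.Finite.of_finite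
  obtain ⟨f, hf, hvf⟩ := H.exists_partner hv0 hv
  have hfv : fB f v = 1 := by rw [H.fB_comm, hvf]
  have hp := H.hypPair hv hf hvf
  have h1 := hp.finrank_pperp H.nondeg
  obtain ⟨w, hw, hq⟩ := exists_anisotropic (hp.inf_perp H.nondeg) (by omega)
  have hw0 : (⟨w, hw⟩ : pperp (qf fB) v f) ≠ 0 := fun e => hq (by
    rw [show w = 0 from congrArg Subtype.val e, QuadraticMap.map_zero])
  have hone : Module.finrank E (pperp (qf fB) v f) = 1 := by omega
  have hall := (finrank_eq_one_iff_of_nonzero' (⟨w, hw⟩ : pperp (qf fB) v f) hw0).1 hone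
  rw [mem_pperp, H.qf_polar, H.qf_polar] at hw
  refine ⟨w, hw.1, fun h => hq (H.qf_zero.2 h), fun p hp' => ?_⟩
  obtain ⟨e, he⟩ := hall ⟨p - fB f p • v, by
    rw [mem_pperp, H.qf_polar, H.qf_polar]
    constructor
    · rw [map_sub, map_smul, hp', hv, smul_zero, sub_zero]
    · rw [map_sub, map_smul, hfv, smul_eq_mul, mul_one, sub_self]⟩
  refine ⟨e, fB f p, ?_⟩
  rw [show e • w = p - fB f p • v from congrArg Subtype.val he]
  abel

theorem mem_commonPerp {v : V} {g : orth Q} {d : V} :
    d ∈ commonPerp E v g ↔ fB v d = 0 ∧ fB v ((g⁻¹).1 d) = 0 := by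
  have e : ∀ c : E, polar Q (g.1 (c • v)) d = polar Q (c • v) ((g⁻¹).1 d) := fun c => by
    conv_lhs => rw [← orth_apply_inv_apply g d, orth_polar]
  constructor
  · intro h
    refine ⟨eq_zero_of_trace (F := F) fun c => ?_, eq_zero_of_trace (F := F) fun c => ?_⟩
    · rw [H.htr]
      exact h _ (Submodule.mem_sup_left ⟨c, rfl⟩)
    · rw [H.htr, ← e]
      exact h _ (Submodule.mem_sup_right ⟨c, rfl⟩)
  · rintro ⟨h1, h2⟩ w hw
    obtain ⟨x, ⟨c, rfl⟩, y, ⟨c', rfl⟩, rfl⟩ := Submodule.mem_sup.1 hw
    show polar Q (c • v + g.1 (c' • v)) d = 0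
    rw [polar_add_left, e, H.polar_line h1, H.polar_line h2, add_zero]

theorem finrank_commonPerp (h3 : Module.finrank E V = 3) {v : V} (hv0 : v ≠ 0) (g : orth Q) :
    Module.finrank F E + Module.finrank F (lineK E v g) ≤ Module.finrank F (commonPerp E v g) := by
  haveI : Module.Finite F V := Module.Finite.of_finite
  have hn : Module.finrank F E * 3 = Module.finrank F V := by rw [← h3, Module.finrank_mul_finrank]
  set X := LinearMap.range (lineVec F E v)
  set Y := LinearMap.range (lineMap E v g)
  have hX : Module.finrank F X ≤ Module.finrank F E := LinearMap.finrank_range_le _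
  have hY : Module.finrank F Y ≤ Module.finrank F E := LinearMap.finrank_range_le _
  have hinj : Function.Injective (lineMap E v g) := fun a b h =>
    smul_left_injective E hv0 (g.1.injective h)
  have hK : (lineK E v g).map (lineMap E v g) ≤ X ⊓ Y := by
    rintro _ ⟨x, hx, rfl⟩
    refine ⟨?_, ⟨x, rfl⟩⟩
    obtain ⟨δ, hδ⟩ := Submodule.mem_span_singleton.1 (mem_lineK.1 hx)
    exact ⟨δ, hδ⟩
  have h1 := Submodule.finrank_mono hK
  rw [← (Submodule.equivMapOfInjective _ hinj (lineK E v g)).finrank_eq] at h1
  have h2 := Submodule.finrank_sup_add_finrank_inf_eq X Y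
  have h4 : Module.finrank F (commonPerp E v g) + Module.finrank F ↥(X ⊔ Y) = Module.finrank F V :=
    finrank_perp_add H.nd _
  omega

/-- Moving by a solution of the equation. -/
theorem exists_move {v : V} (hv : fB v v = 0) {g : orth Q} (hg : g ∈ M) (hgv : g.1 v = v) {c : E}
    (hb : fB v (g.1 (c • v)) ≠ 0) {d : V} (hd : d ∈ commonPerp E v g)
    (heq : fB d d + 2 * fB (g.1 (c • v)) d = 0) :
    ∃ k ∈ M, k.1 v = v ∧ k.1 (c • v) = c • v + (g⁻¹).1 d ∧ fB v (k.1 (c • v)) = 0 := by
  obtain ⟨hd1, hd2⟩ := H.mem_commonPerp.1 hd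
  set u := (fB v (g.1 (c • v)))⁻¹ • d with hu
  have hvu : fB v u = 0 := by rw [hu, map_smul, hd1, smul_zero]
  have hw : (rho H v u).1 (g.1 (c • v)) = g.1 (c • v) + d := by
    rw [H.rho_apply hv hvu, hu, smul_inv_smul₀ hb, sub_sub, ← add_smul, sub_eq_self]
    refine (smul_eq_zero.2 (Or.inl ?_))
    rw [H.fB_comm (g.1 (c • v)) d] at heq
    simp only [QuadraticMap.map_smul, map_smul, LinearMap.smul_apply, smul_eq_mul, qf_apply]
    have := H.twoE
    field_simp
    linear_combination heq
  have hpv : (rho H v u).1 v = v := by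
    rw [H.rho_apply hv hvu, hv, H.fB_comm u v, hvu, mul_zero, zero_smul, zero_smul, sub_zero, sub_zero, add_zero]
  refine ⟨g⁻¹ * (rho H v u * g), mul_mem (inv_mem hg) (mul_mem (H.rho_mem _ _) hg), ?_, ?_, ?_⟩
  · rw [orth_mul_apply, orth_mul_apply, hgv, hpv]
    conv_lhs => rw [← hgv, orth_inv_apply_apply]
  · rw [orth_mul_apply, orth_mul_apply, hw, map_add, orth_inv_apply_apply]
  · rw [orth_mul_apply, orth_mul_apply, hw, map_add, orth_inv_apply_apply, map_add, map_smul, hv, hd2, smul_zero,
      add_zero]

end OCtx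

end Cfsg.Agent.H58.ExtField.Orth
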