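import Cfsg.Agent.H58.ExtField.OrthThree
import Mathlib.LinearAlgebra.BilinearForm.Orthogonal

/-!
# Dimension three over the extension: solutions in the common perp

When only base scalars stay on the line, the scalar lines of the common perp `D` give disjoint subspaces of the
extension modulo the base field.  If none has a vector orthogonal to all of it, they carry fewer zeros of the form
than `D` has.
-/

set_option autoImplicit false
set_option linter.unusedSectionVars false
set_option linter.unusedVariables false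

namespace Cfsg.Agent.H58.ExtField.Orth

open QuadraticMap hiding sq
open Cfsg.Agent.H5

variable {F : Type*} [Field F] [Fintype F] {E : Type*} [Field E] [Fintype E] [Algebra F E]
variable {V : Type*} [AddCommGroup V] [Module F V] [Finite V] [Module E V] [IsScalarTower F E V]
variable {Q : QuadraticForm F V} {fB : V →ₗ[E] V →ₗ[E] E} {M : Subgroup (orth Q)}

/-- The zeros of a form in a finite subspace with a non-singular vector: at most two on each parallel line. -/
theorem zeros_le (Q : QuadraticForm F V) (W : Submodule F V) {u : V} (hu : u ∈ W) (hq : Q u ≠ 0) (Z : Finset V)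
    (hZ : ∀ z ∈ Z, z ∈ W ∧ Q z = 0 ∧ z ≠ 0) :
    Fintype.card F * Z.card ≤ 2 * (Nat.card W - Fintype.card F) := by
  classical
  letI : Fintype V := Fintype.ofFinite V
  have hu0 : u ≠ 0 := fun e => hq (by rw [e, QuadraticMap.map_zero])
  set T := ((W : Set V).toFinset) \ Finset.univ.image fun a : F => a • u
  have hT : T.card = Nat.card W - Fintype.card F := by
    have hsub : (Finset.univ.image fun a : F => a • u) ⊆ (W : Set V).toFinset := fun x hx => by
      obtain ⟨a, -, rfl⟩ := Finset.mem_image.1 hx
      rw [Set.mem_toFinset]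
      exact W.smul_mem a hu
    rw [Finset.card_sdiff_of_subset hsub, Set.toFinset_card,
      Finset.card_image_of_injective _ (smul_left_injective F hu0), Finset.card_univ, Nat.card_eq_fintype_card]
    rfl
  have h1 : ∀ p ∈ Z ×ˢ (Finset.univ : Finset F), p.1 + p.2 • u ∈ T := by
    rintro ⟨z, a⟩ hp
    obtain ⟨hzW, hzQ, hz0⟩ := hZ z (Finset.mem_product.1 hp).1
    refine Finset.mem_sdiff.2 ⟨by rw [Set.mem_toFinset]; exact W.add_mem hzW (W.smul_mem a hu), fun h => ?_⟩
    obtain ⟨b, -, hb⟩ := Finset.mem_image.1 h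
    have hzb : z = (b - a) • u := by rw [sub_smul, hb]; abel
    rw [hzb, QuadraticMap.map_smul, smul_eq_mul, mul_eq_zero, or_iff_left hq, mul_self_eq_zero] at hzQ
    rw [hzQ, zero_smul] at hzb
    exact hz0 hzb
  have h2 : ∀ t ∈ T, ((Z ×ˢ (Finset.univ : Finset F)).filter fun p => p.1 + p.2 • u = t).card ≤ 2 := by
    intro t _
    rcases ((Z ×ˢ (Finset.univ : Finset F)).filter fun p => p.1 + p.2 • u = t).eq_empty_or_nonempty with h | ⟨p, hp⟩
    · rw [h, Finset.card_empty]; exact Nat.zero_le 2
    refine (Finset.card_le_card (t := ({p, (t - (polar Q u t / Q u - p.2) • u, polar Q u t / Q u - p.2)} :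
      Finset (V × F))) fun x hx => ?_).trans Finset.card_le_two
    obtain ⟨hp, hpt⟩ := Finset.mem_filter.1 hp
    obtain ⟨hx, hxt⟩ := Finset.mem_filter.1 hx
    have ex : x.1 = t - x.2 • u := eq_sub_of_add_eq hxt
    have ep : p.1 = t - p.2 • u := eq_sub_of_add_eq hpt
    have qx := (hZ x.1 (Finset.mem_product.1 hx).1).2.1
    have qp := (hZ p.1 (Finset.mem_product.1 hp).1).2.1
    rw [ex, map_sub_smul, polar_comm] at qx
    rw [ep, map_sub_smul, polar_comm] at qp
    rw [Finset.mem_insert, Finset.mem_singleton]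
    by_cases he : x.2 = p.2
    · exact Or.inl (Prod.ext (by rw [ex, ep, he]) he)
    · have hs : x.2 = polar Q u t / Q u - p.2 := by
        have h3 : (x.2 - p.2) * ((x.2 + p.2) * Q u - polar Q u t) = 0 := by linear_combination qx - qp
        have h4 := (mul_eq_zero.1 h3).resolve_left (sub_ne_zero.2 he)
        rw [eq_sub_iff_add_eq, eq_div_iff hq]
        linear_combination h4
      exact Or.inr (Prod.ext (by rw [ex, hs]) hs)
  have h3 := Finset.card_le_mul_card_image_of_maps_to h1 2 h2
  rw [Finset.card_product, Finset.card_univ, hT] at h3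
  rw [mul_comm]
  exact h3

namespace OCtx

variable (H : OCtx Q fB M)
include H

/-- Outside a small set the common perp has a vector with a solution. -/
theorem exists_solution (h3 : Module.finrank E V = 3) (hr5 : 5 ≤ Module.finrank F E) {v : V} (hv0 : v ≠ 0)
    (hv : fB v v = 0) {g : orth Q} (hgv : g.1 v = v) (hK : lineK E v g = base F E) (Bad : Finset V)
    (hBad : ∀ d ∈ commonPerp E v g, d ∈ Submodule.span E {v} → d ∈ Bad)
    (hb4 : Bad.card < Fintype.card F ^ 4)
    (Bad' : Finset V) (hBad' : ∀ d ∈ Bad, d ∉ Submodule.span E {v} → d ∈ Bad')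
    (hsize : 2 * Fintype.card F ^ Module.finrank F E + Fintype.card F * Bad'.card <
      Fintype.card F ^ Module.finrank F E * (Fintype.card F - 1) + 2 * Fintype.card F) :
    ∃ d ∈ commonPerp E v g, d ∉ Bad ∧ ∃ c : E, fB d d + 2 * fB (g.1 (c • v)) d = 0 := by
  classical
  haveI : Module.Finite F V := Module.Finite.of_finite
  haveI : Module.Finite E V := Module.Finite.of_finite
  letI : Fintype V := Fintype.ofFinite V
  by_contra hcon
  push Not at hcon
  set D := commonPerp E v g
  obtain ⟨u0, hvu0, hu00, hgen⟩ := H.exists_perp_gen h3 hv0 hv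
  have hu0v : fB u0 v = 0 := by rw [H.fB_comm, hvu0]
  set q := Fintype.card F
  set r := Module.finrank F E
  have hq3 := H.cardF
  -- every such vector pairs with its scalar line in `D`
  have hpair : ∀ d ∈ D, d ∉ Bad → ∃ η : E, η • d ∈ D ∧ polar Q d (η • d) ≠ 0 := by
    intro d hd hdB
    by_contra h
    push Not at h
    let Φ : E →ₗ[F] E := (fB d).restrictScalars F ∘ₗ lineMap E v g
    have hx : fB d d ∈ LinearMap.range Φ := by
      by_contra hx
      obtain ⟨φ, hφ0, hφ⟩ := Submodule.exists_dual_map_eq_bot_of_notMem hx inferInstance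
      obtain ⟨η, hη⟩ := exists_trace_rep (F := F) (E := E) φ
      have hrange : ∀ c, Algebra.trace F E (η * fB d (g.1 (c • v))) = 0 := fun c => by
        rw [← hη, ← Submodule.mem_bot (R := F), ← hφ]
        exact Submodule.mem_map_of_mem ⟨c, rfl⟩
      have hmem : η • d ∈ D := by
        rw [H.mem_commonPerp]
        refine ⟨by rw [map_smul, (H.mem_commonPerp.1 hd).1, smul_zero], eq_zero_of_trace (F := F) fun c => ?_⟩
        rw [H.htr, ← orth_polar g, orth_apply_inv_apply, polar_comm, ← H.htr d, mul_comm] at *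
        exact hrange c
      refine hφ0 ?_
      rw [hη, mul_comm, H.htr, H.adj]
      exact h η hmem
    obtain ⟨c, hc⟩ := hx
    have hc' : fB d (g.1 (c • v)) = fB d d := hc
    refine hcon d hd hdB ((-(2 : F)⁻¹) • c) ?_
    rw [smul_assoc, LinearEquiv.map_smul, LinearMap.map_smul_of_tower, LinearMap.smul_apply, H.fB_comm (g.1 (c • v)) d,
      hc', Algebra.smul_def, map_neg, map_inv₀, map_ofNat]
    have := H.twoE
    field_simp
    ring
  -- the zeros
  set Zs : Finset V := Finset.univ.filter fun d => d ∈ D ∧ d ∉ Submodule.span E {v} ∧ Q d = 0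
  have hlow : q ^ r * (q - 1) ≤ q * Zs.card := by
    -- the radical is small
    set R : Submodule F V := D ⊓ perp Q D
    have hR : Module.finrank F R ≤ 3 := by
      have hsub : (R : Set V).toFinset ⊆ Bad := fun d hd => by
        rw [Set.mem_toFinset] at hd
        by_contra hdB
        obtain ⟨η, hη, hne⟩ := hpair d hd.1 hdB
        exact hne (by rw [polar_comm]; exact hd.2 _ hη)
      have h1 := (Finset.card_le_card hsub).trans_lt hb4
      rw [Set.toFinset_card, ← Nat.card_eq_fintype_card] at h1
      change Nat.card R < _ at h1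
      rw [Module.natCard_eq_pow_finrank (K := F), Nat.card_eq_fintype_card] at h1
      have := (Nat.pow_lt_pow_iff_right (by omega)).1 h1
      omega
    obtain ⟨C, hC⟩ := R.exists_isCompl
    have hm : r + 1 ≤ Module.finrank F D := by
      have := H.finrank_commonPerp h3 hv0 g
      rwa [hK, H.finrank_base] at this
    have hdim : 3 ≤ Module.finrank F ↥(D ⊓ C) := by
      have h1 := Submodule.finrank_sup_add_finrank_inf_eq D C
      have h2 := Submodule.finrank_add_eq_of_isCompl hC
      have h4 := Submodule.finrank_le (D ⊔ C)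
      omega
    let B : ↥(D ⊓ C) →ₗ[F] ↥(D ⊓ C) →ₗ[F] F :=
      (polarBilin Q).compl₁₂ (D ⊓ C).subtype (D ⊓ C).subtype
    obtain ⟨⟨z, hzD, hzC⟩, hz0', hz⟩ := exists_ne_zero_of_quadratic B 0 (by rw [Module.finrank_self]; omega)
    have hz0 : z ≠ 0 := fun e => hz0' (Subtype.ext e)
    have hzQ : Q z = 0 := by
      have : polar Q z z + 0 = 0 := hz
      rw [polar_self', add_zero, mul_eq_zero] at this
      exact this.resolve_left H.two
    have hzR : z ∉ perp Q D := fun h => hz0 (Submodule.disjoint_def.1 hC.disjoint z ⟨hzD, h⟩ hzC)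
    obtain ⟨x0, hx0, hx0z⟩ : ∃ x ∈ D, polar Q z x ≠ 0 := by
      by_contra h
      push Not at h
      exact hzR fun w hw => by
        show polar Q w z = 0
        rw [polar_comm]; exact h w hw
    set P0 : Submodule F V := D ⊓ LinearMap.ker (polarBilin Q z)
    have hP : Module.finrank F P0 + 1 ≤ Module.finrank F D :=
      Submodule.finrank_lt_finrank_of_lt (SetLike.lt_iff_le_and_exists.2
        ⟨inf_le_left, x0, hx0, fun h => hx0z h.2⟩)
    set A : Finset V := (D : Set V).toFinset \ (P0 : Set V).toFinset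
    have hA : q ^ r * (q - 1) ≤ A.card := by
      rw [Finset.card_sdiff_of_subset (Set.toFinset_subset_toFinset.2 (SetLike.coe_subset_coe.2 inf_le_left)),
        Set.toFinset_card, Set.toFinset_card, ← Nat.card_eq_fintype_card, ← Nat.card_eq_fintype_card]
      show _ ≤ Nat.card D - Nat.card P0
      rw [Module.natCard_eq_pow_finrank (K := F) (V := D), Module.natCard_eq_pow_finrank (K := F) (V := P0),
        Nat.card_eq_fintype_card]
      have h1 : q ^ Module.finrank F P0 ≤ q ^ (Module.finrank F D - 1) :=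
        Nat.pow_le_pow_right (by omega) (by omega)
      have h2 : q ^ Module.finrank F D = q ^ (Module.finrank F D - 1) * q := by
        rw [← pow_succ, Nat.sub_add_cancel (by omega)]
      have h3' : q ^ r ≤ q ^ (Module.finrank F D - 1) := Nat.pow_le_pow_right (by omega) (by omega)
      rw [h2]
      calc q ^ r * (q - 1) ≤ q ^ (Module.finrank F D - 1) * (q - 1) := Nat.mul_le_mul_right _ h3'
        _ = q ^ (Module.finrank F D - 1) * q - q ^ (Module.finrank F D - 1) := Nat.mul_sub_one _ _
        _ ≤ _ := Nat.sub_le_sub_left h1 _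
    refine hA.trans ?_
    rw [show q = (Finset.univ : Finset F).card from rfl, ← Finset.card_product]
    refine Finset.card_le_card_of_injOn (fun x => (Q x / polar Q z x, x - (Q x / polar Q z x) • z)) ?_ ?_
    · intro x hx
      rw [Finset.mem_coe] at hx ⊢
      obtain ⟨hxD, hxP⟩ := Finset.mem_sdiff.1 hx
      rw [Set.mem_toFinset] at hxD hxP
      have hp : polar Q z x ≠ 0 := fun h => hxP ⟨hxD, h⟩
      refine Finset.mem_product.2 ⟨Finset.mem_univ _, Finset.mem_filter.2 ⟨Finset.mem_univ _,
        D.sub_mem hxD (D.smul_mem _ hzD), fun h => ?_, ?_⟩⟩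
      · obtain ⟨δ, hδ⟩ := Submodule.mem_span_singleton.1 h
        have h1 : polar Q z (δ • v) = 0 := by
          rw [polar_comm]; exact H.polar_line (H.mem_commonPerp.1 hzD).1 δ
        rw [hδ, polar_sub_right, polar_smul_right, polar_self', hzQ, mul_zero, smul_zero, sub_zero] at h1
        exact hp h1
      · rw [map_sub_smul, hzQ, polar_comm (⇑Q) x z, div_mul_cancel₀ _ hp]
        ring
    · intro x _ y _ hxy
      obtain ⟨h1, h2⟩ := Prod.mk.injEq _ _ _ _ ▸ hxy
      rw [h1] at h2
      exact sub_left_injective h2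
  -- the lines
  let Y : V → Submodule F E := fun d => D.comap (lineVec F E d)
  let W : V → Submodule F V := fun d => (Y d).map (lineVec F E d)
  let Ker : V → Finset E := fun d => Finset.univ.filter fun c => c ∉ base F E ∧ fB d (g.1 (c • v)) = 0
  set T := Zs.filter fun d => d ∉ Bad
  have hsplit : Zs.card ≤ T.card + Bad'.card := by
    refine (Finset.card_le_card (t := T ∪ Bad') fun d hd => ?_).trans (Finset.card_union_le _ _)
    by_cases h : d ∈ Bad
    · exact Finset.mem_union_right _ (hBad' d h (Finset.mem_filter.1 hd).2.2.1)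
    · exact Finset.mem_union_left _ (Finset.mem_filter.2 ⟨hd, h⟩)
  have hker : ∀ d ∈ D, (Ker d).card + q = Nat.card (Y d) := by
    intro d hd
    let Φ : E →ₗ[F] E := (fB d).restrictScalars F ∘ₗ lineMap E v g
    have horth : LinearMap.BilinForm.orthogonal (Algebra.traceForm F E) (LinearMap.range Φ) = Y d := by
      ext η
      rw [LinearMap.BilinForm.mem_orthogonal_iff]
      constructor
      · intro h
        show η • d ∈ D
        rw [H.mem_commonPerp]
        refine ⟨by rw [map_smul, (H.mem_commonPerp.1 hd).1, smul_zero], eq_zero_of_trace (F := F) fun c => ?_⟩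
        have := h _ ⟨c, rfl⟩
        rw [H.htr, ← orth_polar g, orth_apply_inv_apply, polar_comm, ← H.htr d, mul_comm]
        rw [mul_comm]
        exact this
      · rintro h _ ⟨c, rfl⟩
        have h1 := (H.mem_commonPerp.1 (show η • d ∈ D from h)).2
        show Algebra.trace F E (fB d (g.1 (c • v)) * η) = 0
        rw [H.htr, ← orth_apply_inv_apply g (η • d), orth_polar, polar_comm]
        exact H.polar_line h1 c
    have h1 := LinearMap.BilinForm.finrank_orthogonal (traceForm_nondegenerate F E) (LinearMap.range Φ)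
    rw [horth] at h1
    have h2 := Φ.finrank_range_add_finrank_ker
    have h4 : Module.finrank F (LinearMap.ker Φ) = Module.finrank F (Y d) := by omega
    have hsub : base F E ≤ LinearMap.ker Φ := fun c hc => by
      obtain ⟨δ, hδ⟩ := Submodule.mem_span_singleton.1 (mem_lineK.1 (hK ▸ hc))
      show fB d (g.1 (c • v)) = 0
      rw [← hδ, map_smul, H.fB_comm, (H.mem_commonPerp.1 hd).1, smul_zero]
    have e1 : Ker d = (LinearMap.ker Φ : Set E).toFinset \ (base F E : Set E).toFinset := by
      ext c
      rw [Finset.mem_sdiff, Set.mem_toFinset, Set.mem_toFinset, Finset.mem_filter]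
      exact ⟨fun h => ⟨h.2.2, h.2.1⟩, fun h => ⟨Finset.mem_univ _, h.2, h.1⟩⟩
    rw [e1, Finset.card_sdiff_of_subset (Set.toFinset_subset_toFinset.2 hsub), Set.toFinset_card,
      Set.toFinset_card, ← Nat.card_eq_fintype_card, ← Nat.card_eq_fintype_card]
    show Nat.card (LinearMap.ker Φ) - Nat.card (base F E) + q = _
    have h5 : Nat.card (LinearMap.ker Φ) = Nat.card (Y d) := by
      rw [Module.natCard_eq_pow_finrank (K := F) (V := LinearMap.ker Φ),
        Module.natCard_eq_pow_finrank (K := F) (V := Y d), h4]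
    have h6 : Nat.card (base F E) = q := by
      rw [Module.natCard_eq_pow_finrank (K := F) (V := base F E), H.finrank_base, pow_one, Nat.card_eq_fintype_card]
    have h7 : Nat.card (base F E) ≤ Nat.card (LinearMap.ker Φ) := Nat.card_mono (Set.toFinite _) hsub
    omega
  have hcardW : ∀ d : V, d ≠ 0 → Nat.card (W d) = Nat.card (Y d) := fun d hd0 =>
    (Nat.card_congr (Submodule.equivMapOfInjective _ (smul_left_injective E hd0) (Y d)).toEquiv).symm
  have hline : ∀ d ∈ T, d ∈ D ∧ d ∉ Submodule.span E {v} ∧ Q d = 0 ∧ d ∉ Bad ∧ d ≠ 0 := fun d hd => by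
    obtain ⟨hd, hB⟩ := Finset.mem_filter.1 hd
    obtain ⟨-, h1, h2, h4⟩ := Finset.mem_filter.1 hd
    exact ⟨h1, h2, h4, hB, fun e => h2 (e ▸ zero_mem _)⟩
  -- one representative for each line
  set I := T.image W
  have hrep : ∀ w ∈ I, ∃ d ∈ T, W d = w := fun w hw => Finset.mem_image.1 hw
  choose rep hrepT hrepW using hrep
  have hcount : ∀ w : {w // w ∈ I}, q * (T.filter fun d => W d = w.1).card ≤ 2 * (Ker (rep w.1 w.2)).card := by
    rintro ⟨w, hw⟩
    set d := rep w hw
    obtain ⟨hd, -, hdQ, hdB, hd0⟩ := hline d (hrepT w hw)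
    obtain ⟨η, hη, hne⟩ := hpair d hd hdB
    have hdW : d ∈ W d := ⟨1, show (1 : E) • d ∈ D by rwa [one_smul], one_smul E d⟩
    have hηW : η • d ∈ W d := ⟨η, hη, rfl⟩
    obtain ⟨u, hu, hqu⟩ : ∃ u ∈ W d, Q u ≠ 0 := by
      by_contra h
      push Not at h
      exact hne (by rw [QuadraticMap.polar, h _ ((W d).add_mem hdW hηW), h _ hdW, h _ hηW, sub_zero, sub_zero])
    have := zeros_le Q (W d) hu hqu (T.filter fun x => W x = w) fun x hx => by
      obtain ⟨hxT, hxw⟩ := Finset.mem_filter.1 hx
      obtain ⟨hxD, -, hxQ, -, hx0⟩ := hline x hxT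
      refine ⟨?_, hxQ, hx0⟩
      rw [show W d = W x from (hrepW w hw).trans hxw.symm]
      exact ⟨1, show (1 : E) • x ∈ D by rwa [one_smul], one_smul E x⟩
    refine this.trans (Nat.mul_le_mul_left 2 (le_of_eq ?_))
    rw [hcardW d hd0, ← hker d hd, Nat.add_sub_cancel]
  have hdisj : ∀ w ∈ (Finset.univ : Finset {w // w ∈ I}), ∀ w' ∈ (Finset.univ : Finset {w // w ∈ I}), w ≠ w' →
      Disjoint (Ker (rep w.1 w.2)) (Ker (rep w'.1 w'.2)) := by
    intro w _ w' _ hne
    refine Finset.disjoint_left.2 fun c hc hc' => ?_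
    obtain ⟨-, hcb, hc1⟩ := Finset.mem_filter.1 hc
    obtain ⟨-, -, hc2⟩ := Finset.mem_filter.1 hc'
    set d := rep w.1 w.2
    set d' := rep w'.1 w'.2
    obtain ⟨hd, hdv, -, -, hd0⟩ := hline d (hrepT _ _)
    obtain ⟨hd', hdv', -, -, hd0'⟩ := hline d' (hrepT _ _)
    obtain ⟨e, l, hdel⟩ := hgen d (H.mem_commonPerp.1 hd).1
    obtain ⟨e', l', hdel'⟩ := hgen d' (H.mem_commonPerp.1 hd').1
    have he : e ≠ 0 := fun h => hdv (by
      rw [hdel, h, zero_smul, zero_add]; exact Submodule.smul_mem _ _ (Submodule.mem_span_singleton_self v))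
    set a := e' / e
    have hdd : d' = a • d + (l' - a * l) • v := by
      rw [hdel, hdel', smul_add, smul_smul, smul_smul, div_mul_cancel₀ _ he, sub_smul]
      abel
    by_cases hδ : l' - a * l = 0
    · rw [hδ, zero_smul, add_zero] at hdd
      refine hne (Subtype.ext ?_)
      rw [← hrepW _ w.2, ← hrepW _ w'.2]
      have ha : a ≠ 0 := fun h => hd0' (by rw [hdd, h, zero_smul])
      ext x
      constructor
      · rintro ⟨η, hη, rfl⟩
        refine ⟨η / a, show (η / a) • d' ∈ D from ?_, ?_⟩
        · rw [hdd, smul_smul, div_mul_cancel₀ _ ha]; exact hη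
        · show (η / a) • d' = η • d
          rw [hdd, smul_smul, div_mul_cancel₀ _ ha]
      · rintro ⟨η, hη, rfl⟩
        refine ⟨η * a, show (η * a) • d ∈ D from ?_, ?_⟩
        · rw [mul_smul, ← hdd]; exact hη
        · show (η * a) • d = η • d'
          rw [mul_smul, ← hdd]
    · have hvc : fB v (g.1 (c • v)) = 0 := by
        rw [hdd, map_add, map_smul, map_smul, LinearMap.add_apply, LinearMap.smul_apply, LinearMap.smul_apply,
          hc1, smul_zero, zero_add, smul_eq_mul, mul_eq_zero] at hc2
        exact hc2.resolve_left hδ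
      refine hcb (hK ▸ mem_lineK.2 (H.mem_line fun p hp => ?_))
      obtain ⟨ep, lp, rfl⟩ := hgen p hp
      have hu0c : fB u0 (g.1 (c • v)) = 0 := by
        rw [hdel, map_add, map_smul, map_smul, LinearMap.add_apply, LinearMap.smul_apply, LinearMap.smul_apply,
          hvc, smul_zero, add_zero, smul_eq_mul, mul_eq_zero] at hc1
        exact hc1.resolve_left he
      rw [map_add (fB (g.1 (c • v))), map_smul (fB (g.1 (c • v))), map_smul (fB (g.1 (c • v))), H.fB_comm _ u0, hu0c,
        H.fB_comm _ v, hvc, smul_zero, smul_zero, add_zero]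
  have hup : q * T.card ≤ 2 * (q ^ r - q) := by
    rw [Finset.card_eq_sum_card_image W T, Finset.mul_sum]
    show ∑ w ∈ I, _ ≤ _
    rw [← Finset.sum_coe_sort I]
    refine (Finset.sum_le_sum fun w _ => hcount w).trans ?_
    rw [← Finset.mul_sum, ← Finset.card_biUnion hdisj]
    refine Nat.mul_le_mul_left 2 ((Finset.card_le_card
      (t := Finset.univ \ (base F E : Set E).toFinset) fun c hc => ?_).trans (le_of_eq ?_))
    · obtain ⟨w, -, hw⟩ := Finset.mem_biUnion.1 hc
      exact Finset.mem_sdiff.2 ⟨Finset.mem_univ _, by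
        rw [Set.mem_toFinset]; exact (Finset.mem_filter.1 hw).2.1⟩
    · rw [Finset.card_sdiff_of_subset (Finset.subset_univ _), Finset.card_univ, Set.toFinset_card,
        ← Nat.card_eq_fintype_card (α := E), ← Nat.card_eq_fintype_card (α := ((base F E : Set E))), card_E F E]
      show _ - Nat.card (base F E) = _
      rw [Module.natCard_eq_pow_finrank (K := F) (V := base F E), H.finrank_base, pow_one, Nat.card_eq_fintype_card]
  have h1 := Nat.mul_le_mul_left q hsplit
  rw [mul_add] at h1
  have h2 : q ≤ q ^ r := Nat.le_self_pow (by omega) q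
  omega

end OCtx

end Cfsg.Agent.H58.ExtField.Orth
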