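import Cfsg.Agent.H58.ExtField.OrthThreeCount

/-!
# Dimension three over the extension: the main theorem
-/

set_option autoImplicit false
set_option linter.unusedSectionVars false
set_option linter.unusedVariables false

namespace Cfsg.Agent.H58.ExtField.Orth

open QuadraticMap hiding sq
open Cfsg.Agent.H5

variable {F : Type*} [Field F] [Fintype F] {E : Type*} [Field E] [Fintype E] [Algebra F E]
variable {V : Type*} [AddCommGroup V] [Module F V] [Finite V] [Module E V] [IsScalarTower F E V]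
variable {Q : QuadraticForm F V} {fB : V →ₗ[E] V →ₗ[E] E} {M : Subgroup (orth Q)}

/-- Every element fixing `v` carries only scalars staying on the line into the perp of `v`. -/
def PerpStays (M : Subgroup (orth Q)) (fB : V →ₗ[E] V →ₗ[E] E) (v : V) : Prop :=
  ∀ g ∈ M, g.1 v = v → ∀ c : E, fB v (g.1 (c • v)) = 0 → c ∈ lineK E v g

namespace OCtx

variable (H : OCtx Q fB M)
include H

/-- A multiple of `v` in the common perp comes from the line. -/
theorem line_of_commonPerp {v : V} {g : orth Q} (hg : g ∈ M) (hgv : g.1 v = v) {δ : E}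
    (hd : δ • v ∈ commonPerp E v g) :
    g⁻¹ ∈ M ∧ (g⁻¹).1 v = v ∧ fB v ((g⁻¹).1 (δ • v)) = 0 :=
  ⟨inv_mem hg, by conv_lhs => rw [← hgv, orth_inv_apply_apply], (H.mem_commonPerp.1 hd).2⟩

/-- The inverse keeps only the base field on the line if `g` does. -/
theorem base_of_inv {v : V} (hv0 : v ≠ 0) {g : orth Q} (hgv : g.1 v = v) (hK : lineK E v g = base F E) {δ : E}
    (hδ : δ ∈ lineK E v g⁻¹) : δ ∈ base F E := by
  obtain ⟨e, he⟩ := Submodule.mem_span_singleton.1 (mem_lineK.1 hδ)
  have h1 : g.1 (e • v) = δ • v := by rw [he, orth_apply_inv_apply]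
  have h2 : e ∈ lineK E v g := mem_lineK.2 (h1 ▸ Submodule.smul_mem _ _ (Submodule.mem_span_singleton_self v))
  obtain ⟨s, hs⟩ := hK ▸ h2
  rw [← hs, Algebra.linearMap_apply, algebraMap_smul, LinearEquiv.map_smul, hgv, ← algebraMap_smul E s v] at h1
  exact ⟨s, smul_left_injective E hv0 h1⟩

/-- No stabiliser element carries a scalar into the perp off the line. -/
theorem perpStays (hno : ¬ commutator (orth Q) ≤ M) (h3 : Module.finrank E V = 3)
    (hr5 : 5 ≤ Module.finrank F E) {v : V} (hv0 : v ≠ 0) (hv : fB v v = 0) : PerpStays M fB v := by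
  classical
  letI : Fintype V := Fintype.ofFinite V
  intro g hg hgv c0 hperp
  by_contra hout
  obtain ⟨hK, hc0S, hc0B⟩ := H.lineK_eq_base hno hv0 hv hg hgv hperp hout
  set q := Fintype.card F
  have hq5 : 5 ≤ q := H.five_le_card hr5 hc0S hc0B
  obtain ⟨u0, hvu0, hu00, hgen⟩ := H.exists_perp_gen h3 hv0 hv
  have hu0v : fB u0 v = 0 := by rw [H.fB_comm, hvu0]
  -- the scalars with the small difference
  have hshift : ∀ c ∈ shift F E, ∃ i j : F, c = algebraMap F E i + j • c0 := by
    intro c hc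
    have hle : base F E ⊔ Submodule.span F {c0} ≤ shift F E :=
      sup_le base_le_shift ((Submodule.span_singleton_le_iff_mem _ _).2 hc0S)
    have h2 : 2 ≤ Module.finrank F ↥(base F E ⊔ Submodule.span F {c0}) := by
      have := Submodule.finrank_lt_finrank_of_lt (SetLike.lt_iff_le_and_exists.2
        ⟨(le_sup_left : base F E ≤ base F E ⊔ Submodule.span F {c0}),
          c0, Submodule.mem_sup_right (Submodule.mem_span_singleton_self c0), hc0B⟩)
      rw [H.finrank_base] at this
      omega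
    rw [← Submodule.eq_of_le_of_finrank_le hle ((finrank_shift_le H.prime).trans h2)] at hc
    obtain ⟨_, ⟨i, rfl⟩, y, hy, rfl⟩ := Submodule.mem_sup.1 hc
    obtain ⟨j, rfl⟩ := Submodule.mem_span_singleton.1 hy
    exact ⟨i, j, rfl⟩
  set D := commonPerp E v g
  set S0 : Finset V := Finset.univ.filter fun d => d ∈ D ∧ d ∈ Submodule.span E {v}
  set G0 : Finset V := ((shift F E : Set E).toFinset).image fun e => g.1 (e • v)
  let J : F → Finset V := fun j => Finset.univ.filter fun d => d ∈ D ∧ fB d d + 2 * (j • fB (g.1 (c0 • v)) d) = 0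
  set B' : Finset V := G0 ∪ Finset.univ.biUnion J
  have hcardshift : ((shift F E : Set E).toFinset).card ≤ q ^ 2 := by
    rw [Set.toFinset_card, ← Nat.card_eq_fintype_card]
    show Nat.card (shift F E) ≤ _
    rw [Module.natCard_eq_pow_finrank (K := F) (V := shift F E), Nat.card_eq_fintype_card]
    exact Nat.pow_le_pow_right (by omega) (finrank_shift_le H.prime)
  have hS0 : S0.card ≤ q ^ 2 := by
    refine (Finset.card_le_card (t := ((shift F E : Set E).toFinset).image fun e => e • v) fun d hd => ?_).trans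
      (Finset.card_image_le.trans hcardshift)
    obtain ⟨-, hdD, hdv⟩ := Finset.mem_filter.1 hd
    obtain ⟨δ, rfl⟩ := Submodule.mem_span_singleton.1 hdv
    refine Finset.mem_image.2 ⟨δ, ?_, rfl⟩
    rw [Set.mem_toFinset]
    obtain ⟨hi, hiv, hip⟩ := H.line_of_commonPerp hg hgv hdD
    by_cases hδ : δ ∈ lineK E v g⁻¹
    · exact base_le_shift (H.base_of_inv hv0 hgv hK hδ)
    · exact (H.lineK_eq_base hno hv0 hv hi hiv hip hδ).2.1
  have hJ : ∀ j, (J j).card ≤ 2 * q ^ 2 := by
    intro j
    set μ := fB (g.1 (c0 • v)) u0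
    set Γ := fB u0 u0
    have hco : ∀ d, fB v d = 0 → ∃ e l : E, d = e • u0 + l • v ∧ e = fB u0 d / Γ := by
      intro d hd
      obtain ⟨e, l, rfl⟩ := hgen d hd
      refine ⟨e, l, rfl, ?_⟩
      rw [map_add, map_smul, map_smul, hu0v, smul_zero, add_zero, smul_eq_mul, mul_div_cancel_right₀ _ hu00]
    have hmaps : ∀ d ∈ J j, fB u0 d / Γ ∈ ({0, -(2 * (algebraMap F E j * μ)) / Γ} : Finset E) := by
      intro d hd
      obtain ⟨-, hdD, heq⟩ := Finset.mem_filter.1 hd
      obtain ⟨e, l, rfl, he⟩ := hco d (H.mem_commonPerp.1 hdD).1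
      rw [← he, Finset.mem_insert, Finset.mem_singleton]
      have hzv : fB (g.1 (c0 • v)) v = 0 := by rw [H.fB_comm, hperp]
      simp only [map_add, map_smul, LinearMap.add_apply, LinearMap.smul_apply, smul_eq_mul, hvu0, hu0v, hv,
        hzv, mul_zero, add_zero, Algebra.smul_def] at heq
      by_cases he0 : e = 0
      · exact Or.inl he0
      · refine Or.inr ?_
        have h0 : e * Γ + 2 * (algebraMap F E j * μ) = 0 :=
          (mul_eq_zero.1 (show e * (e * Γ + 2 * (algebraMap F E j * μ)) = 0 by linear_combination heq)).resolve_left he0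
        rw [eq_div_iff hu00]
        linear_combination h0
    refine (Finset.card_le_mul_card_image_of_maps_to hmaps (q ^ 2) fun e _ => ?_).trans ?_
    · rcases ((J j).filter fun d => fB u0 d / Γ = e).eq_empty_or_nonempty with h | ⟨d0, hd0⟩
      · rw [h, Finset.card_empty]; exact Nat.zero_le _
      refine le_trans (Finset.card_le_card_of_injOn (fun d => d - d0) ?_ (fun a _ b _ h => sub_left_injective h)) hS0
      intro d hd
      rw [Finset.mem_coe] at hd ⊢
      obtain ⟨hd, hde⟩ := Finset.mem_filter.1 hd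
      obtain ⟨hd0, hde0⟩ := Finset.mem_filter.1 hd0
      obtain ⟨-, hdD, -⟩ := Finset.mem_filter.1 hd
      obtain ⟨-, hd0D, -⟩ := Finset.mem_filter.1 hd0
      obtain ⟨a, l, rfl, ha⟩ := hco d (H.mem_commonPerp.1 hdD).1
      obtain ⟨a', l', rfl, ha'⟩ := hco d0 (H.mem_commonPerp.1 hd0D).1
      refine Finset.mem_filter.2 ⟨Finset.mem_univ _, D.sub_mem hdD hd0D, ?_⟩
      show _ - _ ∈ _
      rw [ha, hde, ha', hde0, add_sub_add_left_eq_sub, ← sub_smul]
      exact Submodule.smul_mem _ _ (Submodule.mem_span_singleton_self v)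
    · rw [mul_comm]
      exact Nat.mul_le_mul_right _ Finset.card_le_two
  have hB' : B'.card ≤ q ^ 2 + q * (2 * q ^ 2) := by
    refine (Finset.card_union_le _ _).trans (Nat.add_le_add (Finset.card_image_le.trans hcardshift) ?_)
    exact (Finset.card_biUnion_le_card_mul _ _ _ fun j _ => hJ j).trans (le_of_eq (by rw [Finset.card_univ]))
  have hsize : 2 * q ^ Module.finrank F E + q * B'.card <
      q ^ Module.finrank F E * (q - 1) + 2 * q := by
    obtain ⟨a, ha⟩ : ∃ a, q = a + 5 := ⟨q - 5, by omega⟩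
    have h5 : q ^ 5 ≤ q ^ Module.finrank F E := Nat.pow_le_pow_right (by omega) hr5
    have h1 := Nat.mul_le_mul_left q hB'
    rw [ha] at h5 h1 ⊢
    rw [show a + 5 - 1 = 2 + (a + 2) by omega, mul_add, mul_comm _ 2]
    have h6 := Nat.mul_le_mul h5 (show 2 ≤ a + 2 by omega)
    have h8 : (a + 5) * ((a + 5) ^ 2 + (a + 5) * (2 * (a + 5) ^ 2)) ≤ (a + 5) ^ 5 * 2 := by
      nlinarith [Nat.mul_le_mul_left ((a + 5) ^ 3) (show 1 ≤ a + 5 by omega),
        Nat.mul_le_mul_left ((a + 5) ^ 4) (show 5 ≤ a + 5 by omega)]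
    nlinarith [h8, h6, h1]
  have hb4 : (S0 ∪ B').card < q ^ 4 := by
    refine (Finset.card_union_le _ _).trans_lt (lt_of_le_of_lt (Nat.add_le_add hS0 hB') ?_)
    obtain ⟨a, ha⟩ : ∃ a, q = a + 5 := ⟨q - 5, by omega⟩
    rw [ha]
    nlinarith [Nat.mul_le_mul_left ((a + 5) ^ 3) (show 5 ≤ a + 5 by omega),
      Nat.mul_le_mul_left ((a + 5) ^ 2) (show 5 ≤ a + 5 by omega)]
  obtain ⟨d, hd, hdB, c, heq⟩ := H.exists_solution h3 hr5 hv0 hv hgv hK (S0 ∪ B')
    (fun d hd hdv => Finset.mem_union_left _ (Finset.mem_filter.2 ⟨Finset.mem_univ _, hd, hdv⟩)) hb4 B'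
    (fun d hd hdv => (Finset.mem_union.1 hd).resolve_left fun h => hdv (Finset.mem_filter.1 h).2.2) hsize
  rw [Finset.mem_union, not_or, Finset.mem_union, not_or] at hdB
  have hcS : c ∉ shift F E := by
    intro hc
    obtain ⟨i, j, rfl⟩ := hshift c hc
    refine hdB.2.2 (Finset.mem_biUnion.2 ⟨j, Finset.mem_univ _, Finset.mem_filter.2 ⟨Finset.mem_univ _, hd, ?_⟩⟩)
    rw [add_smul, map_add g.1, algebraMap_smul, LinearEquiv.map_smul, hgv, smul_assoc, LinearEquiv.map_smul,
      map_add fB, LinearMap.add_apply, LinearMap.map_smul_of_tower fB, LinearMap.map_smul_of_tower fB,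
      LinearMap.smul_apply, LinearMap.smul_apply, (H.mem_commonPerp.1 hd).1, smul_zero, zero_add] at heq
    exact heq
  have hker : ∀ e, fB v (g.1 (e • v)) = 0 → e ∈ shift F E := fun e he => by
    by_cases h : e ∈ lineK E v g
    · exact base_le_shift (hK ▸ h)
    · exact (H.lineK_eq_base hno hv0 hv hg hgv he h).2.1
  obtain ⟨k, hk, hkv, hkc, hkp⟩ := H.exists_move hv hg hgv (fun h => hcS (hker c h)) hd heq
  have hkl := mem_lineK.1 (H.perp_mem_line hno hv0 hv hk hkv hcS hkp)
  rw [hkc] at hkl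
  obtain ⟨e, he⟩ := Submodule.mem_span_singleton.1 hkl
  have h1 : g.1 ((e - c) • v) = d := by
    rw [sub_smul, he, add_sub_cancel_left, orth_apply_inv_apply]
  refine hdB.2.1 (Finset.mem_image.2 ⟨e - c, ?_, h1⟩)
  rw [Set.mem_toFinset]
  exact hker _ (by rw [h1]; exact (H.mem_commonPerp.1 hd).1)

/-- A solution with a scalar off the line is trivial. -/
theorem solution_mem_line {v : V} (hv : fB v v = 0) (hS : PerpStays M fB v) {g : orth Q} (hg : g ∈ M)
    (hgv : g.1 v = v) {c : E} (hc : c ∉ lineK E v g) {d : V} (hd : d ∈ commonPerp E v g)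
    (heq : fB d d + 2 * fB (g.1 (c • v)) d = 0) : d = 0 := by
  have hb : fB v (g.1 (c • v)) ≠ 0 := fun h => hc (hS g hg hgv c h)
  obtain ⟨k, hk, hkv, hkc, hkp⟩ := H.exists_move hv hg hgv hb hd heq
  have hkl := mem_lineK.1 (hS k hk hkv c hkp)
  rw [hkc] at hkl
  obtain ⟨e, he⟩ := Submodule.mem_span_singleton.1 hkl
  have h1 : g.1 ((e - c) • v) = d := by
    rw [sub_smul, he, add_sub_cancel_left, orth_apply_inv_apply]
  have h2 := hS g hg hgv (e - c) (by rw [h1]; exact (H.mem_commonPerp.1 hd).1)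
  obtain ⟨δ, hδ⟩ := Submodule.mem_span_singleton.1 (mem_lineK.1 h2)
  rw [h1] at hδ
  rw [← hδ] at heq ⊢
  simp only [map_smul, LinearMap.smul_apply, smul_eq_mul, hv, mul_zero, zero_add, H.fB_comm (g.1 (c • v)) v,
    mul_eq_zero, H.twoE, hb, false_or, or_false] at heq
  rw [heq, zero_smul]

/-- Only the base field on the line is impossible. -/
theorem false_of_base (h3 : Module.finrank E V = 3) (hr5 : 5 ≤ Module.finrank F E)
    {v : V} (hv0 : v ≠ 0) (hv : fB v v = 0) (hS : PerpStays M fB v) {g : orth Q} (hg : g ∈ M)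
    (hgv : g.1 v = v) (hK : lineK E v g = base F E) : False := by
  classical
  letI : Fintype V := Fintype.ofFinite V
  set q := Fintype.card F with hq
  have hq3 := H.cardF
  set S0 : Finset V := Finset.univ.filter fun d => d ∈ commonPerp E v g ∧ d ∈ Submodule.span E {v}
  have hS0 : S0.card ≤ q := by
    refine (Finset.card_le_card (t := Finset.univ.image fun s : F => s • v) fun d hd => ?_).trans Finset.card_image_le
    obtain ⟨-, hdD, hdv⟩ := Finset.mem_filter.1 hd
    obtain ⟨δ, rfl⟩ := Submodule.mem_span_singleton.1 hdv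
    obtain ⟨hi, hiv, hip⟩ := H.line_of_commonPerp hg hgv hdD
    obtain ⟨s, rfl⟩ := H.base_of_inv hv0 hgv hK (hS _ hi hiv δ hip)
    exact Finset.mem_image.2 ⟨s, Finset.mem_univ _, (algebraMap_smul E s v).symm⟩
  have hb4 : S0.card < q ^ 4 := hS0.trans_lt (by nth_rw 1 [← pow_one q]; exact Nat.pow_lt_pow_right (by omega) (by norm_num))
  obtain ⟨d, hd, hdB, c, heq⟩ := H.exists_solution h3 hr5 hv0 hv hgv hK S0
    (fun d hd hdv => Finset.mem_filter.2 ⟨Finset.mem_univ _, hd, hdv⟩) hb4 ∅
    (fun d hd hdv => absurd (Finset.mem_filter.1 hd).2.2 hdv) (by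
      rw [Finset.card_empty, mul_zero, add_zero, mul_comm 2]
      exact Nat.lt_of_le_of_lt (Nat.mul_le_mul_left _ (show 2 ≤ q - 1 by omega))
        (Nat.lt_add_of_pos_right (by omega)))
  by_cases hc : c ∈ lineK E v g
  · obtain ⟨δ, hδ⟩ := Submodule.mem_span_singleton.1 (mem_lineK.1 hc)
    rw [← hδ, map_smul fB, LinearMap.smul_apply, (H.mem_commonPerp.1 hd).1, smul_zero, mul_zero, add_zero] at heq
    obtain ⟨u0, hvu0, hu00, hgen⟩ := H.exists_perp_gen h3 hv0 hv
    obtain ⟨e, l, rfl⟩ := hgen d (H.mem_commonPerp.1 hd).1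
    simp only [map_add, map_smul, LinearMap.add_apply, LinearMap.smul_apply, smul_eq_mul, hvu0, H.fB_comm u0 v,
      hv, mul_zero, add_zero, mul_eq_zero, hu00, or_false, or_self] at heq
    refine hdB (Finset.mem_filter.2 ⟨Finset.mem_univ _, hd, ?_⟩)
    rw [heq, zero_smul, zero_add]
    exact Submodule.smul_mem _ _ (Submodule.mem_span_singleton_self v)
  · exact hdB (Finset.mem_filter.2 ⟨Finset.mem_univ _, hd,
      (H.solution_mem_line hv hS hg hgv hc hd heq) ▸ zero_mem _⟩)

/-- More than half of the line staying is impossible. -/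
theorem false_of_large (h3 : Module.finrank E V = 3) {v : V} (hv0 : v ≠ 0) (hv : fB v v = 0)
    (hS : PerpStays M fB v) {g : orth Q} (hg : g ∈ M) (hgv : g.1 v = v) {c : E} (hc : c ∉ lineK E v g)
    (hlarge : Module.finrank F E < 2 * Module.finrank F (lineK E v g)) : False := by
  haveI : Module.Finite F V := Module.Finite.of_finite
  set b := fB v (g.1 (c • v)) with hb
  have hb0 : b ≠ 0 := fun h => hc (hS g hg hgv c h)
  set S : Submodule F V := (lineK E v g).map (lineMap E v g) with hSdef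
  set L : Submodule F E := S.comap (lineVec F E v) with hLdef
  have hinj : Function.Injective (lineMap E v g) := fun a a' h =>
    smul_left_injective E hv0 (g.1.injective h)
  have hS1 : Module.finrank F S = Module.finrank F (lineK E v g) :=
    (Submodule.equivMapOfInjective _ hinj (lineK E v g)).finrank_eq.symm
  have hSD : S ≤ commonPerp E v g := by
    rintro _ ⟨x, hx, rfl⟩
    obtain ⟨δ, hδ⟩ := Submodule.mem_span_singleton.1 (mem_lineK.1 hx)
    rw [H.mem_commonPerp]
    refine ⟨?_, ?_⟩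
    · show fB v (g.1 (x • v)) = 0
      rw [← hδ, map_smul, hv, smul_zero]
    · show fB v ((g⁻¹).1 (g.1 (x • v))) = 0
      rw [orth_inv_apply_apply, map_smul, hv, smul_zero]
  have hL : L.map (lineVec F E v) = S := by
    rw [hLdef, Submodule.map_comap_eq, inf_eq_right]
    rintro _ ⟨x, hx, rfl⟩
    exact Submodule.mem_span_singleton.1 (mem_lineK.1 hx)
  have hL1 : Module.finrank F L = Module.finrank F S := by
    conv_rhs => rw [← hL]
    exact (Submodule.equivMapOfInjective _ (smul_left_injective E hv0) L).finrank_eq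
  set T : Submodule F E := L.map (LinearMap.mulLeft F b) with hTdef
  have hT : Module.finrank F T = Module.finrank F (lineK E v g) := by
    rw [← hS1, ← hL1]
    exact (Submodule.equivMapOfInjective _ (mul_right_injective₀ hb0) L).finrank_eq.symm
  obtain ⟨C, hC⟩ := S.exists_isCompl
  set D' := commonPerp E v g ⊓ C
  have hdim : Module.finrank F E ≤ Module.finrank F D' := by
    have h1 := Submodule.finrank_sup_add_finrank_inf_eq (commonPerp E v g) C
    have h2 := Submodule.finrank_add_eq_of_isCompl hC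
    have h4 := Submodule.finrank_le (commonPerp E v g ⊔ C)
    have := H.finrank_commonPerp h3 hv0 g
    change _ + Module.finrank F D' = _ at h1
    omega
  have hW := T.finrank_quotient_add_finrank
  let B : D' →ₗ[F] D' →ₗ[F] E := LinearMap.mk₂ F (fun x y => fB (x : V) (y : V))
    (fun x x' y => by simp) (fun t x y => by simp [LinearMap.map_smul_of_tower])
    (fun x y y' => by simp) (fun t x y => by simp [LinearMap.map_smul_of_tower])
  let Lf : D' →ₗ[F] E := ((2 : E) • fB (g.1 (c • v))).restrictScalars F ∘ₗ D'.subtype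
  haveI : Finite (E ⧸ T) := Quotient.finite _
  obtain ⟨⟨d, hdD, hdC⟩, hd0', hd⟩ := exists_ne_zero_of_quadratic (B.compr₂ T.mkQ) (T.mkQ ∘ₗ Lf) (by omega)
  have hd0 : d ≠ 0 := fun e => hd0' (Subtype.ext e)
  have hmem : fB d d + 2 * fB (g.1 (c • v)) d ∈ T := by
    rw [← Submodule.Quotient.mk_eq_zero, ← hd]
    rfl
  obtain ⟨l, hl, hbl⟩ := hmem
  rw [LinearMap.mulLeft_apply] at hbl
  set δ := -((2 : F)⁻¹ • l) with hδ
  have hδS : δ • v ∈ S := hL ▸ ⟨δ, L.neg_mem (L.smul_mem _ hl), rfl⟩
  have hdv : fB d v = 0 := by rw [H.fB_comm]; exact (H.mem_commonPerp.1 hdD).1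
  have h0 := H.solution_mem_line hv hS hg hgv hc (d := d + δ • v) (add_mem hdD (hSD hδS)) (by
    simp only [map_add, map_smul, LinearMap.add_apply, LinearMap.smul_apply, smul_eq_mul, hv, hdv,
      (H.mem_commonPerp.1 hdD).1, mul_zero, add_zero, H.fB_comm (g.1 (c • v)) v, ← hb, hδ,
      Algebra.smul_def, map_inv₀, map_ofNat]
    have := H.twoE
    field_simp
    linear_combination -hbl)
  have hdS : d ∈ S := by
    have := eq_neg_of_add_eq_zero_left h0
    rw [this]
    exact S.neg_mem hδS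
  exact hd0 (Submodule.disjoint_def.1 hC.disjoint d hdS hdC)

/-- Some element keeping less of the line. -/
theorem exists_smaller (hno : ¬ commutator (orth Q) ≤ M) (h3 : Module.finrank E V = 3)
    (hr5 : 5 ≤ Module.finrank F E) {v : V} (hv0 : v ≠ 0) (hv : fB v v = 0) (hS : PerpStays M fB v) {g : orth Q}
    (hg : g ∈ M) (hgv : g.1 v = v) (hlt : lineK E v g ≠ ⊤) (hgt : 2 ≤ Module.finrank F (lineK E v g))
    (hhalf : 2 * Module.finrank F (lineK E v g) ≤ Module.finrank F E) :
    ∃ k ∈ M, k.1 v = v ∧ lineK E v k ≠ ⊤ ∧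
      Module.finrank F (lineK E v k) < Module.finrank F (lineK E v g) := by
  classical
  haveI : Module.Finite F V := Module.Finite.of_finite
  haveI : Module.Finite E V := Module.Finite.of_finite
  letI : Fintype (E ≃ₐ[F] E) := Fintype.ofFinite _
  by_contra hcon
  push Not at hcon
  set K := lineK E v g with hKdef
  have hinj : Function.Injective fun c : E => c • v := smul_left_injective E hv0
  have hbase := H.base_le_lineK (v := v) hgv
  obtain ⟨x0, hx0K, hx0B⟩ : ∃ x ∈ K, x ∉ base F E := by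
    by_contra h
    push Not at h
    have := Submodule.finrank_mono (show K ≤ base F E from h)
    rw [H.finrank_base] at this
    omega
  have conj : ∀ k ∈ M, k.1 v = v → ∀ x ∈ lineK E v k, x ∉ base F E → ∃ A : E ≃ₐ[F] E, k.1 (x • v) = A x • v := by
    intro k hk hkv x hx hxB
    obtain ⟨x', hx'⟩ := Submodule.mem_span_singleton.1 (mem_lineK.1 hx)
    have hx'B : x' ∉ Set.range (algebraMap F E) := by
      rintro ⟨s, rfl⟩
      refine hxB ⟨s, hinj ?_⟩
      show algebraMap F E s • v = x • v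
      rw [algebraMap_smul]
      refine k.1.injective ?_
      rw [LinearEquiv.map_smul, hkv, ← hx', algebraMap_smul]
    obtain ⟨A, hA⟩ := H.conj_aut hno hv0 hv hxB hx'B hk hkv hx'.symm
    exact ⟨AlgEquiv.ofBijective A ⟨A.injective, Finite.injective_iff_surjective.1 A.injective⟩,
      by show k.1 (x • v) = A x • v; rw [hA, hx']⟩
  -- a square in `K`
  have hodd : ∀ e : F, IsSquare (algebraMap F E e) → IsSquare e := by
    intro e he
    have h1 := he.map (Algebra.norm F)
    rw [Algebra.norm_algebraMap] at h1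
    obtain ⟨k, hk⟩ := H.prime.odd_of_ne_two (by omega)
    rw [hk, pow_succ, pow_mul] at h1
    rcases eq_or_ne e 0 with rfl | he0
    · exact IsSquare.zero
    obtain ⟨w, hw⟩ := h1
    refine ⟨w / e ^ k, ?_⟩
    field_simp
    linear_combination hw
  obtain ⟨τ, htK, htB⟩ : ∃ τ : E, τ * τ ∈ K ∧ τ * τ ∉ base F E := by
    by_cases hsq : IsSquare x0
    · obtain ⟨τ, rfl⟩ := hsq
      exact ⟨τ, hx0K, hx0B⟩
    obtain ⟨ν, hν⟩ := exists_not_isSquare H.two
    have hν' : ¬ IsSquare (algebraMap F E ν) := fun h => hν (hodd ν h)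
    have hx00 : x0 ≠ 0 := fun e => hx0B (e ▸ zero_mem _)
    have hν0 : ν ≠ 0 := fun e => hν (e ▸ IsSquare.zero)
    have hν1 : algebraMap F E ν ≠ 0 := fun e => hν0 ((map_eq_zero _).1 e)
    obtain ⟨τ, hτ⟩ : IsSquare (algebraMap F E ν * x0) := by
      rw [← sqc_eq_one_iff, sqc_mul hν1 hx00, sqc_eq_neg_one_iff.2 hν', sqc_eq_neg_one_iff.2 hsq]
      exact Int.units_mul_self _
    refine ⟨τ, ?_, ?_⟩
    · rw [← hτ, ← Algebra.smul_def]; exact K.smul_mem ν hx0K
    · rw [← hτ, ← Algebra.smul_def]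
      intro h
      have := (base F E).smul_mem ν⁻¹ h
      rw [inv_smul_smul₀ hν0] at this
      exact hx0B this
  obtain ⟨A0, hA0⟩ := conj g hg hgv _ htK htB
  set t := τ * τ with ht
  set t' := A0 t with ht'
  have hτ : τ ≠ 0 := fun e => htB (by rw [ht, e, mul_zero]; exact zero_mem _)
  have ht0 : t ≠ 0 := mul_ne_zero hτ hτ
  have ht'0 : t' ≠ 0 := fun e => ht0 (A0.injective (e.trans (map_zero A0).symm))
  obtain ⟨f, hf, hvf⟩ := H.exists_partner hv0 hv
  have hfv : fB f v = 1 := by rw [H.fB_comm, hvf]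
  obtain ⟨s, hs, sl, sP⟩ := H.exists_scale hv hf hvf hτ
  obtain ⟨s', hs', sl', sP'⟩ := H.exists_scale hv hf hvf (τ := A0 τ)
    (fun e => hτ (A0.injective (e.trans (map_zero A0).symm)))
  have hsv : s.1 v = t • v := by
    rw [sP v hv, hfv, mul_one, sub_smul, one_smul, ← ht]; abel
  have hsv' : s'.1 v = t' • v := by
    rw [sP' v hv, hfv, mul_one, sub_smul, one_smul, ht', ht, map_mul]; abel
  obtain ⟨u0, hvu0, hu00, hgen⟩ := H.exists_perp_gen h3 hv0 hv
  let kk : E → orth Q := fun u => s⁻¹ * (g⁻¹ * (s' * (rho H v (u • u0) * g)))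
  have hρv : ∀ u : E, ∀ δ : E, (rho H v (u • u0)).1 (δ • v) = δ • v := fun u δ => by
    have h1 : fB v (u • u0) = 0 := by rw [map_smul, hvu0, smul_zero]
    rw [H.rho_apply hv h1, map_smul, hv, H.fB_comm (u • u0) (δ • v), map_smul fB, LinearMap.smul_apply, h1,
      smul_zero, mul_zero, zero_smul, zero_smul, sub_zero, sub_zero, add_zero]
  have hsinv : ∀ δ : E, (s⁻¹).1 ((δ * t) • v) = δ • v := fun δ => by
    rw [mul_smul, ← hsv, ← sl, orth_inv_apply_apply]
  have hkv : ∀ u, (kk u).1 v = v := fun u => by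
    have h1 := hρv u 1
    rw [one_smul] at h1
    have h2 : (g⁻¹).1 (t' • v) = t • v := by rw [← hA0, orth_inv_apply_apply]
    simp only [kk, orth_mul_apply]
    rw [hgv, h1, hsv', h2]
    have := hsinv 1
    rwa [one_mul, one_smul] at this
  have hkM : ∀ u, kk u ∈ M := fun u =>
    mul_mem (inv_mem hs) (mul_mem (inv_mem hg) (mul_mem hs' (mul_mem (H.rho_mem _ _) hg)))
  -- on `K`
  let L : Submodule F E := (K.map (lineMap E v g)).comap (lineVec F E v)
  have hkK : ∀ u, ∀ x ∈ K, ∀ x', g.1 (x • v) = x' • v → x ∈ lineK E v (kk u) → t' * x' ∈ L := by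
    intro u x hx x' hx' hxk
    obtain ⟨e, he⟩ := Submodule.mem_span_singleton.1 (mem_lineK.1 hxk)
    have h1 : (kk u).1 (x • v) = (s⁻¹).1 ((g⁻¹).1 ((t' * x') • v)) := by
      simp only [kk, orth_mul_apply]
      rw [hx', hρv, sl', hsv', smul_smul, mul_comm x']
    have h2 : g.1 ((e * t) • v) = (t' * x') • v := by
      rw [mul_smul, ← hsv, ← sl, he, h1, orth_apply_inv_apply, orth_apply_inv_apply]
    exact ⟨e * t, mem_lineK.2 (h2 ▸ Submodule.smul_mem _ _ (Submodule.mem_span_singleton_self v)), h2⟩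
  obtain ⟨x1, hx1, x1', hx1', hx1L⟩ : ∃ x ∈ K, ∃ x', g.1 (x • v) = x' • v ∧ t' * x' ∉ L := by
    by_contra hall
    push Not at hall
    have hLstab : ∀ y ∈ L, t' * y ∈ L := by
      rintro y ⟨x, hx, hxy⟩
      exact hall x hx y hxy
    let St : Subalgebra F E :=
      { carrier := {e | ∀ y ∈ L, e * y ∈ L}
        mul_mem' := fun {a b} ha hb y hy => by rw [mul_assoc]; exact ha _ (hb y hy)
        one_mem' := fun y hy => by rwa [one_mul]
        add_mem' := fun {a b} ha hb y hy => by rw [add_mul]; exact L.add_mem (ha y hy) (hb y hy)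
        zero_mem' := fun y _ => by rw [zero_mul]; exact L.zero_mem
        algebraMap_mem' := fun a y hy => by rw [← Algebra.smul_def]; exact L.smul_mem a hy }
    have h1L : (1 : E) ∈ L := ⟨1, hbase ⟨1, by simp⟩, by
      show g.1 ((1 : E) • v) = (1 : E) • v; rw [one_smul, hgv]⟩
    rcases (Subalgebra.isSimpleOrder_of_finrank_prime F E H.prime).eq_bot_or_eq_top St with h0 | h0
    · obtain ⟨a, ha⟩ := Algebra.mem_bot.1 (h0 ▸ (hLstab : t' ∈ St) : t' ∈ (⊥ : Subalgebra F E))
      refine htB ⟨a, A0.injective ?_⟩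
      rw [Algebra.linearMap_apply, AlgEquiv.commutes, ha]
    · refine hlt ((Submodule.eq_top_iff').2 fun y => ?_)
      have hLtop : L = ⊤ := (Submodule.eq_top_iff').2 fun z => by
        have := (h0 ▸ Algebra.mem_top : z ∈ St) 1 h1L
        rwa [mul_one] at this
      have h5 : Module.finrank F E ≤ Module.finrank F K := by
        have e1 := Submodule.finrank_map_le (lineMap E v g) K
        have e2 := (Submodule.equivMapOfInjective (lineVec F E v) hinj L).finrank_eq
        have e3 := Submodule.finrank_mono (Submodule.map_comap_le (lineVec F E v) (K.map (lineMap E v g)))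
        rw [hLtop, finrank_top] at e2
        change Module.finrank F ↥(L.map (lineVec F E v)) ≤ _ at e3
        rw [hLtop] at e3
        omega
      rw [Submodule.eq_top_of_finrank_eq (le_antisymm (Submodule.finrank_le K) h5)]
      exact Submodule.mem_top
  have hoff : ∀ u, x1 ∉ lineK E v (kk u) := fun u h => hx1L (hkK u x1 hx1 x1' hx1' h)
  have hex : ∀ u, ∃ x, x ∈ lineK E v (kk u) ∧ x ∉ K := fun u => by
    by_contra h
    push Not at h
    have hne : lineK E v (kk u) ≠ ⊤ := fun e => hoff u (e ▸ Submodule.mem_top)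
    have hlt' := Submodule.finrank_lt_finrank_of_lt
      (SetLike.lt_iff_le_and_exists.2 ⟨(h : lineK E v (kk u) ≤ K), x1, hx1, hoff u⟩)
    exact absurd (hcon _ (hkM u) (hkv u) hne) (not_le.2 hlt')
  choose xs hxs hxsK using hex
  -- the points
  let β : E →ₗ[F] E := (fB v).restrictScalars F ∘ₗ lineMap E v g
  let S : (E ≃ₐ[F] E) → Submodule F E := fun A =>
    LinearMap.ker (β - LinearMap.mulLeft F t' ∘ₗ β ∘ₗ LinearMap.mulLeft F t ∘ₗ A.toLinearMap)
  let X : E × {a : F // a ≠ 0} × F → E := fun p => p.2.1.1 • xs p.1 + algebraMap F E p.2.2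
  have hX : ∀ p, X p ∈ lineK E v (kk p.1) ∧ X p ∉ K := by
    rintro ⟨u, ⟨a, ha⟩, b⟩
    have hb : algebraMap F E b ∈ base F E := ⟨b, rfl⟩
    refine ⟨add_mem (Submodule.smul_mem _ a (hxs u)) (H.base_le_lineK (v := v) (hkv u) hb), fun h => hxsK u ?_⟩
    have h1 := K.sub_mem h (hbase hb)
    rw [show X (u, ⟨a, ha⟩, b) - algebraMap F E b = a • xs u from add_sub_cancel_right _ _] at h1
    have := K.smul_mem a⁻¹ h1
    rwa [inv_smul_smul₀ ha] at this
  have hAX : ∀ p, ∃ A : E ≃ₐ[F] E, (kk p.1).1 (X p • v) = A (X p) • v := fun p =>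
    conj _ (hkM _) (hkv _) _ (hX p).1 fun h => (hX p).2 (hbase h)
  choose A hA using hAX
  have hback : ∀ p, s'.1 ((rho H v (p.1 • u0)).1 (g.1 (X p • v))) = g.1 ((A p (X p) * t) • v) := by
    intro p
    have h1 := hA p
    simp only [kk, orth_mul_apply] at h1
    have h2 := congrArg s.1 h1
    rw [orth_apply_inv_apply, sl, hsv, smul_smul] at h2
    have h3 := congrArg g.1 h2
    rwa [orth_apply_inv_apply] at h3
  have hXS : ∀ p, X p ∈ S (A p) := by
    intro p
    have h1 : fB v (p.1 • u0) = 0 := by rw [map_smul, hvu0, smul_zero]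
    have h2 := congrArg (fB (t' • v)) (hback p)
    rw [← hsv', H.fB_map sl' v, hsv', H.rho_apply hv h1] at h2
    simp only [map_sub, map_add, LinearMap.map_smul, LinearMap.smul_apply, hvu0, hv] at h2
    show β (X p) - t' * β (t * A p (X p)) = 0
    show fB v (g.1 (X p • v)) - t' * fB v (g.1 ((t * A p (X p)) • v)) = 0
    rw [mul_comm t (A p (X p))]
    simp only [smul_zero, add_zero, sub_zero, smul_eq_mul, mul_zero] at h2
    rw [h2, sub_self]
  let Φ : E × {a : F // a ≠ 0} × F → Σ A : E ≃ₐ[F] E, S A := fun p => ⟨A p, X p, hXS p⟩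
  have hΦ : Function.Injective Φ := by
    rintro p p' h
    have hAe : A p = A p' := congrArg Sigma.fst h
    have hXe : X p = X p' := congrArg (fun z : Σ A : E ≃ₐ[F] E, S A => (z.2 : E)) h
    have h1 : (rho H v (p.1 • u0)).1 (g.1 (X p • v)) = (rho H v (p'.1 • u0)).1 (g.1 (X p • v)) := by
      refine s'.1.injective ?_
      rw [hback p, hXe, hback p', hAe]
    have hne : fB v (g.1 (X p • v)) ≠ 0 := fun h0 => (hX p).2 (hS g hg hgv _ h0)
    have h2 := congrArg (fB u0) h1
    have hu0v : fB u0 v = 0 := by rw [H.fB_comm, hvu0]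
    rw [H.rho_apply hv (by rw [map_smul, hvu0, smul_zero]), H.rho_apply hv (by rw [map_smul, hvu0, smul_zero])] at h2
    simp only [map_sub, map_add, map_smul, hu0v, smul_zero, mul_zero, sub_zero, smul_eq_mul, add_right_inj,
      mul_eq_mul_left_iff, hne, or_false, mul_eq_mul_right_iff, hu00] at h2
    obtain ⟨u, ⟨a, ha⟩, b⟩ := p
    obtain ⟨u', ⟨a', ha'⟩, b'⟩ := p'
    change u = u' at h2
    subst h2
    change a • xs u + algebraMap F E b = a' • xs u + algebraMap F E b' at hXe
    have h4 : (a - a') • xs u = algebraMap F E (b' - b) := by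
      rw [sub_smul, map_sub]; linear_combination hXe
    have haa : a = a' := by
      by_contra hne'
      refine hxsK u (hbase ⟨(a - a')⁻¹ * (b' - b), ?_⟩)
      rw [Algebra.linearMap_apply, map_mul, ← Algebra.smul_def, ← h4, inv_smul_smul₀ (sub_ne_zero.2 hne')]
    subst haa
    obtain rfl : b = b' := (algebraMap F E).injective (add_left_cancel hXe)
    rfl
  -- counting
  set q := Fintype.card F with hq
  set r := Module.finrank F E with hr
  have hq3 := H.cardF
  have hcard := Nat.card_le_card_of_injective Φ hΦ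
  rw [Nat.card_prod, Nat.card_prod, card_E F E, Nat.card_sigma, Nat.card_eq_fintype_card,
    Fintype.card_subtype_compl, Fintype.card_subtype_eq, Nat.card_eq_fintype_card, ← hq, ← hr] at hcard
  obtain ⟨A1, -, hA1⟩ := Finset.exists_max_image (Finset.univ : Finset (E ≃ₐ[F] E))
    (fun A => Module.finrank F (S A)) ⟨1, Finset.mem_univ _⟩
  have hsum : ∀ A, A ≠ A1 → 2 * Module.finrank F (S A) ≤ r + Module.finrank F K + 1 := by
    intro A hA'
    have h1 := hA1 A (Finset.mem_univ _)
    have h2 := Submodule.finrank_sup_add_finrank_inf_eq (S A) (S A1)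
    have h4 := Submodule.finrank_le (S A ⊔ S A1)
    have h5 : Module.finrank F ↥(S A ⊓ S A1) ≤ Module.finrank F K + 1 := by
      refine le_trans (Submodule.finrank_mono fun x hx => ?_) (finrank_comap_sub_le H.prime hA' ht0 K)
      have e1 : β x - t' * β (t * A x) = 0 := hx.1
      have e2 : β x - t' * β (t * A1 x) = 0 := hx.2
      have e3 : β (t * A x) = β (t * A1 x) := mul_left_cancel₀ ht'0 (by linear_combination e2 - e1)
      refine hS g hg hgv _ ?_
      show β (t * (A x - A1 x)) = 0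
      rw [mul_sub, map_sub, e3, sub_self]
    omega
  set m := (r + Module.finrank F K + 1) / 2 with hm
  have htot : ∑ A : E ≃ₐ[F] E, Nat.card (S A) ≤ q ^ r + (r - 1) * q ^ m := by
    rw [← Finset.add_sum_erase _ _ (Finset.mem_univ A1)]
    refine Nat.add_le_add ?_ ?_
    · rw [Module.natCard_eq_pow_finrank (K := F) (V := S A1), Nat.card_eq_fintype_card]
      exact Nat.pow_le_pow_right (by omega) (Submodule.finrank_le _)
    · refine (Finset.sum_le_card_nsmul _ _ (q ^ m) fun A hA' => ?_).trans (le_of_eq ?_)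
      · rw [Module.natCard_eq_pow_finrank (K := F) (V := S A), Nat.card_eq_fintype_card]
        refine Nat.pow_le_pow_right (by omega) ?_
        have := hsum A (Finset.mem_erase.1 hA').1
        omega
      · rw [smul_eq_mul, Finset.card_erase_of_mem (Finset.mem_univ _), Finset.card_univ,
          ← Nat.card_eq_fintype_card, IsGalois.card_aut_eq_finrank]
  have hbig : r - 1 < 5 * q ^ (r - m) := by
    obtain ⟨w, hw⟩ : Odd r := H.prime.odd_of_ne_two (by omega)
    have h1 : r ≤ 4 * (r - m) + 1 := by omega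
    have key : ∀ k, 4 * k < 5 * 3 ^ k := by
      intro k
      induction k with
      | zero => norm_num
      | succ k ih => rw [pow_succ]; have := Nat.one_le_pow k 3 (by norm_num); omega
    have h2 := key (r - m)
    calc r - 1 ≤ 4 * (r - m) := by omega
      _ < 5 * 3 ^ (r - m) := h2
      _ ≤ 5 * q ^ (r - m) := Nat.mul_le_mul_left 5 (Nat.pow_le_pow_left hq3 _)
  have hqr : q ^ r = q ^ (r - m) * q ^ m := by rw [← pow_add, Nat.sub_add_cancel (by omega)]
  have h6 : 6 * q ^ r ≤ q ^ r * ((q - 1) * q) := by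
    rw [mul_comm 6]
    exact Nat.mul_le_mul_left _ (by have := Nat.mul_le_mul (show 2 ≤ q - 1 by omega) hq3; omega)
  have h7 : (r - 1) * q ^ m < 5 * q ^ r := by
    rw [hqr, ← mul_assoc]
    exact Nat.mul_lt_mul_of_pos_right hbig (pow_pos (by omega) m)
  omega

/-- In dimension three over the extension the overgroup contains `Ω`. -/
theorem omega_le_three (h3 : Module.finrank E V = 3) (hr5 : 5 ≤ Module.finrank F E) :
    commutator (orth Q) ≤ M := by
  classical
  by_contra hno
  obtain ⟨v, hv0, hv, g0, hg0, hgv0, c0, hc0⟩ := H.exists_out_three hno h3 hr5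
  have hS := H.perpStays hno h3 hr5 hv0 hv
  have hex : ∃ n, ∃ g ∈ M, g.1 v = v ∧ lineK E v g ≠ ⊤ ∧ Module.finrank F (lineK E v g) = n :=
    ⟨_, g0, hg0, hgv0, fun e => hc0 (mem_lineK.1 (e ▸ Submodule.mem_top : c0 ∈ lineK E v g0)), rfl⟩
  obtain ⟨g, hg, hgv, hne, hn⟩ := Nat.find_spec hex
  obtain ⟨c, hc⟩ : ∃ c, c ∉ lineK E v g := by
    by_contra h
    push Not at h
    exact hne ((Submodule.eq_top_iff').2 h)
  have hb := H.base_le_lineK (v := v) hgv
  have h1 := Submodule.finrank_mono hb
  rw [H.finrank_base] at h1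
  by_cases hlarge : Module.finrank F E < 2 * Module.finrank F (lineK E v g)
  · exact H.false_of_large h3 hv0 hv hS hg hgv hc hlarge
  by_cases hsmall : Module.finrank F (lineK E v g) ≤ 1
  · exact H.false_of_base h3 hr5 hv0 hv hS hg hgv
      (Submodule.eq_of_le_of_finrank_le hb (by rw [H.finrank_base]; exact hsmall)).symm
  obtain ⟨k, hk, hkv, hkne, hkn⟩ := H.exists_smaller hno h3 hr5 hv0 hv hS hg hgv hne (by omega) (by omega)
  exact Nat.find_min hex (hkn.trans_le (le_of_eq hn)) ⟨k, hk, hkv, hkne, rfl⟩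

end OCtx

end Cfsg.Agent.H58.ExtField.Orth
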