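import Cfsg.Agent.H58.ExtField.OrthOut
import Cfsg.Agent.H58.ExtField.OrthConj
import Mathlib.RingTheory.Polynomial.Chebyshev

/-!
# Dimension three over the extension: some stabiliser of a singular vector moves its line

The stabiliser of a non-singular vector has an element no small power of which fixes anything else: its powers act
on the perp by Chebyshev polynomials.
-/

set_option autoImplicit false
set_option linter.unusedSectionVars false
set_option linter.unusedVariables false

namespace Cfsg.Agent.H58.ExtField.Orth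

open QuadraticMap hiding sq
open Cfsg.Agent.H5

variable {F : Type*} [Field F] [Fintype F] {E : Type*} [Field E] [Fintype E] [Algebra F E]
variable {V : Type*} [AddCommGroup V] [Module F V] [Finite V] [Module E V] [IsScalarTower F E V]
variable {Q : QuadraticForm F V} {fB : V →ₗ[E] V →ₗ[E] E} {M : Subgroup (orth Q)}

namespace OCtx

variable (H : OCtx Q fB M)
include H

/-- An orthogonal pair of non-singular vectors in the perp of a non-singular vector. -/
theorem exists_frame (h3 : Module.finrank E V = 3) {y : V} (hyy : fB y y ≠ 0) :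
    ∃ e1 e2 : V, fB y e1 = 0 ∧ fB y e2 = 0 ∧ fB e1 e2 = 0 ∧ fB e1 e1 ≠ 0 ∧ fB e2 e2 ≠ 0 ∧
      ∀ z, fB y z = 0 → ∃ a b : E, z = a • e1 + b • e2 := by
  haveI : Module.Finite E V := Module.Finite.of_finite
  have hy0 : y ≠ 0 := fun e => hyy (by rw [e, map_zero])
  set W : Submodule E V := perp (qf fB) (Submodule.span E {y})
  have hW : ∀ {u : V}, u ∈ W ↔ fB y u = 0 := fun {u} => by rw [mem_perp_span, H.qf_polar]
  have hWd : W ⊓ perp (qf fB) W = ⊥ := by
    rw [perp_perp H.nondeg, eq_bot_iff]
    rintro u ⟨hu, hu'⟩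
    obtain ⟨t, rfl⟩ := Submodule.mem_span_singleton.1 hu'
    rw [SetLike.mem_coe, hW, map_smul, smul_eq_mul, mul_eq_zero, or_iff_left hyy] at hu
    rw [hu, zero_smul]
    exact zero_mem _
  have hd := finrank_perp_add H.nondeg (Submodule.span E {y})
  rw [finrank_span_singleton hy0, h3] at hd
  change Module.finrank E W + 1 = _ at hd
  obtain ⟨e1, he1, hq⟩ := exists_anisotropic hWd (by omega)
  have h1 : fB e1 e1 ≠ 0 := fun h => hq (H.qf_zero.2 h)
  have hye : fB y e1 = 0 := hW.1 he1
  have hey : fB e1 y = 0 := by rw [H.fB_comm, hye]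
  let L : V →ₗ[E] E × E := (fB y).prod (fB e1)
  have hsurj : LinearMap.range L = ⊤ := by
    refine eq_top_iff.2 fun p _ => ⟨(p.1 / fB y y) • y + (p.2 / fB e1 e1) • e1, ?_⟩
    simp [L, hye, hey, hyy, h1]
  have hker : Module.finrank E (LinearMap.ker L) = 1 := by
    have := L.finrank_range_add_finrank_ker
    rw [hsurj, finrank_top, Module.finrank_prod, Module.finrank_self, h3] at this
    omega
  obtain ⟨⟨e2, he2⟩, hne, hall⟩ := finrank_eq_one_iff'.1 hker
  rw [LinearMap.mem_ker, LinearMap.prod_apply, Function.prod_apply, Prod.mk_eq_zero] at he2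
  have he2y : fB e2 y = 0 := by rw [H.fB_comm, he2.1]
  have he21 : fB e2 e1 = 0 := by rw [H.fB_comm, he2.2]
  have hdec : ∀ z, ∃ c : E, c • e2 = z - (fB y z / fB y y) • y - (fB e1 z / fB e1 e1) • e1 := by
    intro z
    obtain ⟨c, hc⟩ := hall ⟨z - (fB y z / fB y y) • y - (fB e1 z / fB e1 e1) • e1, by
      simp [L, hye, hey, hyy, h1]⟩
    exact ⟨c, congrArg Subtype.val hc⟩
  have h2 : fB e2 e2 ≠ 0 := by
    intro h2
    have he20 : e2 ≠ 0 := fun e => hne (Subtype.ext e)
    obtain ⟨z, hz⟩ := H.exists_ne he20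
    obtain ⟨c, hc⟩ := hdec z
    have := congrArg (fB e2) hc
    simp [h2, he2y, he21] at this
    exact hz this.symm
  refine ⟨e1, e2, hye, he2.1, he2.2, h1, h2, fun z hz => ?_⟩
  obtain ⟨c, hc⟩ := hdec z
  refine ⟨fB e1 z / fB e1 e1, c, ?_⟩
  rw [hc, hz, zero_div, zero_smul, sub_zero]
  abel

/-- An element fixing `y` whose `r`-th power fixes only the line of `y`. -/
theorem exists_torus (h3 : Module.finrank E V = 3) (hr5 : 5 ≤ Module.finrank F E) {y : V} (hyy : fB y y ≠ 0) :
    ∃ t ∈ M, t.1 y = y ∧ ∀ z, (t ^ Module.finrank F E).1 z = z → z ∈ Submodule.span E {y} := by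
  classical
  obtain ⟨e1, e2, hye1, hye2, h12, h1, h2, hspan⟩ := H.exists_frame h3 hyy
  have he1y : fB e1 y = 0 := by rw [H.fB_comm, hye1]
  have he2y : fB e2 y = 0 := by rw [H.fB_comm, hye2]
  have h21 : fB e2 e1 = 0 := by rw [H.fB_comm, h12]
  set A := fB e1 e1 with hA
  set B := fB e2 e2 with hB
  set N := 2 * Module.finrank F E with hN
  set T : Polynomial E := Polynomial.Chebyshev.T E (N : ℤ) with hT
  -- a parameter avoiding the roots
  have hne : T - 1 ≠ 0 := by
    intro h
    haveI : NeZero (2 : E) := ⟨H.twoE⟩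
    have hd : T.natDegree = N := by rw [hT, Polynomial.Chebyshev.natDegree_T]; simp
    rw [sub_eq_zero.1 h, Polynomial.natDegree_one] at hd
    omega
  obtain ⟨lam, hden, hroot⟩ : ∃ lam : E, A + lam ^ 2 * B ≠ 0 ∧ T.eval (2 * A / (A + lam ^ 2 * B) - 1) ≠ 1 := by
    by_contra hall
    push Not at hall
    set S : Finset E := insert (-A / B) ((T - 1).roots.toFinset.image fun a => (2 * A / (a + 1) - A) / B)
    have hsub : (Finset.univ : Finset E) ⊆ S.biUnion fun s => (Polynomial.nthRoots 2 s).toFinset := by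
      intro lam _
      refine Finset.mem_biUnion.2 ⟨lam ^ 2, ?_, by rw [Multiset.mem_toFinset, Polynomial.mem_nthRoots (by norm_num)]⟩
      by_cases hden : A + lam ^ 2 * B = 0
      · refine Finset.mem_insert.2 (Or.inl ?_)
        field_simp
        linear_combination hden
      · refine Finset.mem_insert_of_mem (Finset.mem_image.2 ⟨2 * A / (A + lam ^ 2 * B) - 1, ?_, ?_⟩)
        · rw [Multiset.mem_toFinset, Polynomial.mem_roots hne]
          simp [hall lam hden]
        · rw [sub_add_cancel, div_div_cancel₀ (mul_ne_zero H.twoE h1), add_sub_cancel_left,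
            mul_div_cancel_right₀ _ h2]
    have hroots : (T - 1).roots.toFinset.card ≤ N := by
      refine (Multiset.toFinset_card_le _).trans ((Polynomial.card_roots' _).trans ?_)
      refine (Polynomial.natDegree_sub_le _ _).trans ?_
      haveI : NeZero (2 : E) := ⟨H.twoE⟩
      rw [hT, Polynomial.Chebyshev.natDegree_T, Polynomial.natDegree_one]
      simp
    have hS : S.card ≤ N + 1 :=
      (Finset.card_insert_le _ _).trans (Nat.add_le_add_right (Finset.card_image_le.trans hroots) 1)
    have hcard := (Finset.card_le_card hsub).trans (Finset.card_biUnion_le_card_mul _ _ 2 fun s _ =>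
      (Multiset.toFinset_card_le _).trans (Polynomial.card_nthRoots 2 s))
    rw [Finset.card_univ, ← Nat.card_eq_fintype_card, card_E F E] at hcard
    have hq : 3 ≤ Fintype.card F := by
      have h1' : 1 < Fintype.card F := Fintype.one_lt_card
      by_contra h
      refine H.two ?_
      have h2' : Fintype.card F = 2 := by omega
      have := FiniteField.cast_card_eq_zero F
      rwa [h2'] at this
    have h3r := Nat.pow_le_pow_left hq (Module.finrank F E)
    have key : ∀ k, 4 * (k + 5) + 2 < 3 ^ (k + 5) := by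
      intro k
      induction k with
      | zero => norm_num
      | succ k ih => rw [show k + 1 + 5 = k + 5 + 1 by ring, pow_succ]; omega
    have h5 := key (Module.finrank F E - 5)
    rw [show Module.finrank F E - 5 + 5 = Module.finrank F E by omega] at h5
    omega
  set b := e1 + lam • e2 with hb
  set a := 2 * A / (A + lam ^ 2 * B) - 1 with ha
  set s := refl (qf fB) e1 * refl (qf fB) b
  have hsinv : s⁻¹ = refl (qf fB) b * refl (qf fB) e1 := by rw [mul_inv_rev, refl_inv, refl_inv]
  have hyb : fB y b = 0 := by rw [hb, map_add, map_smul, hye1, hye2, smul_zero, add_zero]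
  have hby : fB b y = 0 := by rw [H.fB_comm, hyb]
  have hsy : s.1 y = y := by
    simp [s, orth_mul_apply, refl_apply, H.qf_polar, he1y, hby]
  have hsy' : (s⁻¹).1 y = y := by conv_lhs => rw [← hsy, orth_inv_apply_apply]
  -- the sum with the inverse is scalar on the perp
  have hsum : ∀ z, fB y z = 0 → s.1 z + (s⁻¹).1 z = (2 * a) • z := by
    intro z hz
    obtain ⟨x, w, rfl⟩ := hspan z hz
    rw [hsinv]
    simp only [s, ha, hb, orth_mul_apply, refl_apply, qf_apply, H.qf_polar, map_add, map_sub, map_smul,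
      LinearMap.add_apply, LinearMap.sub_apply, LinearMap.smul_apply, smul_eq_mul, h12, h21, ← hA, ← hB]
    have := H.twoE
    have hinv := mul_inv_cancel₀ hden
    match_scalars <;> field_simp <;> first
      | ring1
      | linear_combination (4 * x * A ^ 2) * hinv
      | linear_combination -(4 * A * lam ^ 2 * B * w) * hinv
  clear_value s
  have hperp : ∀ (k : orth (qf fB)), k.1 y = y → ∀ z, fB y z = 0 → fB y (k.1 z) = 0 := by
    intro k hk z hz
    rw [← H.qf_polar, ← hk, orth_polar, H.qf_polar, hz]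
  have hcheb : ∀ k : ℕ, (∀ z, fB y z = 0 → (s ^ k).1 z + ((s⁻¹) ^ k).1 z =
      (2 * (Polynomial.Chebyshev.T E (k : ℤ)).eval a) • z) ∧ (∀ z, fB y z = 0 → (s ^ (k + 1)).1 z +
      ((s⁻¹) ^ (k + 1)).1 z = (2 * (Polynomial.Chebyshev.T E ((k : ℤ) + 1)).eval a) • z) := by
    intro k
    induction k with
    | zero =>
      refine ⟨fun z _ => ?_, fun z hz => ?_⟩
      · simp [two_smul]
      · simpa using hsum z hz
    | succ k ih =>
      refine ⟨fun z hz => by have := ih.2 z hz; simpa using this, fun z hz => ?_⟩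
      have e1' := congrArg s.1 (ih.2 z hz)
      have e2' := congrArg (s⁻¹).1 (ih.2 z hz)
      have e3 := ih.1 z hz
      have e4 := hsum z hz
      rw [map_add, map_smul] at e1' e2'
      have p1 : s.1 ((s ^ (k + 1)).1 z) = (s ^ (k + 1 + 1)).1 z := by rw [pow_succ' s (k + 1), orth_mul_apply]
      have p2 : s.1 (((s⁻¹) ^ (k + 1)).1 z) = ((s⁻¹) ^ k).1 z := by
        rw [pow_succ' s⁻¹ k, orth_mul_apply, orth_apply_inv_apply]
      have p3 : (s⁻¹).1 ((s ^ (k + 1)).1 z) = (s ^ k).1 z := by
        rw [pow_succ' s k, orth_mul_apply, orth_inv_apply_apply]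
      have p4 : (s⁻¹).1 (((s⁻¹) ^ (k + 1)).1 z) = ((s⁻¹) ^ (k + 1 + 1)).1 z := by
        rw [pow_succ' s⁻¹ (k + 1), orth_mul_apply]
      rw [p1, p2] at e1'
      rw [p3, p4] at e2'
      rw [show ((k + 1 : ℕ) : ℤ) + 1 = (k : ℤ) + 2 by push_cast; ring, Polynomial.Chebyshev.T_add_two]
      simp only [Polynomial.eval_sub, Polynomial.eval_mul, Polynomial.eval_X, Polynomial.eval_ofNat]
      linear_combination (norm := module) e1' + e2' - e3 +
        (2 * (Polynomial.Chebyshev.T E ((k : ℤ) + 1)).eval a) • e4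
  have hfix : ∀ k : ℕ, (s ^ k).1 y = y := fun k => by
    induction k with
    | zero => rfl
    | succ k ih => rw [pow_succ, orth_mul_apply, hsy, ih]
  refine ⟨resHom H (s * s), H.res_mem ?_, by rw [resHom_apply, orth_mul_apply, hsy, hsy], fun z hz => ?_⟩
  · haveI : Module.Finite E V := Module.Finite.of_finite
    rw [commutator_eq_ker H.nondeg (Or.inl H.cardE), MonoidHom.mem_ker, map_mul]
    exact Prod.ext (Int.units_mul_self _) (Int.units_mul_self _)
  rw [← map_pow, resHom_apply, ← pow_two, ← pow_mul, ← hN] at hz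
  set c := fB y z / fB y y
  set w := z - c • y
  have hw : fB y w = 0 := by simp [w, c, hyy]
  have hfw : (s ^ N).1 w = w := by rw [map_sub, map_smul, hz, hfix]
  have hfw' : ((s⁻¹) ^ N).1 w = w := by
    rw [inv_pow]
    conv_lhs => rw [← hfw, orth_inv_apply_apply]
  have := (hcheb N).1 w hw
  rw [hfw, hfw', ← two_smul E, mul_smul] at this
  have hw0 : (1 - T.eval a) • w = 0 := by
    have h' : (2 : E) • ((1 - T.eval a) • w) = 0 := by
      rw [sub_smul, one_smul, smul_sub, this, sub_self]
    exact (smul_eq_zero.1 h').resolve_left H.twoE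
  have : w = 0 := (smul_eq_zero.1 hw0).resolve_left (sub_ne_zero.2 (Ne.symm hroot))
  exact Submodule.mem_span_singleton.2 ⟨c, (sub_eq_zero.1 this).symm⟩

/-- In dimension three, some stabiliser of a singular vector moves its line. -/
theorem exists_out_three (hno : ¬ commutator (orth Q) ≤ M) (h3 : Module.finrank E V = 3)
    (hr5 : 5 ≤ Module.finrank F E) : ∃ v : V, v ≠ 0 ∧ fB v v = 0 ∧ ∃ g ∈ M, g.1 v = v ∧
    ∃ c : E, g.1 (c • v) ∉ Submodule.span E {v} := by
  haveI : Module.Finite E V := Module.Finite.of_finite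
  by_contra hcon
  push Not at hcon
  refine H.false_of_line fun h hh x hx0 hx c => ?_
  by_contra hz
  have hc0 : c ≠ 0 := fun e => hz (by rw [e, zero_smul, map_zero]; exact zero_mem _)
  have hy0 : h.1 x ≠ 0 := fun e => hx0 (h.1.map_eq_zero_iff.1 e)
  have conj_fix : ∀ t : orth Q, t.1 (h.1 x) = h.1 x → (h⁻¹ * t * h).1 x = x := fun t ht => by
    rw [orth_mul_apply, orth_mul_apply, ht, orth_inv_apply_apply]
  by_cases hyy : fB (h.1 x) (h.1 x) = 0
  · obtain ⟨g, hg, hinj⟩ := H.orbit_family_of_iso hy0 hyy hz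
    have hmem : ∀ a, ∃ d : {d : E // d ≠ 0}, (g a).1 (h.1 (c • x)) = h.1 (d.1 • x) := by
      intro a
      obtain ⟨d, hd⟩ := Submodule.mem_span_singleton.1
        (hcon x hx0 hx _ (mul_mem (mul_mem (inv_mem hh) (hg a).1) hh) (conj_fix _ (hg a).2) c)
      refine ⟨⟨d, fun e => ?_⟩, ?_⟩
      · rw [e, zero_smul, eq_comm, LinearEquiv.map_eq_zero_iff] at hd
        exact smul_ne_zero hc0 hx0 hd
      · show _ = h.1 (d • x)
        rw [hd, orth_mul_apply, orth_mul_apply, orth_apply_inv_apply]
    choose d hd using hmem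
    have hdinj : Function.Injective d := fun a b hab => hinj (by
      show (g a).1 _ = (g b).1 _
      rw [hd, hd, hab])
    exact absurd (Nat.card_le_card_of_injective d hdinj)
      (not_le.2 (Finite.card_subtype_lt (x := (0 : E)) fun h => h rfl))
  · obtain ⟨t, ht, hty, hfix⟩ := H.exists_torus h3 hr5 hyy
    set k := h⁻¹ * t * h with hk
    have hkM : k ∈ M := mul_mem (mul_mem (inv_mem hh) ht) hh
    obtain ⟨A, hA⟩ := H.line_aut hno hx0 hx hkM (conj_fix t hty) (hcon x hx0 hx k hkM (conj_fix t hty))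
    let A' : E ≃ₐ[F] E := AlgEquiv.ofBijective A ⟨A.injective, Finite.injective_iff_surjective.1 A.injective⟩
    have hpow : ∀ (i : ℕ) (a : E), (k ^ i).1 (a • x) = (A' ^ i) a • x := by
      intro i
      induction i with
      | zero => intro a; rfl
      | succ i ih => intro a; rw [pow_succ, orth_mul_apply, hA, ih, pow_succ, AlgEquiv.mul_apply]; rfl
    refine hz (hfix _ ?_)
    have h1 := hpow (Module.finrank F E) c
    rw [← IsGalois.card_aut_eq_finrank F E, pow_card_eq_one', IsGalois.card_aut_eq_finrank F E] at h1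
    have h2 : t ^ Module.finrank F E = h * k ^ Module.finrank F E * h⁻¹ := by
      rw [← conj_pow, hk]
      congr 1
      group
    rw [h2, orth_mul_apply, orth_mul_apply, orth_inv_apply_apply, h1]
    rfl

end OCtx

end Cfsg.Agent.H58.ExtField.Orth
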