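import Mathlib.RingTheory.Trace.Basic
import Mathlib.FieldTheory.Finite.GaloisField
import Mathlib.LinearAlgebra.Dual.Lemmas

/-!
# Invariant spaces of self-adjoint maps of an extension field

`E` has prime degree over the finite field `F`.  A set of maps of `E` closed under composing through scalars that
carries, by congruence, into itself a proper space of self-adjoint maps containing the scalars consists of
semilinear maps: the coefficients of an element in the basis of automorphisms would otherwise spread to all of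
the Galois group.
-/

set_option autoImplicit false
set_option linter.unusedSectionVars false

namespace Cfsg.Agent.H58.ExtField

variable {F : Type*} [Field F] [Fintype F] {E : Type*} [Field E] [Fintype E] [Algebra F E]

local notation "Gal'" => (E ≃ₐ[F] E)

/-- Dedekind independence of the automorphisms. -/
theorem aut_indep {C : Gal' → E} (h : ∀ x : E, ∑ g, C g * g x = 0) : C = 0 := by
  have hinj : Function.Injective fun g : Gal' => ((g : E →ₐ[F] E) : E →* E) := fun a b hab =>
    AlgEquiv.ext fun x => DFunLike.congr_fun hab x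
  have hli := (linearIndependent_monoidHom E E).comp _ hinj
  funext g
  refine Fintype.linearIndependent_iff.1 hli C ?_ g
  funext x
  simpa [Finset.sum_apply] using h x

/-- Independence of the products of three automorphisms in three variables. -/
theorem aut_indep_triple {D : Gal' → Gal' → Gal' → E}
    (h : ∀ x y z : E, ∑ g, ∑ k, ∑ l, D g k l * g x * k y * l z = 0) : D = 0 := by
  have h1 : ∀ y z : E, (fun g => ∑ k, ∑ l, D g k l * k y * l z) = 0 := fun y z =>
    aut_indep fun x => by
      refine Eq.trans (Finset.sum_congr rfl fun g _ => ?_) (h x y z)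
      rw [Finset.sum_mul]
      refine Finset.sum_congr rfl fun k _ => ?_
      rw [Finset.sum_mul]
      exact Finset.sum_congr rfl fun l _ => by ring
  funext g k l
  have h2 : ∀ z : E, (fun k => ∑ l, D g k l * l z) = 0 := fun z =>
    aut_indep fun y => by
      refine Eq.trans (Finset.sum_congr rfl fun k _ => ?_) (congrFun (h1 y z) g)
      rw [Finset.sum_mul]
      exact Finset.sum_congr rfl fun l _ => by ring
  exact congrFun (aut_indep fun z => congrFun (h2 z) k) l

/-- The map with given coefficients. -/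
noncomputable def opn (a : Gal' → E) : E →ₗ[F] E := ∑ g, a g • g.toLinearMap

theorem opn_apply (a : Gal' → E) (x : E) : opn a x = ∑ g, a g * g x := by
  simp [opn, LinearMap.sum_apply]

theorem opn_injective : Function.Injective (opn (F := F) (E := E)) := fun a b h => by
  have := aut_indep (C := a - b) fun x => by
    have := LinearMap.congr_fun h x
    rw [opn_apply, opn_apply] at this
    simp [sub_mul, Finset.sum_sub_distrib, this]
  exact sub_eq_zero.1 this

theorem opn_surjective (ψ : E →ₗ[F] E) : ∃ a, opn a = ψ := by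
  let L : (Gal' → E) →ₗ[F] (E →ₗ[F] E) :=
    { toFun := opn
      map_add' := fun a b => by simp [opn, add_smul, Finset.sum_add_distrib]
      map_smul' := fun c a => by simp [opn, Finset.smul_sum] }
  refine (LinearMap.injective_iff_surjective_of_finrank_eq_finrank (f := L) ?_).1 opn_injective ψ
  rw [Module.finrank_pi_fintype, Finset.sum_const, Finset.card_univ, Module.finrank_linearMap,
    ← Nat.card_eq_fintype_card, IsGalois.card_aut_eq_finrank, smul_eq_mul]

theorem trace_aut (g : Gal') (x : E) : Algebra.trace F E (g x) = Algebra.trace F E x :=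
  Algebra.trace_eq_of_algEquiv g x

/-- The adjoint for the trace pairing. -/
noncomputable def adj (a : Gal' → E) : E →ₗ[F] E :=
  ∑ g, (g⁻¹ : Gal').toLinearMap ∘ₗ LinearMap.mulLeft F (a g)

theorem adj_apply (a : Gal' → E) (y : E) : adj a y = ∑ g, (g⁻¹ : Gal') (a g * y) := by
  simp [adj, LinearMap.sum_apply]

theorem trace_adj (a : Gal' → E) (x y : E) :
    Algebra.trace F E (opn a x * y) = Algebra.trace F E (x * adj a y) := by
  rw [opn_apply, adj_apply, Finset.sum_mul, Finset.mul_sum, map_sum, map_sum]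
  refine Finset.sum_congr rfl fun g _ => ?_
  rw [← trace_aut g (x * (g⁻¹ : Gal') (a g * y)), map_mul g]
  have : g ((g⁻¹ : Gal') (a g * y)) = a g * y := g.apply_symm_apply _
  rw [this]
  congr 1
  ring

/-- Functionals are traces. -/
theorem exists_trace_rep (u : E →ₗ[F] F) : ∃ e : E, ∀ c, u c = Algebra.trace F E (e * c) := by
  obtain ⟨e, he⟩ := (LinearMap.injective_iff_surjective_of_finrank_eq_finrank
    (f := Algebra.traceForm F E) (Subspace.dual_finrank_eq).symm).1 (fun a b hab => by
      refine sub_eq_zero.1 ((traceForm_nondegenerate F E).1 _ fun c => ?_)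
      rw [map_sub, LinearMap.sub_apply, hab, sub_self]) u
  exact ⟨e, fun c => by rw [← he]; rfl⟩

theorem eq_zero_of_trace {e : E} (h : ∀ c, Algebra.trace F E (e * c) = 0) : e = 0 :=
  (traceForm_nondegenerate F E).1 e h

/-- Coefficients of a composite through a scalar. -/
theorem opn_comp (a c : Gal' → E) (ρ : E) :
    opn a ∘ₗ LinearMap.mulLeft F ρ ∘ₗ opn c = opn fun n => ∑ g, a g * g (ρ * c (g⁻¹ * n)) := by
  refine LinearMap.ext fun x => ?_
  simp only [LinearMap.comp_apply, LinearMap.mulLeft_apply, opn_apply, map_sum,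
    Finset.sum_mul]
  conv_lhs => rw [Finset.sum_comm]
  conv_rhs => rw [Finset.sum_comm]
  refine Finset.sum_congr rfl fun g _ => ?_
  refine Fintype.sum_equiv (Equiv.mulLeft g) _ _ fun n => ?_
  rw [Equiv.coe_mulLeft, inv_mul_cancel_left, AlgEquiv.mul_apply, map_mul, map_mul, map_mul]
  ring

/-- An automorphism combination with a nonzero coefficient is nonzero somewhere, for two such at once. -/
theorem exists_both {C D : Gal' → E} (hC : C ≠ 0) (hD : D ≠ 0) :
    ∃ x : E, ∑ g, C g * g x ≠ 0 ∧ ∑ g, D g * g x ≠ 0 := by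
  obtain ⟨x, hx⟩ : ∃ x : E, ∑ g, C g * g x ≠ 0 := by
    by_contra h; push Not at h; exact hC (aut_indep h)
  obtain ⟨y, hy⟩ : ∃ y : E, ∑ g, D g * g y ≠ 0 := by
    by_contra h; push Not at h; exact hD (aut_indep h)
  by_cases h1 : ∑ g, D g * g x = 0
  · by_cases h2 : ∑ g, C g * g y = 0
    · refine ⟨x + y, ?_, ?_⟩
      · simpa [mul_add, Finset.sum_add_distrib, h2] using hx
      · simpa [mul_add, Finset.sum_add_distrib, h1] using hy
    · exact ⟨y, h2, hy⟩
  · exact ⟨x, hx, h1⟩

/-- Self-adjointness in coefficients. -/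
theorem symm_coeff {c : Gal' → E}
    (h : ∀ x y : E, Algebra.trace F E (opn c x * y) = Algebra.trace F E (x * opn c y)) (g : Gal') :
    c g⁻¹ = (g⁻¹ : Gal') (c g) := by
  have e : opn c = opn fun n => n (c n⁻¹) := by
    refine LinearMap.ext fun y => ?_
    have h1 : adj c y = opn c y := sub_eq_zero.1 (eq_zero_of_trace (F := F) fun x => by
      rw [mul_comm, mul_sub, map_sub, ← trace_adj, h, sub_self])
    rw [← h1, adj_apply, opn_apply]
    refine Fintype.sum_equiv (Equiv.inv Gal') _ _ fun n => ?_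
    rw [Equiv.inv_apply, inv_inv, map_mul]
  simpa using congrFun (opn_injective e) g⁻¹

/-- The main dichotomy. -/
theorem semilinear_of_invariant (hr : (Module.finrank F E).Prime) (W : Submodule F (E →ₗ[F] E))
    (hE : ∀ c : E, LinearMap.mulLeft F c ∈ W) {ψ0 : E →ₗ[F] E}
    (hsym : ∀ x y : E, Algebra.trace F E (ψ0 x * y) = Algebra.trace F E (x * ψ0 y)) (hψ0 : ψ0 ∉ W)
    (𝒢 : Set (E →ₗ[F] E))
    (hcomp : ∀ A ∈ 𝒢, ∀ B ∈ 𝒢, ∀ ρ : E, ρ ≠ 0 → A ∘ₗ LinearMap.mulLeft F ρ ∘ₗ B ∈ 𝒢)
    (hleft : ∀ A ∈ 𝒢, ∀ τ : E, τ ≠ 0 → LinearMap.mulLeft F τ ∘ₗ A ∈ 𝒢)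
    (hinv : ∀ A ∈ 𝒢, ∀ A' : E →ₗ[F] E,
      (∀ x y : E, Algebra.trace F E (A x * y) = Algebra.trace F E (x * A' y)) →
        ∀ ψ ∈ W, A ∘ₗ ψ ∘ₗ A' ∈ W)
    {A : E →ₗ[F] E} (hA : A ∈ 𝒢) : ∃ (c : E) (g : E ≃ₐ[F] E), ∀ x, A x = c * g x := by
  classical
  obtain ⟨Φ, hΦ, hΦW⟩ := Submodule.exists_le_ker_of_notMem hψ0
  have hΦ0 : ∀ ψ ∈ W, Φ ψ = 0 := fun ψ hψ => LinearMap.mem_ker.1 (hΦW hψ)
  choose φ hφ using fun g : Gal' => exists_trace_rep
    (Φ ∘ₗ (LinearMap.toSpanSingleton E (E →ₗ[F] E) g.toLinearMap).restrictScalars F)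
  have hφ' : ∀ (g : Gal') (c : E), Φ (c • g.toLinearMap) = Algebra.trace F E (φ g * c) := hφ
  have hΦo : ∀ c : Gal' → E, Φ (opn c) = ∑ g, Algebra.trace F E (φ g * c g) := fun c => by
    rw [opn, map_sum]; exact Finset.sum_congr rfl fun g _ => hφ' g _
  have hφ1 : φ 1 = 0 := eq_zero_of_trace (F := F) fun c => by
    rw [← hφ' 1 c, show c • (1 : Gal').toLinearMap = LinearMap.mulLeft F c from LinearMap.ext fun x => by simp]
    exact hΦ0 _ (hE c)
  set χ : Gal' → E := fun m => φ m + m (φ m⁻¹) with hχ
  -- the functional sees a symmetrised coefficient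
  obtain ⟨m, hm⟩ : ∃ m, χ m ≠ 0 := by
    by_contra hc
    push Not at hc
    refine hΦ ?_
    obtain ⟨c, rfl⟩ := opn_surjective ψ0
    have hs := symm_coeff hsym
    rw [hΦo]
    refine Finset.sum_involution (fun g _ => g⁻¹) (fun g _ => ?_) (fun g _ hg => ?_)
      (fun g _ => Finset.mem_univ _) (fun g _ => inv_inv g)
    · rw [hs g, ← trace_aut g (φ g⁻¹ * (g⁻¹ : Gal') (c g)), map_mul g,
        show g ((g⁻¹ : Gal') (c g)) = c g from g.apply_symm_apply _, ← map_add, ← add_mul]
      rw [show φ g + g (φ g⁻¹) = 0 from hc g, zero_mul, map_zero]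
    · intro he
      apply hg
      rcases eq_or_ne g 1 with rfl | hg1
      · rw [hφ1, zero_mul, map_zero]
      have hcard : Nat.card Gal' = 2 := by
        have h2 : orderOf g = 2 := orderOf_eq_prime (by
          rw [pow_two]; nth_rewrite 1 [← he]; exact inv_mul_cancel g) hg1
        rw [IsGalois.card_aut_eq_finrank]
        have hdvd := h2 ▸ orderOf_dvd_natCard g
        rw [IsGalois.card_aut_eq_finrank] at hdvd
        exact ((Nat.prime_dvd_prime_iff_eq Nat.prime_two hr).1 hdvd).symm
      have huniv : (Finset.univ : Finset Gal') = {1, g} := (Finset.eq_of_subset_of_card_le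
        (Finset.subset_univ _) (by rw [Finset.card_univ, ← Nat.card_eq_fintype_card, hcard,
          Finset.card_pair hg1.symm])).symm
      refine (algebraMap F E).injective ?_
      have hs' := hs g
      rw [he] at hs'
      rw [map_zero, trace_eq_sum_automorphisms, huniv, Finset.sum_pair hg1.symm]
      have hcg : g (c g) = c g := hs'.symm
      have := hc g
      simp only [χ, he] at this
      simp only [AlgEquiv.one_apply, map_mul, hcg]
      rw [← add_mul, this, zero_mul]
  -- no two coefficients differ by `m`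
  have key : ∀ a, opn a ∈ 𝒢 → ∀ k, a k * m (a (m⁻¹ * k)) = 0 := by
    intro a ha
    have hR : ∀ τ z : E, ∑ k : Gal', ∑ l : Gal', Algebra.trace F E
        (φ (k * l⁻¹) * (τ * a k * k z * (k * l⁻¹) (a l * τ))) = 0 := by
      intro τ z
      rcases eq_or_ne τ 0 with rfl | hτ
      · simp
      have hmem := hinv _ (hleft _ ha τ hτ) (adj a ∘ₗ LinearMap.mulLeft F τ) (fun x y => by
        simp only [LinearMap.comp_apply, LinearMap.mulLeft_apply]
        rw [← trace_adj]; congr 1; ring) _ (hE z)
      have h0 := hΦ0 _ hmem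
      have e : (LinearMap.mulLeft F τ ∘ₗ opn a) ∘ₗ LinearMap.mulLeft F z ∘ₗ
          (adj a ∘ₗ LinearMap.mulLeft F τ) =
          ∑ k : Gal', ∑ l : Gal', (τ * a k * k z * (k * l⁻¹) (a l * τ)) • (k * l⁻¹ : Gal').toLinearMap := by
        refine LinearMap.ext fun s => ?_
        simp only [LinearMap.comp_apply, LinearMap.mulLeft_apply, opn_apply, adj_apply, LinearMap.sum_apply,
          LinearMap.smul_apply, AlgEquiv.toLinearMap_apply, map_sum]
        conv_lhs => rw [Finset.sum_comm]
        refine Finset.sum_congr rfl fun k _ => Finset.sum_congr rfl fun l _ => ?_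
        simp only [AlgEquiv.mul_apply, map_mul, smul_eq_mul]
        ring
      rw [e, map_sum] at h0
      refine Eq.trans (Finset.sum_congr rfl fun k _ => ?_) h0
      rw [map_sum]
      exact Finset.sum_congr rfl fun l _ => (hφ' _ _).symm
    let C : Gal' → Gal' → Gal' → E := fun h k l => h (φ (k * l⁻¹) * a k * (k * l⁻¹) (a l))
    let T : E → E → E → Gal' × Gal' × Gal' → E := fun x y z i =>
      C i.1 i.2.1 i.2.2 * i.1 x * (i.1 * (i.2.1 * i.2.2⁻¹)) y * (i.1 * i.2.1) z
    have hpol : ∀ x y z : E, ∑ i, T x y z i + ∑ i, T y x z i = 0 := by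
      intro x y z
      have hQ : ∀ t : E, ∑ i, T t t z i = 0 := fun t => by
        have := congrArg (algebraMap F E) (hR t z)
        simp only [map_sum, trace_eq_sum_automorphisms, map_zero] at this
        rw [Fintype.sum_prod_type]
        simp only [Fintype.sum_prod_type]
        rw [Finset.sum_comm]
        refine Eq.trans (Finset.sum_congr rfl fun k _ => ?_) this
        rw [Finset.sum_comm]
        refine Finset.sum_congr rfl fun l _ => Finset.sum_congr rfl fun h _ => ?_
        simp only [T, C, AlgEquiv.mul_apply, map_mul]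
        ring
      have h1 := hQ (x + y)
      have h2 : ∀ i, T (x + y) (x + y) z i = T x x z i + T y y z i + (T x y z i + T y x z i) := fun i => by
        simp only [T, map_add]; ring
      simp only [h2, Finset.sum_add_distrib, hQ, zero_add] at h1
      exact h1
    let e1 : Gal' × Gal' × Gal' ≃ Gal' × Gal' × Gal' :=
      { toFun := fun p => (p.1, p.1⁻¹ * p.2.2, p.2.1⁻¹ * p.2.2)
        invFun := fun q => (q.1, q.1 * (q.2.1 * q.2.2⁻¹), q.1 * q.2.1)
        left_inv := fun p => Prod.ext rfl (Prod.ext (by simp) (by simp))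
        right_inv := fun q => Prod.ext rfl (Prod.ext (by simp) (by simp [mul_assoc])) }
    let e2 : Gal' × Gal' × Gal' ≃ Gal' × Gal' × Gal' :=
      { toFun := fun p => (p.2.1, p.2.1⁻¹ * p.2.2, p.1⁻¹ * p.2.2)
        invFun := fun q => (q.1 * (q.2.1 * q.2.2⁻¹), q.1, q.1 * q.2.1)
        left_inv := fun p => Prod.ext (by simp) (Prod.ext rfl (by simp))
        right_inv := fun q => Prod.ext rfl (Prod.ext (by simp) (by simp [mul_assoc])) }
    have hD := aut_indep_triple (D := fun g k l => C g (g⁻¹ * l) (k⁻¹ * l) + C k (k⁻¹ * l) (g⁻¹ * l))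
      fun x y z => by
        refine Eq.trans ?_ (hpol x y z)
        rw [← Equiv.sum_comp e1, ← Equiv.sum_comp e2 (T y x z), ← Finset.sum_add_distrib, Fintype.sum_prod_type]
        refine Finset.sum_congr rfl fun g _ => ?_
        rw [Fintype.sum_prod_type]
        refine Finset.sum_congr rfl fun k _ => Finset.sum_congr rfl fun l _ => ?_
        simp only [T, e1, e2, Equiv.coe_fn_mk, mul_inv_rev, inv_inv, mul_assoc, mul_inv_cancel_left]
        ring
    intro k
    have h0 := congrFun (congrFun (congrFun hD 1) m) k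
    simp only [C, Pi.zero_apply, inv_one, one_mul, mul_inv_rev, inv_inv, mul_inv_cancel_left, AlgEquiv.one_apply,
      mul_assoc (m⁻¹ : Gal') k, mul_inv_cancel, mul_one] at h0
    have hmm : ∀ y : E, m ((m⁻¹ : Gal') y) = y := fun y => m.apply_symm_apply y
    simp only [map_mul, hmm] at h0
    refine (mul_eq_zero.1 ?_).resolve_left hm
    simp only [χ]
    linear_combination h0
  -- one coefficient only
  obtain ⟨a, rfl⟩ := opn_surjective A
  by_cases h0 : ∀ g, a g = 0
  · exact ⟨0, 1, fun x => by rw [opn_apply]; simp [h0]⟩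
  push Not at h0
  obtain ⟨i, hi⟩ := h0
  refine ⟨a i, i, fun x => ?_⟩
  rw [opn_apply, Finset.sum_eq_single i (fun b _ hb => ?_) (by simp)]
  by_contra hne
  have hbne : a b ≠ 0 := fun h => hne (by rw [h, zero_mul])
  have hrc : Nat.card Gal' = Module.finrank F E := IsGalois.card_aut_eq_finrank F E
  have : Fact (Module.finrank F E).Prime := ⟨hr⟩
  have : IsCyclic Gal' := isCyclic_of_prime_card hrc
  have hcm : ∀ g h : Gal', g * h = h * g := fun g h => by
    let _ := IsCyclic.commGroup (α := Gal'); exact mul_comm g h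
  have grow : ∀ t : ℕ, ∀ s ≤ t + 1, ∃ c, opn c ∈ 𝒢 ∧ c (i ^ (t + 1)) ≠ 0 ∧
      c (i ^ (t + 1 - s) * b ^ s) ≠ 0 := by
    intro t
    induction t with
    | zero =>
      intro s hs
      interval_cases s
      · exact ⟨a, hA, by simpa using hi, by simpa using hi⟩
      · exact ⟨a, hA, by simpa using hi, by simpa using hbne⟩
    | succ t ih =>
      intro s hs
      obtain ⟨j, hj, s', hs', hidx⟩ : ∃ j, a j ≠ 0 ∧ ∃ s' ≤ t + 1,
          i ^ (t + 1 + 1 - s) * b ^ s = j * (i ^ (t + 1 - s') * b ^ s') := by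
        rcases Nat.eq_zero_or_pos s with rfl | hs0
        · exact ⟨i, hi, 0, Nat.zero_le _, by simp [pow_succ']⟩
        · refine ⟨b, hbne, s - 1, by omega, ?_⟩
          rw [show t + 1 + 1 - s = t + 1 - (s - 1) by omega, ← mul_assoc, hcm b, mul_assoc, ← pow_succ',
            show s - 1 + 1 = s by omega]
      obtain ⟨c, hc, hc1, hc2⟩ := ih s' hs'
      have hC : ∀ (j n : Gal'), a j ≠ 0 → c n ≠ 0 → (fun g => a g * g (c (g⁻¹ * (j * n)))) ≠ 0 := by
        intro j n h1 h2 h
        have := congrFun h j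
        simp only [inv_mul_cancel_left, Pi.zero_apply, mul_eq_zero, h1, false_or] at this
        exact h2 (j.injective (this.trans (map_zero j).symm))
      obtain ⟨ρ, h1, h2⟩ := exists_both (hC i _ hi hc1) (hC j _ hj hc2)
      have hρ : ρ ≠ 0 := fun h => h1 (by simp [h])
      refine ⟨_, opn_comp a c ρ ▸ hcomp _ hA _ hc ρ hρ, ?_, ?_⟩
      · refine fun h => h1 ?_
        have e : i ^ (t + 1 + 1) = i * i ^ (t + 1) := pow_succ' i _
        rw [← h, e]
        exact Finset.sum_congr rfl fun g _ => by rw [map_mul]; ring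
      · refine fun h => h2 ?_
        rw [← h, hidx]
        exact Finset.sum_congr rfl fun g _ => by rw [map_mul]; ring
  have hg : b * i⁻¹ ≠ 1 := fun h => hb (mul_inv_eq_one.1 h)
  obtain ⟨s, hs, hsm⟩ : ∃ s < Module.finrank F E, (b * i⁻¹) ^ s = m⁻¹ := by
    have hord : orderOf (b * i⁻¹) = Module.finrank F E :=
      (hr.eq_one_or_self_of_dvd _ (hrc ▸ orderOf_dvd_natCard _)).resolve_left (by simpa using hg)
    have hmem : m⁻¹ ∈ Subgroup.zpowers (b * i⁻¹) := mem_zpowers_of_prime_card hrc hg
    obtain ⟨s, hs, h⟩ := Finset.mem_image.1 (mem_zpowers_iff_mem_range_orderOf.1 hmem)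
    exact ⟨s, hord ▸ Finset.mem_range.1 hs, h⟩
  have hr1 : Module.finrank F E - 1 + 1 = Module.finrank F E := by have := hr.one_le; omega
  obtain ⟨c, hc, hc1, hc2⟩ := grow (Module.finrank F E - 1) s (by omega)
  rw [hr1] at hc1 hc2
  have hpow : i ^ Module.finrank F E = 1 := hrc ▸ pow_card_eq_one'
  have hidx : i ^ (Module.finrank F E - s) * b ^ s = m⁻¹ := by
    rw [← hsm, Commute.mul_pow (hcm b i⁻¹), hcm (b ^ s), inv_pow]
    congr 1
    refine eq_inv_of_mul_eq_one_left ?_
    rw [← pow_add, Nat.sub_add_cancel hs.le, hpow]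
  rw [hpow] at hc1
  rw [hidx] at hc2
  have hk := key c hc 1
  rw [mul_one] at hk
  exact hc2 ((map_eq_zero_iff m m.injective).1 ((mul_eq_zero.1 hk).resolve_left hc1))

end Cfsg.Agent.H58.ExtField
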