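import Cfsg.Agent.H58.ExtField.Count
import Cfsg.Agent.H58.ExtField.Sym
import Cfsg.Agent.H98.MaximalSp

/-!
# Overgroups of symplectic groups over an extension field of prime degree

`M` contains the `E`-linear isometries and an element that is not semilinear.  For a vector `v`, the stabiliser
of the line of `v` acts on it by semilinear maps unless all self-adjoint maps of the line give elements of `M`,
and then `M` has the transvections.  In the first case conjugate scalars of the line are Galois conjugates, but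
`c` and `c + 1` are conjugate for every scalar `c` outside the base field.
-/

set_option autoImplicit false
set_option linter.unusedSectionVars false
set_option linter.unusedVariables false

namespace Cfsg.Agent.H58.ExtField

open scoped Matrix

variable {m : ℕ} {F : Type*} [Field F] [Fintype F]
variable {E : Type*} [Field E] [Fintype E] [Algebra F E]

theorem trace_ext {a b : E} (h : ∀ c, Algebra.trace F E (a * c) = Algebra.trace F E (b * c)) : a = b :=
  sub_eq_zero.1 (eq_zero_of_trace (F := F) fun c => by rw [sub_mul, map_sub, h, sub_self])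

variable [Module E (Fin m ⊕ Fin m → F)] [IsScalarTower F E (Fin m ⊕ Fin m → F)]

/-- The form over the extension. -/
theorem exists_form (hsa : ∀ (c : E) (x y : (Fin m ⊕ Fin m → F)), (Cfsg.Agent.H2.sympBilin m F) (c • x) y = (Cfsg.Agent.H2.sympBilin m F) x (c • y)) :
    ∃ fE : (Fin m ⊕ Fin m → F) →ₗ[E] (Fin m ⊕ Fin m → F) →ₗ[E] E, ∀ x y c, Algebra.trace F E (fE x y * c) = (Cfsg.Agent.H2.sympBilin m F) (c • x) y := by
  choose f hf using fun (x y : (Fin m ⊕ Fin m → F)) => exists_trace_rep (F := F) (E := E)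
    ((Cfsg.Agent.H2.sympBilin m F).flip y ∘ₗ (LinearMap.toSpanSingleton E (Fin m ⊕ Fin m → F) x).restrictScalars F)
  have hf' : ∀ x y c, Algebra.trace F E (f x y * c) = (Cfsg.Agent.H2.sympBilin m F) (c • x) y := fun x y c => (hf x y c).symm
  refine ⟨LinearMap.mk₂ E f (fun x x' y => trace_ext (F := F) fun c => ?_) (fun d x y => trace_ext (F := F) fun c => ?_)
    (fun x y y' => trace_ext (F := F) fun c => ?_) (fun d x y => trace_ext (F := F) fun c => ?_), fun x y c => hf' x y c⟩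
  · rw [add_mul, map_add, hf', hf', hf', smul_add, map_add, LinearMap.add_apply]
  · rw [hf', smul_eq_mul, mul_comm d, mul_assoc, hf', mul_comm d, smul_smul, mul_comm c]
  · rw [add_mul, map_add, hf', hf', hf', map_add]
  · rw [hf', smul_eq_mul, mul_comm d, mul_assoc, hf', ← hsa, smul_smul]

/-- The hypotheses. -/
structure SCtx (fE : (Fin m ⊕ Fin m → F) →ₗ[E] (Fin m ⊕ Fin m → F) →ₗ[E] E) (M : Subgroup (GL (Fin m ⊕ Fin m) F)) : Prop where
  pos : 0 < m
  prime : (Module.finrank F E).Prime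
  le_sp : M ≤ Cfsg.spGL m F
  halt : ∀ (c : E) (x : (Fin m ⊕ Fin m → F)), (Cfsg.Agent.H2.sympBilin m F) (c • x) x = 0
  htr : ∀ x y c, Algebra.trace F E (fE x y * c) = (Cfsg.Agent.H2.sympBilin m F) (c • x) y
  lin : ∀ g ∈ Cfsg.spGL m F, ELin E g → g ∈ M
  notSemi : ∃ h ∈ M, ¬ Semi E h

variable {fE : (Fin m ⊕ Fin m → F) →ₗ[E] (Fin m ⊕ Fin m → F) →ₗ[E] E} {M : Subgroup (GL (Fin m ⊕ Fin m) F)}

theorem SCtx.beta_eq (H : SCtx fE M) (x y : (Fin m ⊕ Fin m → F)) : (Cfsg.Agent.H2.sympBilin m F) x y = Algebra.trace F E (fE x y) := by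
  conv_lhs => rw [← one_smul E x, ← H.htr, mul_one]

theorem SCtx.fE_self (H : SCtx fE M) (x : (Fin m ⊕ Fin m → F)) : fE x x = 0 :=
  eq_zero_of_trace (F := F) fun c => by rw [H.htr, H.halt]

theorem SCtx.fE_swap (H : SCtx fE M) (x y : (Fin m ⊕ Fin m → F)) : fE y x = -fE x y := by
  have := H.fE_self (x + y)
  simp only [map_add, LinearMap.add_apply, H.fE_self, zero_add, add_zero] at this
  linear_combination this

theorem SCtx.exists_ne (H : SCtx fE M) {x : (Fin m ⊕ Fin m → F)} (hx : x ≠ 0) : ∃ y, fE x y ≠ 0 := by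
  by_contra h
  push Not at h
  exact hx ((Cfsg.Agent.H2.sympBilin_nondegenerate m F).1 x fun y => by rw [H.beta_eq, h, map_zero])

theorem SCtx.exists_rep (H : SCtx fE M) (φ : (Fin m ⊕ Fin m → F) →ₗ[E] E) : ∃ u, ∀ z, φ z = fE z u := by
  haveI : Module.Finite E (Fin m ⊕ Fin m → F) := Module.Finite.of_finite
  have hinj : Function.Injective fE.flip := fun a b hab => by
    by_contra hne
    obtain ⟨y, hy⟩ := H.exists_ne (sub_ne_zero.2 hne)
    refine hy ?_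
    rw [H.fE_swap y (a - b), neg_eq_zero, map_sub, sub_eq_zero]
    exact LinearMap.congr_fun hab y
  obtain ⟨u, hu⟩ := (LinearMap.injective_iff_surjective_of_finrank_eq_finrank
    (f := fE.flip) (Subspace.dual_finrank_eq).symm).1 hinj φ
  exact ⟨u, fun z => by rw [← hu]; rfl⟩

theorem SCtx.exists_nonzero (H : SCtx fE M) : ∃ x : (Fin m ⊕ Fin m → F), x ≠ 0 :=
  haveI : Nonempty (Fin m ⊕ Fin m) := ⟨Sum.inl ⟨0, H.pos⟩⟩
  _root_.exists_ne 0

theorem SCtx.indep (H : SCtx fE M) (v : (Fin m ⊕ Fin m → F)) : ∃ w : (Fin m ⊕ Fin m → F), w ∉ Submodule.span E {v} := by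
  rcases eq_or_ne v 0 with rfl | hv
  · obtain ⟨x, hx⟩ := H.exists_nonzero
    exact ⟨x, by simpa using hx⟩
  · obtain ⟨y, hy⟩ := H.exists_ne hv
    refine ⟨y, fun h => hy ?_⟩
    obtain ⟨c, rfl⟩ := Submodule.mem_span_singleton.1 h
    rw [map_smul, H.fE_self, smul_zero]

theorem SCtx.mem_sp_of_fE (H : SCtx fE M) {g : GL (Fin m ⊕ Fin m) F}
    (h : ∀ x y, fE ((g : Matrix (Fin m ⊕ Fin m) (Fin m ⊕ Fin m) F) *ᵥ x) ((g : Matrix (Fin m ⊕ Fin m) (Fin m ⊕ Fin m) F) *ᵥ y) = fE x y) : g ∈ Cfsg.spGL m F :=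
  H98.mem_spGL.2 fun x y => by rw [H.beta_eq, H.beta_eq, h]

/-- Transvections over the extension. -/
noncomputable def ts (fE : (Fin m ⊕ Fin m → F) →ₗ[E] (Fin m ⊕ Fin m → F) →ₗ[E] E) (u : (Fin m ⊕ Fin m → F)) (c : E) : GL (Fin m ⊕ Fin m) F :=
  el u ((c • fE.flip u).restrictScalars F)

theorem SCtx.flip_self (H : SCtx fE M) (u : (Fin m ⊕ Fin m → F)) (c : E) : (c • fE.flip u) u = 0 := by
  rw [LinearMap.smul_apply, LinearMap.flip_apply, H.fE_self, smul_zero]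

theorem SCtx.ts_mulVec (H : SCtx fE M) (u : (Fin m ⊕ Fin m → F)) (c : E) (x : (Fin m ⊕ Fin m → F)) :
    (ts fE u c : Matrix (Fin m ⊕ Fin m) (Fin m ⊕ Fin m) F) *ᵥ x = x + (c * fE x u) • u := by
  rw [ts, el_mulVec (kills_lin (H.flip_self u c))]; rfl

theorem SCtx.ts_mem (H : SCtx fE M) (u : (Fin m ⊕ Fin m → F)) (c : E) : ts fE u c ∈ M := by
  refine H.lin _ (H.mem_sp_of_fE fun x y => ?_) (el_elin (H.flip_self u c))
  simp only [H.ts_mulVec, map_add, map_smul, LinearMap.add_apply, LinearMap.smul_apply, smul_eq_mul,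
    H.fE_self, H.fE_swap y u]
  ring

theorem SCtx.ts_elin (H : SCtx fE M) (u : (Fin m ⊕ Fin m → F)) (c : E) : ELin E (ts fE u c) := el_elin (H.flip_self u c)

/-- The elements of Siegel type. -/
noncomputable def sg (fE : (Fin m ⊕ Fin m → F) →ₗ[E] (Fin m ⊕ Fin m → F) →ₗ[E] E) (v u : (Fin m ⊕ Fin m → F)) : GL (Fin m ⊕ Fin m) F :=
  ts fE (u + v) 1 * ts fE u (-1) * ts fE v (-1)

theorem SCtx.sg_mulVec (H : SCtx fE M) {v u : (Fin m ⊕ Fin m → F)} (h : fE v u = 0) (x : (Fin m ⊕ Fin m → F)) :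
    (sg fE v u : Matrix (Fin m ⊕ Fin m) (Fin m ⊕ Fin m) F) *ᵥ x = x + fE x u • v + fE x v • u := by
  have h' : fE u v = 0 := by rw [H.fE_swap, h, neg_zero]
  simp only [sg, Units.val_mul, ← Matrix.mulVec_mulVec, H.ts_mulVec, map_add, map_smul, LinearMap.add_apply,
    LinearMap.smul_apply, smul_eq_mul, H.fE_self, h, h']
  module

theorem SCtx.sg_mem (H : SCtx fE M) (v u : (Fin m ⊕ Fin m → F)) : sg fE v u ∈ M :=
  mul_mem (mul_mem (H.ts_mem _ _) (H.ts_mem _ _)) (H.ts_mem _ _)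

/-- `M` is transitive on nonzero vectors by linear maps. -/
theorem SCtx.exists_trans (H : SCtx fE M) {x y : (Fin m ⊕ Fin m → F)} (hx : x ≠ 0) (hy : y ≠ 0) :
    ∃ g ∈ M, ELin E g ∧ (g : Matrix (Fin m ⊕ Fin m) (Fin m ⊕ Fin m) F) *ᵥ x = y := by
  have step : ∀ {a b : (Fin m ⊕ Fin m → F)}, fE a b ≠ 0 → ∃ g ∈ M, ELin E g ∧ (g : Matrix (Fin m ⊕ Fin m) (Fin m ⊕ Fin m) F) *ᵥ a = b := by
    intro a b hab
    refine ⟨_, H.ts_mem (b - a) (fE a b)⁻¹, H.ts_elin _ _, ?_⟩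
    rw [H.ts_mulVec, map_sub, H.fE_self, sub_zero, inv_mul_cancel₀ hab, one_smul, add_sub_cancel]
  obtain ⟨a, ha⟩ := H.exists_ne hx
  obtain ⟨b, hb⟩ := H.exists_ne hy
  obtain ⟨z, hz1, hz2⟩ : ∃ z, fE x z ≠ 0 ∧ fE y z ≠ 0 := by
    by_cases h1 : fE y a = 0
    · by_cases h2 : fE x b = 0
      · exact ⟨a + b, by rwa [map_add, h2, add_zero], by rwa [map_add, h1, zero_add]⟩
      · exact ⟨b, h2, hb⟩
    · exact ⟨a, ha, h1⟩
  obtain ⟨g, hg, hgl, hgx⟩ := step hz1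
  obtain ⟨k, hk, hkl, hky⟩ := step (a := z) (b := y) (by rw [H.fE_swap]; exact neg_ne_zero.2 hz2)
  exact ⟨k * g, mul_mem hk hg, fun c v => by
    rw [Units.val_mul, ← Matrix.mulVec_mulVec, ← Matrix.mulVec_mulVec, hgl, hkl],
    by rw [Units.val_mul, ← Matrix.mulVec_mulVec, hgx, hky]⟩

/-- Translations along the line of `v`. -/
theorem SCtx.exists_translate (H : SCtx fE M) {v w : (Fin m ⊕ Fin m → F)} (hw : w ∉ Submodule.span E {v}) (a : E) :
    ∃ g ∈ M, (∀ c : E, (g : Matrix (Fin m ⊕ Fin m) (Fin m ⊕ Fin m) F) *ᵥ (c • v) = c • v) ∧ (g : Matrix (Fin m ⊕ Fin m) (Fin m ⊕ Fin m) F) *ᵥ w = w + a • v := by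
  by_cases hwv : fE w v = 0
  · obtain ⟨φ, f1, f2⟩ := exists_efunctional hw
    obtain ⟨u, hu⟩ := H.exists_rep (a • φ)
    have hvu : fE v u = 0 := by
      rw [← hu, LinearMap.smul_apply, f2 v (Submodule.mem_span_singleton_self v), smul_zero]
    refine ⟨_, H.sg_mem v u, fun c => ?_, ?_⟩
    · simp [H.sg_mulVec hvu, map_smul, hvu, H.fE_self]
    · rw [H.sg_mulVec hvu, ← hu, LinearMap.smul_apply, f1, hwv, zero_smul, add_zero, smul_eq_mul, mul_one]
  · refine ⟨_, H.ts_mem v (a / fE w v), fun c => ?_, ?_⟩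
    · simp [H.ts_mulVec, map_smul, H.fE_self]
    · rw [H.ts_mulVec, div_mul_cancel₀ _ hwv]

theorem SCtx.card_le_orb (H : SCtx fE M) {x w y : (Fin m ⊕ Fin m → F)} (hx : x ≠ 0) (hy : y ∈ Orb M x w)
    (hyx : y ∉ Submodule.span E {x}) : Nat.card E ≤ Nat.card (Orb M x w) := by
  obtain ⟨h, hh, h1, h2⟩ := hy
  refine Nat.card_le_card_of_injective (fun a : E => (⟨y + a • x, ?_⟩ : Orb M x w)) ?_
  · obtain ⟨g, hg, hgx, hgy⟩ := H.exists_translate hyx a
    refine ⟨g * h, mul_mem hg hh, ?_, ?_⟩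
    · rw [Units.val_mul, ← Matrix.mulVec_mulVec, h1]
      simpa using hgx 1
    · rw [Units.val_mul, ← Matrix.mulVec_mulVec, h2, hgy]
  · intro a b hab
    have hab' := congrArg Subtype.val hab
    simp only [add_right_inj] at hab'
    exact smul_left_injective E hx hab'

/-- For every scalar outside the base field, the stabiliser of `v` moves `c v` out of the line of `v`. -/
theorem SCtx.exists_out (H : SCtx fE M) {c : E} (hc : c ∉ Set.range (algebraMap F E)) {v : (Fin m ⊕ Fin m → F)}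
    (hv : v ≠ 0) :
    ∃ h ∈ M, (h : Matrix (Fin m ⊕ Fin m) (Fin m ⊕ Fin m) F) *ᵥ v = v ∧ (h : Matrix (Fin m ⊕ Fin m) (Fin m ⊕ Fin m) F) *ᵥ (c • v) ∉ Submodule.span E {v} := by
  by_contra hcon
  push Not at hcon
  have hc0 : c ≠ 0 := fun e => hc ⟨0, by rw [e, map_zero]⟩
  have hsmall : Nat.card (Orb M v (c • v)) < Nat.card E := by
    have hsub : Orb M v (c • v) ⊆ (fun a : E => a • v) '' {a | a ≠ 0} := by
      rintro y ⟨h, hh, h1, h2⟩
      obtain ⟨a, ha⟩ := Submodule.mem_span_singleton.1 (h2 ▸ hcon h hh h1)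
      refine ⟨a, fun e => ?_, ha⟩
      rw [← ha, e, zero_smul] at h2
      exact smul_ne_zero hc0 hv (H98.gl_mulVec_injective h (h2.trans (Matrix.mulVec_zero _).symm))
    calc Nat.card (Orb M v (c • v)) ≤ Nat.card ((fun a : E => a • v) '' {a : E | a ≠ 0}) :=
          Nat.card_mono (Set.toFinite _) hsub
      _ ≤ Nat.card {a : E | a ≠ 0} := Nat.card_image_le (Set.toFinite _)
      _ < Nat.card E := by
          refine Finite.card_subtype_lt (x := (0 : E)) ?_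
          exact fun h => h rfl
  obtain ⟨h, hh, hns⟩ := H.notSemi
  refine hns (semi_of_one H.prime h hc ?_)
  let T : (Fin m ⊕ Fin m → F) →ₗ[F] (Fin m ⊕ Fin m → F) := Matrix.mulVecLin (h : Matrix (Fin m ⊕ Fin m) (Fin m ⊕ Fin m) F) ∘ₗ
    (DistribSMul.toLinearMap F (Fin m ⊕ Fin m → F) c) ∘ₗ Matrix.mulVecLin ((h⁻¹ : GL (Fin m ⊕ Fin m) F) : Matrix (Fin m ⊕ Fin m) (Fin m ⊕ Fin m) F)
  have hT : ∀ y, T y = (h : Matrix (Fin m ⊕ Fin m) (Fin m ⊕ Fin m) F) *ᵥ (c • (((h⁻¹ : GL (Fin m ⊕ Fin m) F) : Matrix (Fin m ⊕ Fin m) (Fin m ⊕ Fin m) F) *ᵥ y)) := fun y => rfl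
  obtain ⟨d, hd⟩ := eq_scalar_of_line (E := E) (T := T) H.indep fun y => by
    rcases eq_or_ne y 0 with rfl | hy
    · rw [map_zero]; exact zero_mem _
    have hx : ((h⁻¹ : GL (Fin m ⊕ Fin m) F) : Matrix (Fin m ⊕ Fin m) (Fin m ⊕ Fin m) F) *ᵥ y ≠ 0 := fun e => hy (by
      rw [← H98.gl_mulVec_inv h y, e, Matrix.mulVec_zero])
    obtain ⟨g, hg, hgl, hgv⟩ := H.exists_trans hv hx
    have h1 := orb_card (h * g) (mul_mem hh hg) v (c • v)
    rw [Units.val_mul, ← Matrix.mulVec_mulVec, ← Matrix.mulVec_mulVec, hgl, hgv, H98.gl_mulVec_inv] at h1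
    by_contra hout
    have := H.card_le_orb (w := T y) hy ⟨1, one_mem _, by simp, by simp⟩ hout
    rw [hT, h1] at this
    omega
  refine ⟨d, fun x => ?_⟩
  have := hd ((h : Matrix (Fin m ⊕ Fin m) (Fin m ⊕ Fin m) F) *ᵥ x)
  rwa [hT, H98.gl_inv_mulVec] at this

/-- Every scalar off the base field is conjugate to its translate by one. -/
theorem SCtx.fusion (H : SCtx fE M) {c : E} (hc : c ∉ Set.range (algebraMap F E)) {v : (Fin m ⊕ Fin m → F)} (hv : v ≠ 0) :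
    ∃ h ∈ M, (h : Matrix (Fin m ⊕ Fin m) (Fin m ⊕ Fin m) F) *ᵥ v = v ∧ (h : Matrix (Fin m ⊕ Fin m) (Fin m ⊕ Fin m) F) *ᵥ (c • v) = (c + 1) • v := by
  obtain ⟨g, hg, hgv, hw⟩ := H.exists_out hc hv
  obtain ⟨t, ht, htv, htw⟩ := H.exists_translate hw 1
  refine ⟨g⁻¹ * (t * g), mul_mem (inv_mem hg) (mul_mem ht hg), ?_, ?_⟩
  · have := htv 1
    rw [one_smul] at this
    rw [Units.val_mul, Units.val_mul, ← Matrix.mulVec_mulVec, ← Matrix.mulVec_mulVec, hgv, this]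
    conv_lhs => rw [← hgv, H98.gl_inv_mulVec]
  · rw [Units.val_mul, Units.val_mul, ← Matrix.mulVec_mulVec, ← Matrix.mulVec_mulVec, htw, one_smul]
    conv_lhs => arg 2; arg 2; rw [← hgv]
    rw [← Matrix.mulVec_add, H98.gl_inv_mulVec, add_smul, one_smul]

/-! ### The self-adjoint maps at a line -/

/-- The functional `z ↦ ψ (fE z v)`. -/
noncomputable def vcomp (fE : (Fin m ⊕ Fin m → F) →ₗ[E] (Fin m ⊕ Fin m → F) →ₗ[E] E) (v : (Fin m ⊕ Fin m → F)) (ψ : E →ₗ[F] E) : (Fin m ⊕ Fin m → F) →ₗ[F] E :=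
  ψ ∘ₗ (fE.flip v).restrictScalars F

theorem vcomp_apply (v : (Fin m ⊕ Fin m → F)) (ψ : E →ₗ[F] E) (z : (Fin m ⊕ Fin m → F)) : vcomp fE v ψ z = ψ (fE z v) := rfl

theorem SCtx.kills_vcomp (H : SCtx fE M) (v : (Fin m ⊕ Fin m → F)) (ψ : E →ₗ[F] E) : Kills (vcomp fE v ψ) v := fun c => by
  rw [vcomp_apply, map_smul, LinearMap.smul_apply, H.fE_self, smul_zero, map_zero]

theorem SCtx.conj_vcomp (H : SCtx fE M) {v : (Fin m ⊕ Fin m → F)} {g : GL (Fin m ⊕ Fin m) F} (hg : g ∈ M) {A A' : E →ₗ[F] E}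
    (hA : ∀ x : E, (g : Matrix (Fin m ⊕ Fin m) (Fin m ⊕ Fin m) F) *ᵥ (x • v) = A x • v)
    (hA' : ∀ x y : E, Algebra.trace F E (A x * y) = Algebra.trace F E (x * A' y)) {ψ : E →ₗ[F] E}
    (hψ : el v (vcomp fE v ψ) ∈ M) : el v (vcomp fE v (A ∘ₗ ψ ∘ₗ A')) ∈ M := by
  refine (H98.gl_ext fun z => ?_ : el v (vcomp fE v (A ∘ₗ ψ ∘ₗ A')) = g * el v (vcomp fE v ψ) * g⁻¹) ▸
    mul_mem (mul_mem hg hψ) (inv_mem hg)
  have key : fE (((g⁻¹ : GL (Fin m ⊕ Fin m) F) : Matrix (Fin m ⊕ Fin m) (Fin m ⊕ Fin m) F) *ᵥ z) v = A' (fE z v) := trace_ext (F := F) fun c => by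
    have hsp := H98.mem_spGL.1 (H.le_sp hg) (((g⁻¹ : GL (Fin m ⊕ Fin m) F) : Matrix (Fin m ⊕ Fin m) (Fin m ⊕ Fin m) F) *ᵥ z) (c • v)
    rw [H98.gl_mulVec_inv, hA] at hsp
    rw [mul_comm _ c, ← smul_eq_mul c, ← map_smul, ← H.beta_eq, ← hsp, H.beta_eq, map_smul, smul_eq_mul,
      hA', mul_comm]
  simp only [Units.val_mul, ← Matrix.mulVec_mulVec, el_mulVec (H.kills_vcomp v _), Matrix.mulVec_add,
    H98.gl_mulVec_inv, hA, vcomp_apply, LinearMap.comp_apply, key]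

theorem exists_sq_sum (f : F) : ∃ a b : F, a * a + b * b = f := by
  by_cases h2 : ringChar F = 2
  · obtain ⟨a, ha⟩ := FiniteField.isSquare_of_char_two h2 f
    exact ⟨a, 0, by rw [ha]; ring⟩
  · obtain ⟨a, b, hab⟩ := FiniteField.exists_root_sum_quadratic (R := F) (f := Polynomial.X ^ 2)
      (g := Polynomial.X ^ 2 - Polynomial.C f) (Polynomial.degree_X_pow 2)
      (Polynomial.degree_X_pow_sub_C (by decide) _) (FiniteField.odd_card_of_char_ne_two h2)
    simp only [Polynomial.eval_pow, Polynomial.eval_X, Polynomial.eval_sub, Polynomial.eval_C] at hab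
    exact ⟨a, b, by linear_combination hab⟩

/-- The maps whose elements at `v` lie in `M`. -/
noncomputable def SCtx.wspace (H : SCtx fE M) {v : (Fin m ⊕ Fin m → F)} (hv : v ≠ 0) : Submodule F (E →ₗ[F] E) where
  carrier := {ψ | el v (vcomp fE v ψ) ∈ M}
  zero_mem' := by
    show el v (vcomp fE v 0) ∈ M
    rw [show vcomp fE v (0 : E →ₗ[F] E) = 0 from LinearMap.zero_comp _, el_zero]
    exact one_mem _
  add_mem' := fun {a b} ha hb => by
    show el v (vcomp fE v (a + b)) ∈ M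
    rw [show vcomp fE v (a + b) = vcomp fE v a + vcomp fE v b from LinearMap.add_comp _ _ _,
      ← el_mul (H.kills_vcomp v a) (H.kills_vcomp v b)]
    exact mul_mem ha hb
  smul_mem' := fun f ψ hψ => by
    have sq : ∀ a : F, el v (vcomp fE v ((a * a) • ψ)) ∈ M := by
      intro a
      rcases eq_or_ne a 0 with rfl | ha
      · rw [zero_mul, zero_smul, show vcomp fE v (0 : E →ₗ[F] E) = 0 from LinearMap.zero_comp _, el_zero]
        exact one_mem _
      obtain ⟨g, hg, hgl, hgv⟩ := H.exists_trans hv (smul_ne_zero ha hv)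
      have := H.conj_vcomp hg (A := a • LinearMap.id) (A' := a • LinearMap.id)
        (fun x => by rw [hgl, hgv]; simp [smul_comm x a v])
        (fun x y => by simp) hψ
      convert this using 3
      exact LinearMap.ext fun x => by simp [smul_smul]
    obtain ⟨a, b, rfl⟩ := exists_sq_sum f
    show el v (vcomp fE v ((a * a + b * b) • ψ)) ∈ M
    rw [add_smul, show vcomp fE v ((a * a) • ψ + (b * b) • ψ) = vcomp fE v ((a * a) • ψ) + vcomp fE v ((b * b) • ψ)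
      from LinearMap.add_comp _ _ _, ← el_mul (H.kills_vcomp v _) (H.kills_vcomp v _)]
    exact mul_mem (sq a) (sq b)

theorem SCtx.mulLeft_mem (H : SCtx fE M) {v : (Fin m ⊕ Fin m → F)} (hv : v ≠ 0) (c : E) : LinearMap.mulLeft F c ∈ H.wspace hv := by
  show el v (vcomp fE v (LinearMap.mulLeft F c)) ∈ M
  exact H.ts_mem v c

/-- Either all transvections are in `M` or the line of `v` has no extra self-adjoint maps. -/
def NoExtra (H : SCtx fE M) {v : (Fin m ⊕ Fin m → F)} (hv : v ≠ 0) : Prop :=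
  ∃ ψ : E →ₗ[F] E, (∀ x y, Algebra.trace F E (ψ x * y) = Algebra.trace F E (x * ψ y)) ∧ ψ ∉ H.wspace hv

theorem SCtx.sp_le_of_extra (H : SCtx fE M) {v : (Fin m ⊕ Fin m → F)} (hv : v ≠ 0) (h : ¬ NoExtra H hv) : Cfsg.spGL m F ≤ M := by
  simp only [NoExtra, not_exists, not_and, not_not] at h
  refine H98.spGL_le_of_spTrans M fun x t => ?_
  rcases eq_or_ne x 0 with rfl | hx
  · rw [H98.spTrans_zero_vec]; exact one_mem _
  have hmem : el v (vcomp fE v ((t • Algebra.trace F E).smulRight (1 : E))) ∈ M :=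
    h _ fun a b => by
      simp only [LinearMap.smulRight_apply, LinearMap.smul_apply, smul_mul_assoc, mul_smul_comm, one_mul, mul_one,
        map_smul, smul_eq_mul]
      ring
  have hvt : H98.spTrans v t ∈ M := by
    refine (H98.gl_ext fun z => ?_ : H98.spTrans v t = _) ▸ hmem
    rw [el_mulVec (H.kills_vcomp v _), H98.spTrans_mulVec, vcomp_apply, LinearMap.smulRight_apply,
      LinearMap.smul_apply, smul_assoc, one_smul, ← H.beta_eq, smul_eq_mul]
  obtain ⟨g, hg, -, hgv⟩ := H.exists_trans hv hx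
  rw [← hgv, ← H98.conj_spTrans (H.le_sp hg)]
  exact mul_mem (mul_mem hg hvt) (inv_mem hg)

/-- The stabiliser of `v` and of its line acts by field automorphisms. -/
theorem SCtx.line_aut (H : SCtx fE M) {v : (Fin m ⊕ Fin m → F)} (hv : v ≠ 0) (hno : NoExtra H hv) {g : GL (Fin m ⊕ Fin m) F}
    (hg : g ∈ M) (h1 : (g : Matrix (Fin m ⊕ Fin m) (Fin m ⊕ Fin m) F) *ᵥ v = v) (h2 : ∀ c : E, (g : Matrix (Fin m ⊕ Fin m) (Fin m ⊕ Fin m) F) *ᵥ (c • v) ∈ Submodule.span E {v}) :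
    ∃ A : E →ₐ[F] E, ∀ c : E, (g : Matrix (Fin m ⊕ Fin m) (Fin m ⊕ Fin m) F) *ᵥ (c • v) = A c • v := by
  obtain ⟨ψ0, hsym, hψ0⟩ := hno
  choose A hA using fun c => Submodule.mem_span_singleton.1 (h2 c)
  have hinj : Function.Injective fun c : E => c • v := smul_left_injective E hv
  let AL : E →ₗ[F] E :=
    { toFun := A
      map_add' := fun a b => hinj (by
        show A (a + b) • v = (A a + A b) • v
        rw [add_smul, hA, hA, hA, add_smul, Matrix.mulVec_add])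
      map_smul' := fun t a => hinj (by
        show A (t • a) • v = (t • A a) • v
        rw [hA, smul_assoc, smul_assoc, hA, Matrix.mulVec_smul]) }
  let G : Set (E →ₗ[F] E) := {B | ∃ k ∈ M, ∀ x : E, (k : Matrix (Fin m ⊕ Fin m) (Fin m ⊕ Fin m) F) *ᵥ (x • v) = B x • v}
  obtain ⟨c, σ, hσ⟩ := semilinear_of_invariant H.prime (H.wspace hv) (H.mulLeft_mem hv) hsym hψ0 G
    (fun B hB B' hB' ρ hρ => by
      obtain ⟨k, hk, hkB⟩ := hB
      obtain ⟨k', hk', hkB'⟩ := hB'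
      obtain ⟨s, hs, hsl, hsv⟩ := H.exists_trans hv (smul_ne_zero hρ hv)
      refine ⟨k * (s * k'), mul_mem hk (mul_mem hs hk'), fun x => ?_⟩
      simp only [Units.val_mul, ← Matrix.mulVec_mulVec, LinearMap.comp_apply, LinearMap.mulLeft_apply]
      rw [hkB', hsl, hsv, smul_smul, mul_comm, hkB])
    (fun B hB τ hτ => by
      obtain ⟨k, hk, hkB⟩ := hB
      obtain ⟨s, hs, hsl, hsv⟩ := H.exists_trans hv (smul_ne_zero hτ hv)
      refine ⟨s * k, mul_mem hs hk, fun x => ?_⟩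
      simp only [Units.val_mul, ← Matrix.mulVec_mulVec, LinearMap.comp_apply, LinearMap.mulLeft_apply]
      rw [hkB, hsl, hsv, smul_smul, mul_comm])
    (fun B hB B' hB' ψ hψ => by
      obtain ⟨k, hk, hkB⟩ := hB
      exact H.conj_vcomp hk hkB hB' hψ)
    (A := AL) ⟨g, hg, fun x => (hA x).symm⟩
  have hc : c = 1 := by
    have := hσ 1
    rw [map_one σ, mul_one] at this
    refine hinj ?_
    show c • v = (1 : E) • v
    rw [← this]
    show A 1 • v = _
    rw [hA, one_smul, h1]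
  refine ⟨σ.toAlgHom, fun x => ?_⟩
  have e : A x = σ x := by
    have := hσ x
    rw [hc, one_mul] at this
    exact this
  rw [← hA, e]; rfl

/-- A `p`-group fixing the line of `v` pointwise, with the line as its fixed points. -/
def qGroup (H : SCtx fE M) (v : (Fin m ⊕ Fin m → F)) : Subgroup (GL (Fin m ⊕ Fin m) F) where
  carrier := {g | g ∈ M ∧ (∀ a : E, (g : Matrix (Fin m ⊕ Fin m) (Fin m ⊕ Fin m) F) *ᵥ (a • v) = a • v) ∧
    (∀ z, fE z v = 0 → (g : Matrix (Fin m ⊕ Fin m) (Fin m ⊕ Fin m) F) *ᵥ z - z ∈ Submodule.span E {v}) ∧ ∀ z, fE ((g : Matrix (Fin m ⊕ Fin m) (Fin m ⊕ Fin m) F) *ᵥ z - z) v = 0}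
  mul_mem' := by
    rintro g h ⟨g0, g1, g2, g3⟩ ⟨h0, h1, h2, h3⟩
    have e : ∀ z, ((g * h : GL (Fin m ⊕ Fin m) F) : Matrix (Fin m ⊕ Fin m) (Fin m ⊕ Fin m) F) *ᵥ z - z =
        ((g : Matrix (Fin m ⊕ Fin m) (Fin m ⊕ Fin m) F) *ᵥ ((h : Matrix (Fin m ⊕ Fin m) (Fin m ⊕ Fin m) F) *ᵥ z) - (h : Matrix (Fin m ⊕ Fin m) (Fin m ⊕ Fin m) F) *ᵥ z) + ((h : Matrix (Fin m ⊕ Fin m) (Fin m ⊕ Fin m) F) *ᵥ z - z) := fun z => by
      rw [Units.val_mul, ← Matrix.mulVec_mulVec]; abel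
    refine ⟨mul_mem g0 h0, fun a => by rw [Units.val_mul, ← Matrix.mulVec_mulVec, h1, g1], fun z hz => ?_, fun z => ?_⟩
    · rw [e]
      refine add_mem (g2 _ ?_) (h2 z hz)
      have := h3 z
      rwa [map_sub, LinearMap.sub_apply, hz, sub_zero] at this
    · rw [e, map_add, LinearMap.add_apply, g3, h3, add_zero]
  one_mem' := ⟨one_mem _, fun a => by simp, fun z _ => by simp, fun z => by simp⟩
  inv_mem' := by
    rintro g ⟨g0, g1, g2, g3⟩
    have e : ∀ z, ((g⁻¹ : GL (Fin m ⊕ Fin m) F) : Matrix (Fin m ⊕ Fin m) (Fin m ⊕ Fin m) F) *ᵥ z - z =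
        -((g : Matrix (Fin m ⊕ Fin m) (Fin m ⊕ Fin m) F) *ᵥ (((g⁻¹ : GL (Fin m ⊕ Fin m) F) : Matrix (Fin m ⊕ Fin m) (Fin m ⊕ Fin m) F) *ᵥ z) -
          ((g⁻¹ : GL (Fin m ⊕ Fin m) F) : Matrix (Fin m ⊕ Fin m) (Fin m ⊕ Fin m) F) *ᵥ z) := fun z => by
      rw [H98.gl_mulVec_inv]; abel
    refine ⟨inv_mem g0, fun a => by conv_lhs => rw [← g1 a, H98.gl_inv_mulVec], fun z hz => ?_, fun z => ?_⟩
    · rw [e]
      refine neg_mem (g2 _ ?_)
      have := g3 (((g⁻¹ : GL (Fin m ⊕ Fin m) F) : Matrix (Fin m ⊕ Fin m) (Fin m ⊕ Fin m) F) *ᵥ z)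
      rwa [H98.gl_mulVec_inv, map_sub, LinearMap.sub_apply, hz, zero_sub, neg_eq_zero] at this
    · rw [e, map_neg, LinearMap.neg_apply, g3, neg_zero]

theorem isPGroup_qGroup {p : ℕ} [CharP F p] (H : SCtx fE M) (v : (Fin m ⊕ Fin m → F)) : IsPGroup p (qGroup H v) := by
  rintro ⟨g, hg⟩
  refine ⟨2, Subtype.ext ?_⟩
  rw [SubgroupClass.coe_pow, OneMemClass.coe_one]
  show g ^ p ^ 2 = 1
  have iter : ∀ (k : GL (Fin m ⊕ Fin m) F) (z : (Fin m ⊕ Fin m → F)) (n : ℕ),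
      (k : Matrix (Fin m ⊕ Fin m) (Fin m ⊕ Fin m) F) *ᵥ ((k : Matrix (Fin m ⊕ Fin m) (Fin m ⊕ Fin m) F) *ᵥ z - z) = (k : Matrix (Fin m ⊕ Fin m) (Fin m ⊕ Fin m) F) *ᵥ z - z →
      ((k ^ n : GL (Fin m ⊕ Fin m) F) : Matrix (Fin m ⊕ Fin m) (Fin m ⊕ Fin m) F) *ᵥ z = z + n • ((k : Matrix (Fin m ⊕ Fin m) (Fin m ⊕ Fin m) F) *ᵥ z - z) := by
    intro k z n hfix
    induction n with
    | zero => simp
    | succ n ih =>
      rw [pow_succ', Units.val_mul, ← Matrix.mulVec_mulVec, ih, Matrix.mulVec_add, Matrix.mulVec_smul, hfix,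
        succ_nsmul']
      abel
  have hp : ∀ d : (Fin m ⊕ Fin m → F), p • d = 0 := fun d => by
    rw [← Nat.cast_smul_eq_nsmul F, CharP.cast_eq_zero, zero_smul]
  have h1 : ∀ z, fE z v = 0 → ((g ^ p : GL (Fin m ⊕ Fin m) F) : Matrix (Fin m ⊕ Fin m) (Fin m ⊕ Fin m) F) *ᵥ z = z := fun z hz => by
    obtain ⟨a, ha⟩ := Submodule.mem_span_singleton.1 (hg.2.2.1 z hz)
    rw [iter g z p (by rw [← ha, hg.2.1]), hp, add_zero]
  refine H98.gl_ext fun z => ?_
  rw [pow_two, pow_mul, iter (g ^ p) z p (h1 _ ((pow_mem hg p : g ^ p ∈ qGroup H v).2.2.2 z)), hp, add_zero,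
    Units.val_one, Matrix.one_mulVec]

theorem SCtx.ts_mem_q (H : SCtx fE M) (v : (Fin m ⊕ Fin m → F)) (c : E) : ts fE v c ∈ qGroup H v := by
  refine ⟨H.ts_mem v c, fun a => ?_, fun z hz => ?_, fun z => ?_⟩
  · simp [H.ts_mulVec, map_smul, H.fE_self]
  · simp [H.ts_mulVec, hz]
  · simp [H.ts_mulVec, map_smul, H.fE_self]

theorem SCtx.sg_mem_q (H : SCtx fE M) {v u : (Fin m ⊕ Fin m → F)} (h : fE v u = 0) : sg fE v u ∈ qGroup H v := by
  have h' : fE u v = 0 := by rw [H.fE_swap, h, neg_zero]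
  refine ⟨H.sg_mem v u, fun a => ?_, fun z hz => ?_, fun z => ?_⟩
  · simp [H.sg_mulVec h, map_smul, H.fE_self, h]
  · rw [H.sg_mulVec h, hz, zero_smul, add_zero, add_sub_cancel_left]
    exact Submodule.smul_mem _ _ (Submodule.mem_span_singleton_self v)
  · simp [H.sg_mulVec h, map_smul, map_add, H.fE_self, h']

/-- Conjugate scalars of the line are Galois conjugate. -/
theorem SCtx.conj_aut (H : SCtx fE M) {v : (Fin m ⊕ Fin m → F)} (hv : v ≠ 0) (hno : NoExtra H hv) {c c' : E}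
    (hc : c ∉ Set.range (algebraMap F E)) (hc' : c' ∉ Set.range (algebraMap F E))
    {h : GL (Fin m ⊕ Fin m) F} (hh : h ∈ M) (h1 : (h : Matrix (Fin m ⊕ Fin m) (Fin m ⊕ Fin m) F) *ᵥ v = v)
    (h2 : (h : Matrix (Fin m ⊕ Fin m) (Fin m ⊕ Fin m) F) *ᵥ (c • v) = c' • v) : ∃ A : E →ₐ[F] E, A c = c' := by
  classical
  obtain ⟨p, hp⟩ := CharP.exists F
  have : Fact p.Prime := ⟨CharP.char_is_prime F p⟩
  set G0 : Subgroup (GL (Fin m ⊕ Fin m) F) := M ⊓ vecStab (Set.range fun a : E => a • v) with hG0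
  set Mvl : E → Subgroup (GL (Fin m ⊕ Fin m) F) := fun a => M ⊓ vecStab {v, a • v} with hMvl
  have hG0le : ∀ a, G0 ≤ Mvl a := fun a g hg => ⟨hg.1, by
    rintro x (rfl | rfl)
    · exact hg.2 x ⟨1, one_smul E x⟩
    · exact hg.2 _ ⟨a, rfl⟩⟩
  have hT0 : qGroup H v ≤ G0 := by
    intro g hg
    refine ⟨hg.1, ?_⟩
    rintro _ ⟨a, rfl⟩
    exact hg.2.1 a
  obtain ⟨P, hP⟩ := ((isPGroup_qGroup H (p := p) v).of_equiv
    (Subgroup.subgroupOfEquivOfLe hT0).symm).exists_le_sylow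
  set U : Subgroup (GL (Fin m ⊕ Fin m) F) := (P : Subgroup G0).map G0.subtype with hU
  have hUG : U ≤ G0 := Subgroup.map_subtype_le _
  have hUp : IsPGroup p U := P.2.map _
  have hTU : qGroup H v ≤ U := fun g hg => ⟨⟨g, hT0 hg⟩, hP hg, rfl⟩
  have hUmax : ∀ T : Subgroup (GL (Fin m ⊕ Fin m) F), IsPGroup p T → T ≤ G0 → U ≤ T → T = U := by
    intro T hTp hTG hUT
    have := P.3 (Q := T.subgroupOf G0) (hTp.of_equiv (Subgroup.subgroupOfEquivOfLe hTG).symm)
      (fun x hx => hUT ⟨x, hx, rfl⟩)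
    rw [hU, ← this, Subgroup.map_subgroupOf_eq_of_le hTG]
  -- the fixed points of `U` form the line of `v`
  have hfix : ∀ x, (∀ u ∈ U, (u : Matrix (Fin m ⊕ Fin m) (Fin m ⊕ Fin m) F) *ᵥ x = x) → x ∈ Submodule.span E {v} := by
    intro x hx
    by_contra hxv
    have h1 := hx _ (hTU (H.ts_mem_q v 1))
    rw [H.ts_mulVec, one_mul, add_eq_left] at h1
    have hxv0 : fE x v = 0 := (smul_eq_zero.1 h1).resolve_right hv
    obtain ⟨φ, f1, f2⟩ := exists_efunctional hxv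
    obtain ⟨u, hu⟩ := H.exists_rep φ
    have hvu : fE v u = 0 := by rw [← hu]; exact f2 v (Submodule.mem_span_singleton_self v)
    have h2 := hx _ (hTU (H.sg_mem_q hvu))
    rw [H.sg_mulVec hvu, ← hu x, f1, one_smul, hxv0, zero_smul, add_zero, add_eq_left] at h2
    exact hv h2
  have hstab : ∀ t : GL (Fin m ⊕ Fin m) F, (∀ u ∈ U, t⁻¹ * u * t ∈ U) →
      ∀ a : E, (t : Matrix (Fin m ⊕ Fin m) (Fin m ⊕ Fin m) F) *ᵥ (a • v) ∈ Submodule.span E {v} := by
    intro t ht a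
    refine hfix _ fun u hu => ?_
    have := (hUG (ht u hu)).2 (a • v) ⟨a, rfl⟩
    calc (u : Matrix (Fin m ⊕ Fin m) (Fin m ⊕ Fin m) F) *ᵥ ((t : Matrix (Fin m ⊕ Fin m) (Fin m ⊕ Fin m) F) *ᵥ (a • v))
        = (t : Matrix (Fin m ⊕ Fin m) (Fin m ⊕ Fin m) F) *ᵥ (((t⁻¹ * u * t : GL (Fin m ⊕ Fin m) F) : Matrix (Fin m ⊕ Fin m) (Fin m ⊕ Fin m) F) *ᵥ (a • v)) := by
          simp only [Units.val_mul, ← Matrix.mulVec_mulVec, H98.gl_mulVec_inv]
      _ = _ := by rw [this]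
  -- `U` is a maximal `p`-subgroup of each two point stabiliser
  have hmax : ∀ a : E, a ∉ Set.range (algebraMap F E) →
      ∀ T : Subgroup (GL (Fin m ⊕ Fin m) F), IsPGroup p T → T ≤ Mvl a → U ≤ T → T = U := by
    intro a ha T hTp hTM hUT
    by_contra hne
    haveI := hTp.isNilpotent
    have hlt : U.subgroupOf T < ⊤ := lt_top_iff_ne_top.2 fun htop =>
      hne (le_antisymm (fun x hx => Subgroup.mem_subgroupOf.1 (htop ▸ Subgroup.mem_top (⟨x, hx⟩ : T))) hUT)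
    obtain ⟨t, ht, htU⟩ := SetLike.exists_of_lt (Group.normalizerCondition_of_isNilpotent _ hlt)
    have htn : ∀ u ∈ U, (t : GL (Fin m ⊕ Fin m) F)⁻¹ * u * t ∈ U := fun u hu =>
      (Subgroup.mem_normalizer_iff''.1 ht ⟨u, hUT hu⟩).1 hu
    obtain ⟨A, hA⟩ := H.line_aut hv hno (hTM t.2).1 ((hTM t.2).2 v (Or.inl rfl)) (hstab _ htn)
    have hAa : A a = a := smul_left_injective E hv (by
      show A a • v = a • v
      rw [← hA]; exact (hTM t.2).2 _ (Or.inr rfl))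
    have hA1 : ∀ x : E, A x = x := by
      rcases (Subalgebra.isSimpleOrder_of_finrank_prime F E H.prime).eq_bot_or_eq_top
        (AlgHom.equalizer A (AlgHom.id F E)) with h0 | h0
      · exact absurd (Algebra.mem_bot.1 (h0 ▸ (hAa : a ∈ AlgHom.equalizer A (AlgHom.id F E)) :
          a ∈ (⊥ : Subalgebra F E))) ha
      · exact fun x => (h0 ▸ Algebra.mem_top : x ∈ AlgHom.equalizer A (AlgHom.id F E))
    have htG : (t : GL (Fin m ⊕ Fin m) F) ∈ G0 := ⟨(hTM t.2).1, by rintro _ ⟨x, rfl⟩; rw [hA, hA1]⟩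
    have := hUmax (U ⊔ Subgroup.zpowers (t : GL (Fin m ⊕ Fin m) F))
      (hTp.to_le (sup_le hUT ((Subgroup.zpowers_le).2 t.2)))
      (sup_le hUG ((Subgroup.zpowers_le).2 htG)) le_sup_left
    exact htU (Subgroup.mem_subgroupOf.2 (this ▸ Subgroup.mem_sup_right (Subgroup.mem_zpowers _)))
  set N := Mvl c'
  have hUN : U ≤ N := hUG.trans (hG0le c')
  let P1 : Sylow p N :=
    { toSubgroup := U.subgroupOf N
      isPGroup' := hUp.of_equiv (Subgroup.subgroupOfEquivOfLe hUN).symm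
      is_maximal' := fun {Q} hQ hle => by
        have := hmax c' hc' (Q.map N.subtype) (hQ.map _) (Subgroup.map_subtype_le _)
          (fun x hx => ⟨⟨x, hUN hx⟩, hle hx, rfl⟩)
        rw [← this]
        exact (Subgroup.comap_map_eq_self_of_injective N.subtype_injective Q).symm }
  set U' := U.map (MulAut.conj h).toMonoidHom with hU'
  have hU'N : U' ≤ N := by
    rintro _ ⟨u, hu, rfl⟩
    refine ⟨M.mul_mem (M.mul_mem hh (hUG hu).1) (M.inv_mem hh), ?_⟩
    have hconj : ∀ x : (Fin m ⊕ Fin m → F), (u : Matrix (Fin m ⊕ Fin m) (Fin m ⊕ Fin m) F) *ᵥ x = x →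
        ((h * u * h⁻¹ : GL (Fin m ⊕ Fin m) F) : Matrix (Fin m ⊕ Fin m) (Fin m ⊕ Fin m) F) *ᵥ ((h : Matrix (Fin m ⊕ Fin m) (Fin m ⊕ Fin m) F) *ᵥ x) =
          (h : Matrix (Fin m ⊕ Fin m) (Fin m ⊕ Fin m) F) *ᵥ x := fun x hx => by
      simp only [Units.val_mul, ← Matrix.mulVec_mulVec, H98.gl_inv_mulVec, hx]
    intro x hx
    rw [MulEquiv.coe_toMonoidHom, MulAut.conj_apply]
    rcases hx with rfl | rfl
    · conv_lhs => rw [← h1]
      rw [hconj x ((hUG hu).2 x ⟨1, one_smul E x⟩), h1]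
    · rw [← h2]
      exact hconj _ ((hUG hu).2 _ ⟨c, rfl⟩)
  obtain ⟨P2, hP2⟩ := ((hUp.map (MulAut.conj h).toMonoidHom).of_equiv
    (Subgroup.subgroupOfEquivOfLe hU'N).symm).exists_le_sylow
  have hP2eq : U'.subgroupOf N = (P2 : Subgroup N) := by
    refine Subgroup.eq_of_le_of_card_ge hP2 (le_of_eq ?_)
    rw [P2.card_eq_multiplicity, ← P1.card_eq_multiplicity]
    show Nat.card (U.subgroupOf N) = _
    rw [Nat.card_congr (Subgroup.subgroupOfEquivOfLe hUN).toEquiv,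
      Nat.card_congr (Subgroup.subgroupOfEquivOfLe hU'N).toEquiv, hU',
      ← Nat.card_congr (U.equivMapOfInjective (MulAut.conj h).toMonoidHom (MulAut.conj h).injective).toEquiv]
  obtain ⟨g, hg⟩ := MulAction.exists_smul_eq N P2 P1
  set t : GL (Fin m ⊕ Fin m) F := (g : GL (Fin m ⊕ Fin m) F) * h with ht
  have htn : ∀ u ∈ U, t⁻¹ * u * t ∈ U := by
    intro u hu
    have hmem : (⟨u, hUN hu⟩ : N) ∈ ((g • P2 : Sylow p N) : Subgroup N) := by rw [hg]; exact hu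
    rw [Sylow.coe_subgroup_smul] at hmem
    have hmem2 : MulAut.conj g⁻¹ • (⟨u, hUN hu⟩ : N) ∈ (P2 : Subgroup N) := by
      have := Subgroup.mem_pointwise_smul_iff_inv_smul_mem.1 hmem
      rwa [← map_inv] at this
    rw [← hP2eq, Subgroup.mem_subgroupOf] at hmem2
    obtain ⟨w, hw, hwe⟩ := hmem2
    have hwe' : h * w * h⁻¹ = (g : GL (Fin m ⊕ Fin m) F)⁻¹ * u * (g : GL (Fin m ⊕ Fin m) F) := by simpa using hwe
    have : t⁻¹ * u * t = w := by
      rw [ht, mul_inv_rev]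
      calc h⁻¹ * (g : GL (Fin m ⊕ Fin m) F)⁻¹ * u * ((g : GL (Fin m ⊕ Fin m) F) * h)
          = h⁻¹ * ((g : GL (Fin m ⊕ Fin m) F)⁻¹ * u * (g : GL (Fin m ⊕ Fin m) F)) * h := by group
        _ = w := by rw [← hwe']; group
    rwa [this]
  have htv : (t : Matrix (Fin m ⊕ Fin m) (Fin m ⊕ Fin m) F) *ᵥ v = v := by
    rw [ht, Units.val_mul, ← Matrix.mulVec_mulVec, h1]; exact g.2.2 v (Or.inl rfl)
  obtain ⟨A, hA⟩ := H.line_aut hv hno (mul_mem g.2.1 hh) htv (hstab t htn)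
  refine ⟨A, smul_left_injective E hv ?_⟩
  show A c • v = c' • v
  rw [← hA, Units.val_mul, ← Matrix.mulVec_mulVec, h2]
  exact g.2.2 _ (Or.inr rfl)


/-- Only few scalars are carried to their translate by one by automorphisms. -/
theorem not_all_shift (hr : (Module.finrank F E).Prime)
    (hex : ¬ (Fintype.card F = 2 ∧ Module.finrank F E = 2)) :
    ∃ c : E, c ∉ Set.range (algebraMap F E) ∧ ∀ A : E →ₐ[F] E, A c ≠ c + 1 := by
  classical
  letI : Fintype (E →ₐ[F] E) := Fintype.ofFinite _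
  by_contra hc
  push Not at hc
  set q := Fintype.card F with hq
  set r := Module.finrank F E with hr'
  set R : Finset E := Finset.univ.image (algebraMap F E) with hR
  have hRc : R.card = q := by
    rw [hR, Finset.card_image_of_injective _ (algebraMap F E).injective, Finset.card_univ]
  have hsub : Finset.univ \ R ⊆ (Finset.univ : Finset (E →ₐ[F] E)).biUnion fun A =>
      Finset.univ.filter fun c => A c = c + 1 := by
    intro c hcm
    obtain ⟨A, hA⟩ := hc c fun ⟨t, ht⟩ =>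
      (Finset.mem_sdiff.1 hcm).2 (Finset.mem_image.2 ⟨t, Finset.mem_univ t, ht⟩)
    exact Finset.mem_biUnion.2 ⟨A, Finset.mem_univ _, Finset.mem_filter.2 ⟨Finset.mem_univ _, hA⟩⟩
  have hfib : ∀ A ∈ (Finset.univ : Finset (E →ₐ[F] E)).erase (AlgHom.id F E),
      (Finset.univ.filter fun c => A c = c + 1).card ≤ q := by
    intro A hA
    rcases Finset.eq_empty_or_nonempty (Finset.univ.filter fun c => A c = c + 1) with h0 | ⟨x0, hx0⟩
    · rw [h0, Finset.card_empty]; exact Nat.zero_le _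
    rw [← hRc]
    refine Finset.card_le_card_of_injOn (fun c => c - x0) ?_ (fun a _ b _ h => by simpa using h)
    intro x hx
    rcases (Subalgebra.isSimpleOrder_of_finrank_prime F E hr).eq_bot_or_eq_top
        (AlgHom.equalizer A (AlgHom.id F E)) with h0 | h0
    · have : x - x0 ∈ AlgHom.equalizer A (AlgHom.id F E) := by
        show A (x - x0) = x - x0
        rw [map_sub, (Finset.mem_filter.1 hx).2, (Finset.mem_filter.1 hx0).2]; ring
      rw [h0] at this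
      obtain ⟨t, ht⟩ := Algebra.mem_bot.1 this
      exact Finset.mem_image.2 ⟨t, Finset.mem_univ _, ht⟩
    · exact absurd (AlgHom.ext fun y => (h0 ▸ Algebra.mem_top : y ∈ AlgHom.equalizer A (AlgHom.id F E)))
        (Finset.mem_erase.1 hA).1
  have hid : (Finset.univ.filter fun c => (AlgHom.id F E) c = c + 1) = ∅ :=
    Finset.filter_eq_empty_iff.2 fun c _ => by simp
  have hsub' : Finset.univ \ R ⊆ ((Finset.univ : Finset (E →ₐ[F] E)).erase (AlgHom.id F E)).biUnion fun A =>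
      Finset.univ.filter fun c => A c = c + 1 := by
    intro c hcm
    obtain ⟨A, -, hA⟩ := Finset.mem_biUnion.1 (hsub hcm)
    refine Finset.mem_biUnion.2 ⟨A, Finset.mem_erase.2 ⟨?_, Finset.mem_univ _⟩, hA⟩
    rintro rfl
    rw [hid] at hA
    exact Finset.notMem_empty _ hA
  have h1 := (Finset.card_le_card hsub').trans (Finset.card_biUnion_le_card_mul _ _ q hfib)
  rw [Finset.card_sdiff_of_subset (Finset.subset_univ _), Finset.card_univ, hRc,
    Finset.card_erase_of_mem (Finset.mem_univ _), Finset.card_univ, ← Nat.card_eq_fintype_card (α := E),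
    card_E F E] at h1
  have h2 : (Nat.card (E →ₐ[F] E) - 1) * q ≤ (r - 1) * q :=
    Nat.mul_le_mul_right _ (Nat.sub_le_sub_right (card_algHom_le_finrank F E E) 1)
  have hr2 : 2 ≤ r := hr.two_le
  have hq2 : 2 ≤ q := Fintype.one_lt_card
  have h3 : q ^ r ≤ r * q := by
    rw [Nat.card_eq_fintype_card] at h2
    have h4 := h1.trans h2
    have e : (r - 1) * q + q = r * q := by
      rw [← Nat.succ_mul, show (r - 1).succ = r by omega]
    have h5 : q ^ r - q + q = q ^ r := Nat.sub_add_cancel (Nat.le_self_pow (by omega) q)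
    rw [← hq, ← hr'] at h4
    omega
  obtain ⟨s, hs⟩ : ∃ s, r = s + 2 := ⟨r - 2, by omega⟩
  rw [hs, pow_succ] at h3
  have h6 : q ^ (s + 1) ≤ s + 2 := Nat.le_of_mul_le_mul_right h3 (by omega)
  have h7 : s + 1 < 2 ^ (s + 1) := Nat.lt_two_pow_self
  have h8 : 2 ^ (s + 1) ≤ q ^ (s + 1) := Nat.pow_le_pow_left hq2 _
  rcases Nat.eq_zero_or_pos s with hs0 | hs0
  · subst hs0
    exact hex ⟨by simp at h6; omega, hs⟩
  · obtain ⟨k, rfl⟩ : ∃ k, s = k + 1 := ⟨s - 1, by omega⟩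
    have h9 : k + 1 < 2 ^ (k + 1) := Nat.lt_two_pow_self
    rw [pow_succ] at h8
    omega

/-- Except for the quadratic extension of the field of two elements, `M` is the symplectic group. -/
theorem SCtx.sp_le (H : SCtx fE M) (hex : ¬ (Fintype.card F = 2 ∧ Module.finrank F E = 2)) :
    Cfsg.spGL m F ≤ M := by
  obtain ⟨v, hv⟩ := H.exists_nonzero
  by_contra hnot
  have hno : NoExtra H hv := Classical.byContradiction fun h => hnot (H.sp_le_of_extra hv h)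
  obtain ⟨c, hc, hA⟩ := not_all_shift H.prime hex
  have hc' : c + 1 ∉ Set.range (algebraMap F E) := fun ⟨t, ht⟩ =>
    hc ⟨t - 1, by rw [map_sub, map_one, ht, add_sub_cancel_right]⟩
  obtain ⟨h, hh, h1, h2⟩ := H.fusion hc hv
  obtain ⟨A, hAc⟩ := H.conj_aut hv hno hc hc' hh h1 h2
  exact hA A hAc

end Cfsg.Agent.H58.ExtField
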