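import Cfsg.Agent.H58.ExtField.Sp
import Cfsg.Agent.H2.Perfect

/-!
# Overgroups of symplectic groups over the field of four elements in symplectic groups over two elements

The stabiliser of a vector is transitive on the other nonzero vectors orthogonal to it, so `M` has the products
of any two transvections, and the symplectic group is perfect.
-/

set_option autoImplicit false
set_option linter.unusedSectionVars false
set_option linter.unusedVariables false

namespace Cfsg.Agent.H58.ExtField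

open scoped Matrix commutatorElement

variable {m : ℕ} {F : Type*} [Field F] [Fintype F]
variable {E : Type*} [Field E] [Fintype E] [Algebra F E]
variable [Module E (Fin m ⊕ Fin m → F)] [IsScalarTower F E (Fin m ⊕ Fin m → F)]
variable {fE : (Fin m ⊕ Fin m → F) →ₗ[E] (Fin m ⊕ Fin m → F) →ₗ[E] E} {M : Subgroup (GL (Fin m ⊕ Fin m) F)}

/-- The exceptional case. -/
theorem SCtx.sp_le_four (H : SCtx fE M) (hq : Fintype.card F = 2) (hr : Module.finrank F E = 2) (hm : 3 ≤ m) :
    Cfsg.spGL m F ≤ M := by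
  classical
  have hc2 : CharP F 2 := by
    obtain ⟨p, hp⟩ := CharP.exists F
    have hpp := CharP.char_is_prime F p
    have : Fact p.Prime := ⟨hpp⟩
    obtain ⟨n, -, hn⟩ := FiniteField.card F p
    rw [hq] at hn
    have : p = 2 := (Nat.prime_dvd_prime_iff_eq hpp Nat.prime_two).1 ⟨p ^ ((n : ℕ) - 1), by
      rw [← pow_succ', show (n : ℕ) - 1 + 1 = n by have := n.pos; omega]; exact hn⟩
    exact this ▸ hp
  have h2F : (2 : F) = 0 := CharTwo.two_eq_zero
  have hE2 : CharP E 2 := charP_of_injective_algebraMap (algebraMap F E).injective 2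
  have h2E : (2 : E) = 0 := CharTwo.two_eq_zero
  have h01 : ∀ a : F, a = 0 ∨ a = 1 := by
    intro a
    by_contra h
    push Not at h
    have h3 : ({0, 1, a} : Finset F).card = 3 := by
      rw [Finset.card_insert_of_notMem (by simp [h.1.symm]), Finset.card_insert_of_notMem (by simp [h.2.symm]),
        Finset.card_singleton]
    have := Finset.card_le_univ ({0, 1, a} : Finset F)
    omega
  -- the generator
  obtain ⟨l, hl⟩ : ∃ l : E, l ∉ Set.range (algebraMap F E) := by
    by_contra hc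
    push Not at hc
    have h1 := Fintype.card_le_of_surjective _ hc
    rw [← Nat.card_eq_fintype_card (α := E), card_E F E, hr, hq] at h1
    norm_num at h1
  have hl2 : l * l = l + 1 := by
    have hE : Fintype.card E = 4 := by rw [← Nat.card_eq_fintype_card, card_E F E, hr, hq]; norm_num
    have hl0 : l ≠ 0 := fun h => hl ⟨0, by rw [h, map_zero]⟩
    have h3 : l ^ 3 = 1 := by
      have := FiniteField.pow_card_sub_one_eq_one l hl0
      rwa [hE] at this
    have hl1 : l - 1 ≠ 0 := fun h => hl ⟨1, by rw [map_one, ← sub_eq_zero.1 h]⟩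
    have h : (l - 1) * (l * l + l + 1) = 0 := by linear_combination h3
    linear_combination (mul_eq_zero.1 h).resolve_left hl1 - (l + 1) * h2E
  have hEc : ∀ c : E, ∃ s t : F, c = algebraMap F E s + algebraMap F E t * l := by
    intro c
    have hinj : Function.Injective fun p : F × F => algebraMap F E p.1 + algebraMap F E p.2 * l := by
      rintro ⟨s, t⟩ ⟨s', t'⟩ h
      simp only at h
      by_cases ht : t = t'
      · subst ht
        simpa using h
      · refine absurd ⟨(s' - s) / (t - t'), ?_⟩ hl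
        have hne : algebraMap F E (t - t') ≠ 0 := by simpa [sub_eq_zero] using ht
        rw [map_div₀, div_eq_iff hne, map_sub, map_sub]
        linear_combination -h
    obtain ⟨⟨s, t⟩, h⟩ := ((Fintype.bijective_iff_injective_and_card _).2 ⟨hinj, by
      rw [Fintype.card_prod, ← Nat.card_eq_fintype_card (α := E), card_E F E, hr, pow_two]⟩).2 c
    exact ⟨s, t, h.symm⟩
  have htr0 : ∀ s : F, Algebra.trace F E (algebraMap F E s) = 0 := fun s => by
    rw [Algebra.trace_algebraMap, hr, two_nsmul, ← two_mul, h2F, zero_mul]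
  have htrl : Algebra.trace F E l = 1 := by
    refine (h01 _).resolve_left fun h0 => one_ne_zero (α := E) (eq_zero_of_trace (F := F) fun c => ?_)
    obtain ⟨s, t, rfl⟩ := hEc c
    rw [one_mul, map_add, htr0, ← Algebra.smul_def, map_smul, h0, smul_zero, add_zero]
  have htr : ∀ s t : F, Algebra.trace F E (algebraMap F E s + algebraMap F E t * l) = t := fun s t => by
    rw [map_add, htr0, ← Algebra.smul_def, map_smul, htrl, smul_eq_mul, mul_one, zero_add]
  -- the element of `M` at a line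
  have hline : ∀ v : Fin m ⊕ Fin m → F, H98.spTrans v 1 * H98.spTrans (l • v) 1 ∈ M := by
    intro v
    refine (H98.gl_ext fun z => ?_ : H98.spTrans v 1 * H98.spTrans (l • v) 1 = ts fE v l) ▸ H.ts_mem v l
    obtain ⟨s, t, hst⟩ := hEc (fE z v)
    have h1 : (Cfsg.Agent.H2.sympBilin m F) z v = t := by rw [H.beta_eq, hst, htr]
    have h2 : (Cfsg.Agent.H2.sympBilin m F) z (l • v) = s + t := by
      rw [H.beta_eq, map_smul, smul_eq_mul, hst,
        show l * (algebraMap F E s + algebraMap F E t * l) = algebraMap F E t + algebraMap F E (s + t) * l by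
          rw [map_add]; linear_combination (algebraMap F E t) * hl2,
        htr]
    have h3 : (Cfsg.Agent.H2.sympBilin m F) (l • v) v = 0 := by
      rw [H.beta_eq, map_smul, LinearMap.smul_apply, H.fE_self, smul_zero, map_zero]
    have e : l * fE z v = algebraMap F E t + algebraMap F E (s + t) * l := by
      rw [hst, map_add]; linear_combination (algebraMap F E t) * hl2
    simp only [Units.val_mul, ← Matrix.mulVec_mulVec, H.ts_mulVec, H98.spTrans_mulVec, map_add, map_smul,
      LinearMap.add_apply, LinearMap.smul_apply, h1, h2, h3, one_mul, e, add_smul, mul_smul, algebraMap_smul,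
      smul_eq_mul, mul_zero, add_zero]
    abel
  -- transitivity on orthogonal pairs
  have hpair : ∀ v w : Fin m ⊕ Fin m → F, v ≠ 0 → (Cfsg.Agent.H2.sympBilin m F) v w = 0 → w ≠ 0 → w ≠ v →
      ∃ g ∈ M, (g : Matrix (Fin m ⊕ Fin m) (Fin m ⊕ Fin m) F) *ᵥ v = v ∧
        (g : Matrix (Fin m ⊕ Fin m) (Fin m ⊕ Fin m) F) *ᵥ (l • v) = w := by
    intro v w hv hvw hw0 hwv
    let S : Set (Fin m ⊕ Fin m → F) := Orb M v (l • v)
    have hSorb : ∀ {x}, x ∈ S → ∀ g ∈ M, (g : Matrix (Fin m ⊕ Fin m) (Fin m ⊕ Fin m) F) *ᵥ v = v →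
        (g : Matrix (Fin m ⊕ Fin m) (Fin m ⊕ Fin m) F) *ᵥ x ∈ S := by
      rintro x ⟨k, hk, hkv, hkx⟩ g hg hgv
      refine ⟨g * k, mul_mem hg hk, ?_, ?_⟩ <;> rw [Units.val_mul, ← Matrix.mulVec_mulVec]
      · rw [hkv, hgv]
      · rw [hkx]
    have hperp : ∀ {g : GL (Fin m ⊕ Fin m) F}, g ∈ M →
        (g : Matrix (Fin m ⊕ Fin m) (Fin m ⊕ Fin m) F) *ᵥ v = v → ∀ {x}, (Cfsg.Agent.H2.sympBilin m F) v x = 0 →
        (Cfsg.Agent.H2.sympBilin m F) v ((g : Matrix (Fin m ⊕ Fin m) (Fin m ⊕ Fin m) F) *ᵥ x) = 0 := by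
      intro g hg hgv x hx
      conv_lhs => arg 1; arg 2; rw [← hgv]
      rw [H98.mem_spGL.1 (H.le_sp hg), hx]
    have hSperp : ∀ {x}, x ∈ S → (Cfsg.Agent.H2.sympBilin m F) v x = 0 := by
      rintro x ⟨k, hk, hkv, rfl⟩
      refine hperp hk hkv ?_
      rw [H.beta_eq, map_smul, H.fE_self, smul_zero, map_zero]
    -- vectors of the line
    have hSline : ∀ {x}, x ∈ Submodule.span E {v} → x ≠ 0 → x ≠ v → x ∈ S := by
      intro x hx hx0 hxv
      obtain ⟨c, rfl⟩ := Submodule.mem_span_singleton.1 hx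
      obtain ⟨s, t, rfl⟩ := hEc c
      rcases h01 t with rfl | rfl
      · rcases h01 s with rfl | rfl
        · exact absurd (by simp) hx0
        · exact absurd (by simp) hxv
      · rcases h01 s with rfl | rfl
        · exact ⟨1, one_mem _, by simp, by simp⟩
        · obtain ⟨g, hg, hgv, hgl⟩ := H.fusion hl hv
          exact ⟨g, hg, hgv, by rw [hgl, map_one, one_mul, add_comm]⟩
    -- the classes off the line
    have hcls : ∀ {x}, (Cfsg.Agent.H2.sympBilin m F) v x = 0 → fE v x = 0 ∨ fE v x = 1 := by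
      intro x hx
      obtain ⟨s, t, hst⟩ := hEc (fE v x)
      rw [H.beta_eq, hst, htr] at hx
      rcases h01 s with rfl | rfl
      · left; rw [hst, hx]; simp
      · right; rw [hst, hx]; simp
    have hclass : ∀ {x y}, x ∉ Submodule.span E {v} → y ∉ Submodule.span E {v} →
        (fE v x = 0 ∨ fE v x = 1) → fE v y = fE v x → x ∈ S → y ∈ S := by
      intro x y hx hy hcase hxy hxS
      have step : ∀ {a b}, fE v b = fE v a → fE a b ≠ 0 → a ∈ S → b ∈ S := by
        intro a b hab hne ha
        have h0 : fE v (b - a) = 0 := by rw [map_sub, hab, sub_self]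
        have := hSorb ha _ (H.ts_mem (b - a) (fE a b)⁻¹) (by rw [H.ts_mulVec, h0, mul_zero, zero_smul, add_zero])
        rwa [H.ts_mulVec, map_sub, H.fE_self, sub_zero, inv_mul_cancel₀ hne, one_smul, add_sub_cancel] at this
      by_cases hne : fE x y ≠ 0
      · exact step hxy hne hxS
      push Not at hne
      rcases hcase with h0 | h1
      · obtain ⟨φ, f1, f2⟩ := exists_efunctional hx
        obtain ⟨a, ha⟩ := H.exists_rep φ
        obtain ⟨φ', g1, g2⟩ := exists_efunctional hy
        obtain ⟨b, hb⟩ := H.exists_rep φ'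
        have hva : fE v a = 0 := by rw [← ha]; exact f2 v (Submodule.mem_span_singleton_self v)
        have hvb : fE v b = 0 := by rw [← hb]; exact g2 v (Submodule.mem_span_singleton_self v)
        have hxa : fE x a = 1 := by rw [← ha, f1]
        have hyb : fE y b = 1 := by rw [← hb, g1]
        obtain ⟨z, hz0, hz1, hz2⟩ : ∃ z, fE v z = 0 ∧ fE x z ≠ 0 ∧ fE y z ≠ 0 := by
          by_cases h1 : fE y a = 0
          · by_cases h2 : fE x b = 0
            · exact ⟨a + b, by rw [map_add, hva, hvb, add_zero], by simp [hxa, h2], by simp [hyb, h1]⟩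
            · exact ⟨b, hvb, h2, by simp [hyb]⟩
          · exact ⟨a, hva, by simp [hxa], h1⟩
        exact step (by rw [hxy, h0, hz0]) (by rw [H.fE_swap]; exact neg_ne_zero.2 hz2)
          (step (by rw [hz0, h0]) hz1 hxS)
      · have hxv : fE x v = -1 := by rw [H.fE_swap, h1]
        refine step (a := y + v) (by rw [map_add, H.fE_self, add_zero]) ?_
          (step (by rw [map_add, H.fE_self, add_zero, hxy]) ?_ hxS)
        · rw [map_add, LinearMap.add_apply, H.fE_self, zero_add, hxy, h1]; exact one_ne_zero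
        · rw [map_add, hne, zero_add, hxv]; exact neg_ne_zero.2 one_ne_zero
    by_cases hwl : w ∈ Submodule.span E {v}
    · exact hSline hwl hw0 hwv
    by_contra hwS
    obtain ⟨g0, hg0, hg0v, hout⟩ := H.exists_out hl hv
    have hw0S : (g0 : Matrix (Fin m ⊕ Fin m) (Fin m ⊕ Fin m) F) *ᵥ (l • v) ∈ S := ⟨g0, hg0, hg0v, rfl⟩
    set w1 := (g0 : Matrix (Fin m ⊕ Fin m) (Fin m ⊕ Fin m) F) *ᵥ (l • v) with hw1
    have hne : fE v w ≠ fE v w1 := fun e => hwS (hclass hout hwl (hcls (hSperp hw0S)) e hw0S)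
    -- all stabilising elements carry the class of zero into the orthogonal space over the extension
    have hzero : ∀ g ∈ M, (g : Matrix (Fin m ⊕ Fin m) (Fin m ⊕ Fin m) F) *ᵥ v = v →
        ∀ z, fE v z = 0 → z ∉ Submodule.span E {v} →
          fE v ((g : Matrix (Fin m ⊕ Fin m) (Fin m ⊕ Fin m) F) *ᵥ z) = 0 := by
      intro g hg hgv z hz hzl
      set y := (g : Matrix (Fin m ⊕ Fin m) (Fin m ⊕ Fin m) F) *ᵥ z with hy
      have hβz : (Cfsg.Agent.H2.sympBilin m F) v z = 0 := by rw [H.beta_eq, hz, map_zero]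
      have hyp : (Cfsg.Agent.H2.sympBilin m F) v y = 0 := hperp hg hgv hβz
      by_cases hyl : y ∈ Submodule.span E {v}
      · obtain ⟨c, hc⟩ := Submodule.mem_span_singleton.1 hyl
        rw [← hc, map_smul, H.fE_self, smul_zero]
      by_contra hy0
      rcases hcls (hSperp hw0S) with hcase | hcase
      · have hzS : z ∈ S := hclass hout hzl (Or.inl hcase) (hz.trans hcase.symm) hw0S
        have hyS : y ∈ S := hSorb hzS g hg hgv
        have hwc : fE v w = fE v y := by
          rw [(hcls hvw).resolve_left (fun e => hne (e.trans hcase.symm)), (hcls hyp).resolve_left hy0]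
        exact hwS (hclass hyl hwl (hcls hyp) hwc hyS)
      · have hy1 := (hcls hyp).resolve_left hy0
        have hyS : y ∈ S := hclass hout hyl (Or.inr hcase) (hy1.trans hcase.symm) hw0S
        have hzS : z ∈ S := by
          have := hSorb hyS g⁻¹ (inv_mem hg) (by conv_lhs => rw [← hgv, H98.gl_inv_mulVec])
          rwa [hy, H98.gl_inv_mulVec] at this
        have hwc : fE v w = fE v z := by
          rw [hz]; exact (hcls hvw).resolve_right (fun e => hne (e.trans hcase.symm))
        exact hwS (hclass hzl hwl (hcls hβz) hwc hzS)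
    obtain ⟨z0, hz0, hz0l⟩ : ∃ z, fE v z = 0 ∧ z ∉ Submodule.span E {v} := by
      rcases hcls hvw with h | h
      · exact ⟨w, h, hwl⟩
      · exact ⟨w1, (hcls (hSperp hw0S)).resolve_right (fun e => hne (h.trans e.symm)), hout⟩
    have hzero' : ∀ g ∈ M, (g : Matrix (Fin m ⊕ Fin m) (Fin m ⊕ Fin m) F) *ᵥ v = v →
        ∀ z, fE v z = 0 → fE v ((g : Matrix (Fin m ⊕ Fin m) (Fin m ⊕ Fin m) F) *ᵥ z) = 0 := by
      intro g hg hgv z hz
      by_cases hzl : z ∈ Submodule.span E {v}
      · have h1 := hzero g hg hgv (z + z0) (by rw [map_add, hz, hz0, add_zero]) (fun h => hz0l (by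
          simpa using Submodule.sub_mem _ h hzl))
        rwa [Matrix.mulVec_add, map_add, hzero g hg hgv z0 hz0 hz0l, add_zero] at h1
      · exact hzero g hg hgv z hz hzl
    obtain ⟨φ, f1, f2⟩ := exists_efunctional hout
    obtain ⟨a, ha⟩ := H.exists_rep φ
    have hva : fE v a = 0 := by rw [← ha]; exact f2 v (Submodule.mem_span_singleton_self v)
    have h1a : fE w1 a = 1 := by rw [← ha, f1]
    refine one_ne_zero (α := E) (h1a ▸ ?_ : (1 : E) = 0)
    refine eq_zero_of_trace (F := F) fun c => ?_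
    rw [H.htr, hw1]
    have hinv : ((g0⁻¹ : GL (Fin m ⊕ Fin m) F) : Matrix (Fin m ⊕ Fin m) (Fin m ⊕ Fin m) F) *ᵥ v = v := by
      conv_lhs => rw [← hg0v, H98.gl_inv_mulVec]
    have hb : fE v (((g0⁻¹ : GL (Fin m ⊕ Fin m) F) : Matrix (Fin m ⊕ Fin m) (Fin m ⊕ Fin m) F) *ᵥ (c • a)) = 0 :=
      hzero' _ (inv_mem hg0) hinv _ (by rw [map_smul, hva, smul_zero])
    have hsa : ∀ (d : E) (x y : Fin m ⊕ Fin m → F),
        (Cfsg.Agent.H2.sympBilin m F) (d • x) y = (Cfsg.Agent.H2.sympBilin m F) x (d • y) := fun d x y => by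
      simp only [H.beta_eq, map_smul, LinearMap.smul_apply]
    rw [hsa, ← H98.gl_mulVec_inv g0 (c • a), H98.mem_spGL.1 (H.le_sp hg0), H.beta_eq, map_smul,
      LinearMap.smul_apply, hb, smul_zero, map_zero]
  -- products of two transvections
  have hsq : ∀ v : Fin m ⊕ Fin m → F, H98.spTrans v 1 * H98.spTrans v 1 = 1 := fun v => H98.gl_ext fun z => by
    rw [Units.val_mul, ← Matrix.mulVec_mulVec, Units.val_one, Matrix.one_mulVec, H98.spTrans_mulVec,
      H98.spTrans_mulVec, map_add, map_smul, LinearMap.add_apply, LinearMap.smul_apply, H98.beta_self]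
    simp only [one_mul, smul_zero, add_zero, add_assoc]
    rw [← add_smul, ← two_mul, h2F, zero_mul, zero_smul, add_zero]
  have horth : ∀ a b : Fin m ⊕ Fin m → F, a ≠ 0 → b ≠ 0 → (Cfsg.Agent.H2.sympBilin m F) a b = 0 →
      H98.spTrans a 1 * H98.spTrans b 1 ∈ M := by
    intro a b ha hb hab
    rcases eq_or_ne b a with rfl | hba
    · rw [hsq]; exact one_mem _
    obtain ⟨g, hg, hga, hgb⟩ := hpair a b ha hab hb hba
    have := mul_mem (mul_mem hg (hline a)) (inv_mem hg)
    rwa [← conj_mul, H98.conj_spTrans (H.le_sp hg), H98.conj_spTrans (H.le_sp hg), hga, hgb] at this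
  have hall : ∀ a b : Fin m ⊕ Fin m → F, H98.spTrans a 1 * H98.spTrans b 1 ∈ M ∨ a = 0 ∨ b = 0 := by
    intro a b
    by_cases ha : a = 0
    · exact Or.inr (Or.inl ha)
    by_cases hb : b = 0
    · exact Or.inr (Or.inr hb)
    left
    by_cases hab : (Cfsg.Agent.H2.sympBilin m F) a b = 0
    · exact horth a b ha hb hab
    let L : (Fin m ⊕ Fin m → F) →ₗ[F] F × F :=
      ((Cfsg.Agent.H2.sympBilin m F) a).prod ((Cfsg.Agent.H2.sympBilin m F) b)
    obtain ⟨w, hw, hw0⟩ : ∃ w ∈ LinearMap.ker L, w ≠ 0 :=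
      Submodule.exists_mem_ne_zero_of_ne_bot fun hker => by
        have := LinearMap.finrank_le_finrank_of_injective (LinearMap.ker_eq_bot.1 hker)
        rw [Module.finrank_fintype_fun_eq_card, Module.finrank_prod, Module.finrank_self, Fintype.card_sum,
          Fintype.card_fin] at this
        omega
    simp only [L, LinearMap.mem_ker, LinearMap.prod_apply, Function.prod_apply, Prod.mk_eq_zero] at hw
    have := mul_mem (horth a w ha hw0 hw.1) (inv_mem (horth b w hb hw0 hw.2))
    rwa [mul_inv_rev, mul_assoc, mul_inv_cancel_left, inv_eq_of_mul_eq_one_right (hsq b)] at this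
  -- perfectness
  intro g hg
  let K : Subgroup (Matrix.symplecticGroup (Fin m) F) :=
    { carrier := {A | ∃ g ∈ M, (g : Matrix (Fin m ⊕ Fin m) (Fin m ⊕ Fin m) F) = (A : Matrix _ _ F)}
      mul_mem' := fun {a b} ⟨x, hx, ex⟩ ⟨y, hy, ey⟩ => ⟨x * y, M.mul_mem hx hy, by simp [ex, ey]⟩
      one_mem' := ⟨1, M.one_mem, rfl⟩
      inv_mem' := fun {a} ⟨x, hx, ex⟩ => ⟨x⁻¹, M.inv_mem hx, by
        calc ((x⁻¹ : GL (Fin m ⊕ Fin m) F) : Matrix (Fin m ⊕ Fin m) (Fin m ⊕ Fin m) F)
            = ((x⁻¹ : GL (Fin m ⊕ Fin m) F) : Matrix (Fin m ⊕ Fin m) (Fin m ⊕ Fin m) F) *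
                ((a : Matrix (Fin m ⊕ Fin m) (Fin m ⊕ Fin m) F) * (↑(a⁻¹) : Matrix (Fin m ⊕ Fin m) (Fin m ⊕ Fin m) F)) := by
              rw [← Submonoid.coe_mul, mul_inv_cancel, Submonoid.coe_one, mul_one]
          _ = _ := by rw [← mul_assoc, ← ex, ← Units.val_mul, inv_mul_cancel, Units.val_one, one_mul]⟩ }
  have hcoe : ∀ v : Fin m ⊕ Fin m → F, (H98.spTrans v 1 : Matrix (Fin m ⊕ Fin m) (Fin m ⊕ Fin m) F) =
      (Cfsg.Agent.H2.transv v 1 : Matrix (Fin m ⊕ Fin m) (Fin m ⊕ Fin m) F) := fun v =>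
    Matrix.ext_of_mulVec_single fun i => by
      rw [H98.spTrans_mulVec, Cfsg.Agent.H2.coe_transv, Cfsg.Agent.H2.sympTransvection_mulVec,
        Cfsg.Agent.H2.sympBilin_apply]
  obtain ⟨v0, hv0⟩ := H.exists_nonzero
  set t0 := Cfsg.Agent.H2.transv v0 (1 : F)
  have ht00 : t0 * t0 = 1 := Subtype.ext (by
    rw [Submonoid.coe_mul, ← hcoe, ← Units.val_mul, hsq, Units.val_one, Submonoid.coe_one])
  have ht : ∀ u, Cfsg.Agent.H2.transv u (1 : F) * t0 ∈ K ∨ Cfsg.Agent.H2.transv u (1 : F) = 1 := fun u => by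
    rcases hall u v0 with h | h | h
    · exact Or.inl ⟨_, h, by rw [Units.val_mul, Submonoid.coe_mul, hcoe, hcoe]⟩
    · exact Or.inr (Subtype.ext (by simp [h, Cfsg.sympTransvection]))
    · exact absurd h hv0
  have hgen : ∀ A, A ∈ K ∨ A * t0 ∈ K := by
    intro A
    have hA : A ∈ (⊤ : Subgroup (Matrix.symplecticGroup (Fin m) F)) := Subgroup.mem_top A
    rw [← Cfsg.Agent.H2.closure_transv_eq_top] at hA
    refine Subgroup.closure_induction_right (p := fun A _ => A ∈ K ∨ A * t0 ∈ K) (Or.inl K.one_mem)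
      (fun x _ y hy hx => ?_) (fun x _ y hy hx => ?_) hA
    · obtain ⟨u, c, rfl⟩ := hy
      rcases h01 c with rfl | rfl
      · rwa [Cfsg.Agent.H2.transv_zero, mul_one]
      rcases ht u with h | h
      · rcases hx with hx | hx
        · exact Or.inr (by rw [mul_assoc]; exact K.mul_mem hx h)
        · left
          have := K.mul_mem hx (K.inv_mem h)
          rwa [mul_inv_rev, mul_assoc, mul_inv_cancel_left, Cfsg.Agent.H2.transv_inv,
            CharTwo.neg_eq] at this
      · rwa [h, mul_one]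
    · obtain ⟨u, c, rfl⟩ := hy
      rw [Cfsg.Agent.H2.transv_inv, CharTwo.neg_eq]
      rcases h01 c with rfl | rfl
      · rwa [Cfsg.Agent.H2.transv_zero, mul_one]
      rcases ht u with h | h
      · rcases hx with hx | hx
        · exact Or.inr (by rw [mul_assoc]; exact K.mul_mem hx h)
        · left
          have := K.mul_mem hx (K.inv_mem h)
          rwa [mul_inv_rev, mul_assoc, mul_inv_cancel_left, Cfsg.Agent.H2.transv_inv,
            CharTwo.neg_eq] at this
      · rwa [h, mul_one]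
  have hpar : ∀ A B, A * B ∈ K ↔ (A ∈ K ↔ B ∈ K) := by
    intro A B
    by_cases hA : A ∈ K
    · simp [hA, K.mul_mem_cancel_left hA]
    by_cases hB : B ∈ K
    · simp [hA, hB, K.mul_mem_cancel_right hB]
    simp only [hA, hB, iff_self, iff_true]
    have hA' := (hgen A).resolve_left hA
    have hB' := (hgen B⁻¹).resolve_left (fun h => hB (by simpa using K.inv_mem h))
    have := K.mul_mem hA' (K.inv_mem hB')
    rwa [mul_inv_rev, inv_inv, mul_assoc, mul_inv_cancel_left] at this
  have hcomm : commutator (Matrix.symplecticGroup (Fin m) F) ≤ K := by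
    rw [commutator_def, Subgroup.commutator_le]
    intro A _ B _
    rw [commutatorElement_def, hpar, hpar, hpar, K.inv_mem_iff, K.inv_mem_iff]
    tauto
  rw [Cfsg.Agent.H2.commutator_sp_eq_top (Or.inl hm)] at hcomm
  obtain ⟨x, hx, ex⟩ := hcomm (Subgroup.mem_top (G := Matrix.symplecticGroup (Fin m) F)
    (⟨(g : Matrix (Fin m ⊕ Fin m) (Fin m ⊕ Fin m) F), Cfsg.Agent.H2.mem_symplecticGroup_iff.mpr hg⟩))
  exact (Units.ext ex : x = g) ▸ hx

end Cfsg.Agent.H58.ExtField
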