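import Cfsg.Agent.H58.ExtField.Field
import Cfsg.Agent.H58.ExtField.SpFour

/-!
# The normaliser of a self-adjoint extension field of prime degree is maximal in the symplectic group
-/

set_option autoImplicit false
set_option linter.unusedSectionVars false

namespace Cfsg.Agent.H58.ExtField

open scoped Matrix
open Cfsg.Geo

variable {m : ℕ} {F : Type*} [Field F] [Fintype F]

/-- The normaliser of a self-adjoint field of prime degree is maximal in the symplectic group. -/
theorem field_maximal_sp (hm : 3 ≤ m) {r : ℕ} {K : Subalgebra F (Matrix (Fin m ⊕ Fin m) (Fin m ⊕ Fin m) F)}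
    (hr : r.Prime) (hK : IsFieldSubalgebra r K) (hsa : IsSelfAdjointFor (Cfsg.sympForm m F) K)
    (halt : ∀ k ∈ K, ∀ v : (Fin m ⊕ Fin m → F), Cfsg.sympForm m F (Matrix.mulVec k v) v = 0) :
    IsMaximalIn (Cfsg.spGL m F) (subalgebraNormalizer K ⊓ Cfsg.spGL m F) := by
  classical
  have : Nonempty (Fin m ⊕ Fin m) := ⟨Sum.inl ⟨0, by omega⟩⟩
  have hfr : Module.finrank F (FK hK) = r := FK.finrank_eq hK
  obtain ⟨fE, hfE⟩ := exists_form (m := m) (F := F) (E := FK hK) fun c x y => by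
    rw [H2.sympBilin_apply, H2.sympBilin_apply, FK.smul_eq, FK.smul_eq]
    exact hsa _ (c : ↥K).2 x y
  have hhalt : ∀ (c : FK hK) (x : Fin m ⊕ Fin m → F), (Cfsg.Agent.H2.sympBilin m F) (c • x) x = 0 := fun c x => by
    rw [H2.sympBilin_apply, FK.smul_eq]
    exact halt _ (c : ↥K).2 x
  have hext : ∀ {P Q : Matrix (Fin m ⊕ Fin m) (Fin m ⊕ Fin m) F}, (∀ v, P *ᵥ v = Q *ᵥ v) → P = Q := fun he =>
    Matrix.ext_of_mulVec_single fun _ => he _
  have hlin : ∀ g : GL (Fin m ⊕ Fin m) F, ELin (FK hK) g → g ∈ subalgebraNormalizer K := by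
    intro g hg
    refine mem_normalizer_of_conj fun k hk => ?_
    have : (g : Matrix (Fin m ⊕ Fin m) (Fin m ⊕ Fin m) F) * k *
        ((g⁻¹ : GL (Fin m ⊕ Fin m) F) : Matrix (Fin m ⊕ Fin m) (Fin m ⊕ Fin m) F) = k := hext fun v => by
      rw [← Matrix.mulVec_mulVec, ← Matrix.mulVec_mulVec]
      have := hg (FK.mk hK k hk) (((g⁻¹ : GL (Fin m ⊕ Fin m) F) : Matrix (Fin m ⊕ Fin m) (Fin m ⊕ Fin m) F) *ᵥ v)
      rw [FK.smul_eq, FK.smul_eq, H98.gl_mulVec_inv] at this
      exact this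
    rwa [this]
  have hsemi : ∀ g : GL (Fin m ⊕ Fin m) F, Semi (FK hK) g → g ∈ subalgebraNormalizer K := by
    intro g hg
    refine mem_normalizer_of_conj fun k hk => ?_
    obtain ⟨d, hd⟩ := hg (FK.mk hK k hk)
    have : (g : Matrix (Fin m ⊕ Fin m) (Fin m ⊕ Fin m) F) * k *
        ((g⁻¹ : GL (Fin m ⊕ Fin m) F) : Matrix (Fin m ⊕ Fin m) (Fin m ⊕ Fin m) F) = d.mat := hext fun v => by
      rw [← Matrix.mulVec_mulVec, ← Matrix.mulVec_mulVec]
      have := hd (((g⁻¹ : GL (Fin m ⊕ Fin m) F) : Matrix (Fin m ⊕ Fin m) (Fin m ⊕ Fin m) F) *ᵥ v)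
      rw [FK.smul_eq, FK.smul_eq, H98.gl_mulVec_inv] at this
      exact this
    rw [this]
    exact (d : ↥K).2
  refine H98.isMaximalIn_of inf_le_right ?_ fun M hHM hMK g hg hgH => ?_
  · -- a transvection is not semilinear
    obtain ⟨c, hc⟩ : ∃ c : FK hK, c ∉ Set.range (algebraMap F (FK hK)) := by
      by_contra hall
      push Not at hall
      have h1 := Fintype.card_le_of_surjective _ hall
      rw [← Nat.card_eq_fintype_card (α := FK hK), card_E F (FK hK), hfr] at h1
      have h2 := hr.two_le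
      have h3 : Fintype.card F ^ 2 ≤ Fintype.card F ^ r := Nat.pow_le_pow_right Fintype.card_pos h2
      have h4 : 2 ≤ Fintype.card F := Fintype.one_lt_card
      have h5 := le_trans h3 h1
      rw [pow_two] at h5
      nlinarith
    obtain ⟨v, hv⟩ := exists_ne (0 : Fin m ⊕ Fin m → F)
    refine ⟨H98.spTrans v 1, H98.spTrans_mem _ _, fun h => ?_⟩
    let φ1 : (Fin m ⊕ Fin m → F) →ₗ[F] F := (Cfsg.Agent.H2.sympBilin m F).flip v
    let L : (Fin m ⊕ Fin m → F) →ₗ[F] F × F :=
      φ1.prod (φ1 ∘ₗ DistribSMul.toLinearMap F (Fin m ⊕ Fin m → F) c)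
    obtain ⟨z, hz, hz0⟩ : ∃ z ∈ LinearMap.ker L, z ≠ 0 :=
      Submodule.exists_mem_ne_zero_of_ne_bot fun hker => by
        have := LinearMap.finrank_le_finrank_of_injective (LinearMap.ker_eq_bot.1 hker)
        rw [Module.finrank_fintype_fun_eq_card, Module.finrank_prod, Module.finrank_self, Fintype.card_sum,
          Fintype.card_fin] at this
        omega
    simp only [L, φ1, LinearMap.mem_ker, LinearMap.prod_apply, Function.prod_apply, Prod.mk_eq_zero,
      LinearMap.comp_apply, LinearMap.flip_apply, DistribSMul.toLinearMap_apply] at hz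
    obtain ⟨d, hd⟩ : ∃ d : FK hK, ∀ x, (H98.spTrans v 1 : Matrix (Fin m ⊕ Fin m) (Fin m ⊕ Fin m) F) *ᵥ (c • x) =
        d • ((H98.spTrans v 1 : Matrix (Fin m ⊕ Fin m) (Fin m ⊕ Fin m) F) *ᵥ x) := by
      refine ⟨FK.mk hK _ ((h.1 c.mat).1 (c : ↥K).2), fun x => ?_⟩
      rw [FK.smul_eq, FK.smul_eq]
      show _ = (_ * _ * _) *ᵥ _
      rw [← Matrix.mulVec_mulVec, ← Matrix.mulVec_mulVec, H98.gl_inv_mulVec]
    have hdc : d = c := by
      have := hd z
      have h1 : (Cfsg.Agent.H2.sympBilin m F) z v = 0 := hz.1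
      have h2 : (Cfsg.Agent.H2.sympBilin m F) (c • z) v = 0 := hz.2
      rw [H98.spTrans_mulVec, H98.spTrans_mulVec, h1, h2, mul_zero, zero_smul, add_zero, add_zero] at this
      exact (smul_left_injective (FK hK) hz0 this).symm
    obtain ⟨z', hz'⟩ : ∃ z', (Cfsg.Agent.H2.sympBilin m F) z' v ≠ 0 := by
      by_contra hall
      push Not at hall
      exact hv ((Cfsg.Agent.H2.sympBilin_nondegenerate m F).2 v hall)
    have := hd z'
    rw [hdc, H98.spTrans_mulVec, H98.spTrans_mulVec, smul_add, add_right_inj, one_mul, one_mul,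
      ← algebraMap_smul (FK hK) ((Cfsg.Agent.H2.sympBilin m F) (c • z') v),
      ← algebraMap_smul (FK hK) ((Cfsg.Agent.H2.sympBilin m F) z' v), smul_smul] at this
    have h2 := smul_left_injective (FK hK) hv this
    refine hc ⟨(Cfsg.Agent.H2.sympBilin m F) (c • z') v / (Cfsg.Agent.H2.sympBilin m F) z' v, ?_⟩
    rw [map_div₀, h2, mul_div_assoc, div_self (by simpa using hz'), mul_one]
  · have H : SCtx fE M :=
      { pos := by omega
        prime := by rw [hfr]; exact hr
        le_sp := hMK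
        halt := hhalt
        htr := hfE
        lin := fun g hg hl => hHM ⟨hlin g hl, hg⟩
        notSemi := ⟨g, hg, fun hs => hgH ⟨hsemi g hs, hMK hg⟩⟩ }
    by_cases hex : Fintype.card F = 2 ∧ Module.finrank F (FK hK) = 2
    · exact H.sp_le_four hex.1 hex.2 hm
    · exact H.sp_le hex

end Cfsg.Agent.H58.ExtField
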